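import Mathlib
import Cfsg.Agent.H10.Real4
import Cfsg.Agent.H11.Parab

/-! Invariant subspaces and elementary divisors. -/

set_option autoImplicit false

namespace Cfsg.Agent.H18.El

open Module Polynomial H11 L0 H10

universe u

variable {F : Type u} [Field F] {V V' : Type*} [AddCommGroup V] [Module F V] [AddCommGroup V']
  [Module F V']

/-- `W` is `g`-invariant. -/
abbrev Iv (g : End F V) (W : Submodule F V) : Prop := ∀ x ∈ W, g x ∈ W

theorem iv_iff {g : End F V} {W : Submodule F V} : W.map g ≤ W ↔ Iv g W :=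
  ⟨fun h x hx => h ⟨x, hx, rfl⟩, fun h _ ⟨x, hx, e⟩ => e ▸ h x hx⟩

theorem Iv.sup {g : End F V} {U W : Submodule F V} (h : Iv g U) (h' : Iv g W) : Iv g (U ⊔ W) :=
  fun x hx => by
    obtain ⟨a, ha, b, hb, rfl⟩ := Submodule.mem_sup.mp hx
    rw [map_add]; exact Submodule.add_mem_sup (h a ha) (h' b hb)

theorem Iv.inf {g : End F V} {U W : Submodule F V} (h : Iv g U) (h' : Iv g W) : Iv g (U ⊓ W) :=
  fun x hx => ⟨h x hx.1, h' x hx.2⟩

theorem iv_top (g : End F V) : Iv g ⊤ := fun _ _ => trivial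

theorem iv_bot (g : End F V) : Iv g ⊥ := fun x hx => by
  rw [(Submodule.mem_bot F).mp hx, map_zero]; exact Submodule.zero_mem _

theorem iv_smul {g : End F V} {W : Submodule F V} {c : F} (hc : c ≠ 0) : Iv (c • g) W ↔ Iv g W :=
  forall₂_congr fun x _ => by rw [LinearMap.smul_apply, Submodule.smul_mem_iff _ hc]

theorem Iv.pow {g : End F V} {W : Submodule F V} (h : Iv g W) (k : ℕ) : Iv (g ^ k) W := by
  induction k with
  | zero => intro x hx; simpa using hx
  | succ k ih => intro x hx; rw [pow_succ', End.mul_apply]; exact h _ (ih x hx)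

theorem Iv.aeval {g : End F V} {W : Submodule F V} (h : Iv g W) (f : F[X]) : Iv (aeval g f) W := by
  intro x hx
  induction f using Polynomial.induction_on' with
  | add f f' hf hf' => rw [map_add, LinearMap.add_apply]; exact W.add_mem hf hf'
  | monomial k c =>
    rw [aeval_monomial, End.mul_apply, Module.algebraMap_end_apply]
    exact W.smul_mem _ (h.pow k x hx)

theorem Iv.map_eq [FiniteDimensional F V] {g : V ≃ₗ[F] V} {W : Submodule F V}
    (h : Iv g.toLinearMap W) : W.map g.toLinearMap = W :=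
  Submodule.eq_of_le_of_finrank_eq (iv_iff.mpr h) (LinearEquiv.finrank_map_eq g W)

/-- Total degree. -/
noncomputable def dg (s : Multiset F[X]) : ℕ := (s.map natDegree).sum

theorem dg_add (s t : Multiset F[X]) : dg (s + t) = dg s + dg t := by simp [dg]

theorem dg_zero : dg (0 : Multiset F[X]) = 0 := by simp [dg]

theorem dg_const {s : Multiset F[X]} {i : ℕ} (h : ∀ u ∈ s, u.natDegree = i) :
    dg s = i * s.card := by
  rw [dg, Multiset.map_congr rfl h]; simp [mul_comm]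

theorem dg_replicate (k : ℕ) (u : F[X]) : dg (Multiset.replicate k u) = k * u.natDegree := by
  simp [dg]

variable [FiniteDimensional F V] [FiniteDimensional F V']

/-- `W` is `g`-invariant and the restriction has elementary divisors `s`. -/
def HT (g : End F V) (W : Submodule F V) (s : Multiset F[X]) : Prop :=
  ∃ h : Iv g W, tyE (g.restrict h) = s

theorem HT.iv {g : End F V} {W : Submodule F V} {s : Multiset F[X]} (h : HT g W s) : Iv g W := h.1

theorem Iv.ht {g : End F V} {W : Submodule F V} (h : Iv g W) : ∃ s, HT g W s := ⟨_, h, rfl⟩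

theorem HT.uniq {g : End F V} {W : Submodule F V} {s t : Multiset F[X]} (h : HT g W s)
    (h' : HT g W t) : s = t := h.2.symm.trans h'.2

theorem HT.finrank {g : End F V} {W : Submodule F V} {s : Multiset F[X]} (h : HT g W s) :
    finrank F W = dg s := by rw [finrank_eq_sum_tyE (g.restrict h.1), h.2, dg]

theorem HT.prim {g : End F V} {W : Submodule F V} {s : Multiset F[X]} (h : HT g W s) {u : F[X]}
    (hu : u ∈ s) : Prim u := prim_of_mem_tyE (h.2 ▸ hu)

theorem ht_top (g : End F V) : HT g ⊤ (tyE g) :=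
  ⟨iv_top g, tyE_congr Submodule.topEquiv fun _ => rfl⟩

theorem finrank_dg (g : End F V) : finrank F V = dg (tyE g) := finrank_eq_sum_tyE g

theorem eq_zero_of_dg {s : Multiset F[X]} (hs : ∀ u ∈ s, Prim u) (h : dg s = 0) : s = 0 :=
  Multiset.eq_zero_of_forall_notMem fun u hu => by
    have := Multiset.single_le_sum (s := s.map natDegree) (fun _ _ => Nat.zero_le _) _
      (Multiset.mem_map_of_mem natDegree hu)
    have := (hs u hu).natDegree_pos
    unfold dg at h; omega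

theorem ht_bot (g : End F V) : HT g ⊥ 0 := by
  obtain ⟨s, hs⟩ := (iv_bot g).ht
  rwa [eq_zero_of_dg (fun u => hs.prim) (by rw [← hs.finrank, finrank_bot])] at hs

theorem HT.map {g : End F V} {g' : End F V'} {W : Submodule F V'} {s : Multiset F[X]}
    (h : HT g' W s) (φ : V' →ₗ[F] V) (hφ : Function.Injective φ) (hc : ∀ x, φ (g' x) = g (φ x)) :
    HT g (W.map φ) s :=
  ⟨fun _ ⟨x, hx, e⟩ => ⟨g' x, h.1 x hx, e ▸ hc x⟩, by
    rw [← h.2]
    symm
    exact tyE_congr (Submodule.equivMapOfInjective φ hφ W) fun x => Subtype.ext (hc x)⟩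

theorem HT.sup {g : End F V} {U W : Submodule F V} {s t : Multiset F[X]} (h : HT g U s)
    (h' : HT g W t) (hd : Disjoint U W) : HT g (U ⊔ W) (s + t) := by
  have := (ht_top ((g.restrict h.1).prodMap (g.restrict h'.1))).map (g := g)
    (U.subtype.coprod W.subtype) (by
      rw [← LinearMap.ker_eq_bot, LinearMap.ker_coprod_of_disjoint_range _ _ (by simpa)]; simp)
    (fun x => by simp)
  rwa [tyE_prodMap, h.2, h'.2, Submodule.map_top, LinearMap.range_coprod, Submodule.range_subtype,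
    Submodule.range_subtype] at this

theorem HT.compl {g : End F V} {U W : Submodule F V} {s t : Multiset F[X]} (h : HT g U s)
    (h' : HT g W t) (hd : IsCompl U W) : tyE g = s + t :=
  (ht_top g).uniq (hd.sup_eq_top ▸ h.sup h' hd.disjoint)

theorem exists_split {g : End F V} {s t : Multiset F[X]} (h : tyE g = s + t) :
    ∃ U W, IsCompl U W ∧ HT g U s ∧ HT g W t := by
  obtain ⟨a, ha⟩ := exists_tyE_eq (V := Fin (dg s) → F) (s := s)
    (fun u hu => prim_of_mem_tyE (T := g) (by simp [h, hu])) (by rw [finrank_fin_fun]; rfl)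
  obtain ⟨b, hb⟩ := exists_tyE_eq (V := Fin (dg t) → F) (s := t)
    (fun u hu => prim_of_mem_tyE (T := g) (by simp [h, hu])) (by rw [finrank_fin_fun]; rfl)
  obtain ⟨e, he⟩ := (tyE_eq_iff (a.prodMap b) g).mp (by rw [tyE_prodMap, ha, hb, h])
  refine ⟨_, _, ?_, ha ▸ (ht_top a).map (e.toLinearMap ∘ₗ LinearMap.inl F _ _)
    (e.injective.comp LinearMap.inl_injective) fun x => by simp [← he],
    hb ▸ (ht_top b).map (e.toLinearMap ∘ₗ LinearMap.inr F _ _)
    (e.injective.comp LinearMap.inr_injective) fun x => by simp [← he]⟩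
  rw [Submodule.map_comp, Submodule.map_comp, Submodule.map_top, Submodule.map_top]
  exact (Submodule.orderIsoMapComap e).isCompl LinearMap.isCompl_range_inl_inr

theorem HT.split {g : End F V} {Z : Submodule F V} {s t : Multiset F[X]} (h : HT g Z (s + t)) :
    ∃ U W, Disjoint U W ∧ U ⊔ W = Z ∧ HT g U s ∧ HT g W t := by
  obtain ⟨U, W, hc, hU, hW⟩ := exists_split h.2
  refine ⟨_, _, ?_, ?_, hU.map Z.subtype Z.injective_subtype fun _ => rfl,
    hW.map Z.subtype Z.injective_subtype fun _ => rfl⟩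
  · rw [disjoint_iff, ← Submodule.map_inf _ Z.injective_subtype, hc.inf_eq_bot, Submodule.map_bot]
  · rw [← Submodule.map_sup, hc.sup_eq_top, Submodule.map_top, Submodule.range_subtype]

theorem HT.exists_le {g : End F V} {Z : Submodule F V} {s t : Multiset F[X]} (h : HT g Z t)
    (hs : s ≤ t) : ∃ U ≤ Z, HT g U s := by
  obtain ⟨t', rfl⟩ := Multiset.le_iff_exists_add.mp hs
  obtain ⟨U, W, -, h1, h2, -⟩ := h.split
  exact ⟨U, h1 ▸ le_sup_left, h2⟩

theorem HT.aeval_iff {g : End F V} {W : Submodule F V} {s : Multiset F[X]} (h : HT g W s)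
    (f : F[X]) : (∀ x ∈ W, aeval g f x = 0) ↔ ∀ u ∈ s, u ∣ f := by
  rw [← h.2, ← aeval_eq_zero_iff_tyE]
  have : ∀ x : W, (aeval (g.restrict h.1) f x : V) = aeval g f x := fun x => by
    induction f using Polynomial.induction_on' with
    | add f f' hf hf' => simp [hf, hf']
    | monomial k c =>
      simp only [aeval_monomial, End.mul_apply, Module.algebraMap_end_apply, Submodule.coe_smul]
      rw [End.pow_restrict k h.1]; rfl
  exact ⟨fun H => LinearMap.ext fun x => Subtype.ext ((this x).trans (H x x.2)),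
    fun H x hx => by rw [← this ⟨x, hx⟩, H]; rfl⟩

/-- Every invariant subspace has an invariant complement. -/
def SS (g : End F V) : Prop := ∀ W, Iv g W → ∃ W', Iv g W' ∧ IsCompl W W'

theorem ss_of_pow {g : End F V} {R : ℕ} {z : F} (hR : (R : F) ≠ 0) (hz : z ≠ 0)
    (h : g ^ R = z • 1) : SS g := fun W hW => by
  have := End.isSemisimple_of_squarefree_aeval_eq_zero (f := g)
    (separable_X_pow_sub_C z hR hz).squarefree
    (by simp [h, Algebra.algebraMap_eq_smul_one])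
  obtain ⟨W', h1, h2⟩ := End.isSemisimple_iff.mp this W hW
  exact ⟨W', h1, h2⟩

omit [FiniteDimensional F V] in
theorem SS.smul {g : End F V} (h : SS g) {c : F} (hc : c ≠ 0) : SS (c • g) := fun W hW => by
  simpa only [iv_smul hc] using h W ((iv_smul hc).mp hW)

omit [FiniteDimensional F V] in
theorem SS.compl {g : End F V} (h : SS g) {W Z : Submodule F V} (hW : Iv g W) (hZ : Iv g Z)
    (hle : W ≤ Z) : ∃ W', Iv g W' ∧ Disjoint W W' ∧ W ⊔ W' = Z := by
  obtain ⟨W', h1, h2⟩ := h W hW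
  refine ⟨W' ⊓ Z, h1.inf hZ, h2.disjoint.mono_right inf_le_left, ?_⟩
  rw [← sup_inf_assoc_of_le _ hle, h2.sup_eq_top, top_inf_eq]

theorem SS.le {g : End F V} (h : SS g) {W Z : Submodule F V} {s t : Multiset F[X]} (hW : HT g W s)
    (hZ : HT g Z t) (hle : W ≤ Z) : s ≤ t := by
  obtain ⟨W', h1, h2, h3⟩ := h.compl hW.iv hZ.iv hle
  obtain ⟨s', h4⟩ := h1.ht
  rw [hZ.uniq (h3 ▸ hW.sup h4 h2)]
  exact Multiset.le_add_right _ _

theorem exists_le_map {α β : Type*} {f : α → β} {s : Multiset α} {ν : Multiset β}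
    (h : ν ≤ s.map f) : ∃ t ≤ s, t.map f = ν := by
  classical
  induction ν using Multiset.induction_on generalizing s with
  | empty => exact ⟨0, Multiset.zero_le _, rfl⟩
  | cons b ν ih =>
    obtain ⟨a, ha, rfl⟩ := Multiset.mem_map.mp (Multiset.mem_of_le h (Multiset.mem_cons_self _ _))
    obtain ⟨s, rfl⟩ := Multiset.exists_cons_of_mem ha
    rw [Multiset.map_cons, Multiset.cons_le_cons_iff] at h
    obtain ⟨t, h1, rfl⟩ := ih h
    exact ⟨a ::ₘ t, Multiset.cons_le_cons _ h1, by simp⟩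

/-- The degrees of the elementary divisors. -/
noncomputable def dm (g : End F V) : Multiset ℕ := (tyE g).map natDegree

theorem sum_dm (g : End F V) : (dm g).sum = finrank F V := (finrank_eq_sum_tyE g).symm

theorem compl_iff (g : End F V) (m : ℕ) :
    (∃ U W : Submodule F V, IsCompl U W ∧ finrank F U = m ∧ Iv g U ∧ Iv g W) ↔ ∃ ν ≤ dm g, ν.sum = m := by
  refine ⟨fun ⟨U, W, h1, h2, h3, h4⟩ => ?_, fun ⟨ν, h1, h2⟩ => ?_⟩
  · obtain ⟨s, hs⟩ := h3.ht
    obtain ⟨t, ht⟩ := h4.ht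
    exact ⟨s.map natDegree, Multiset.map_le_map (hs.compl ht h1 ▸ Multiset.le_add_right _ _),
      hs.finrank.symm.trans h2⟩
  · obtain ⟨s, h3, rfl⟩ := exists_le_map h1
    obtain ⟨t, h4⟩ := Multiset.le_iff_exists_add.mp h3
    obtain ⟨U, W, h5, h6, h7⟩ := exists_split h4
    exact ⟨U, W, h5, h6.finrank.trans h2, h6.iv, h7.iv⟩

theorem SS.sub_iff {g : End F V} (h : SS g) (m : ℕ) :
    (∃ U : Submodule F V, finrank F U = m ∧ Iv g U) ↔ ∃ ν ≤ dm g, ν.sum = m := by
  rw [← compl_iff]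
  refine ⟨fun ⟨U, h1, h2⟩ => ?_, fun ⟨U, _, _, h1, h2, _⟩ => ⟨U, h1, h2⟩⟩
  obtain ⟨W, h3, h4⟩ := h U h2
  exact ⟨U, W, h4, h1, h2, h3⟩

theorem SS.flag_iff {g : End F V} (h : SS g) (m m' : ℕ) :
    (∃ U W : Submodule F V, U ≤ W ∧ finrank F U = m ∧ finrank F W = m' ∧ Iv g U ∧ Iv g W) ↔
      ∃ ν ν', ν ≤ ν' ∧ ν' ≤ dm g ∧ ν.sum = m ∧ ν'.sum = m' := by
  refine ⟨fun ⟨U, W, h0, h1, h2, h3, h4⟩ => ?_, fun ⟨ν, ν', h0, h1, h2, h3⟩ => ?_⟩
  · obtain ⟨s, hs⟩ := h3.ht
    obtain ⟨t, ht⟩ := h4.ht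
    exact ⟨_, _, Multiset.map_le_map (h.le hs ht h0), Multiset.map_le_map
      (h.le ht (ht_top g) le_top), hs.finrank.symm.trans h1, ht.finrank.symm.trans h2⟩
  · obtain ⟨t, h4, rfl⟩ := exists_le_map h1
    obtain ⟨s, h5, rfl⟩ := exists_le_map h0
    obtain ⟨W, -, h6⟩ := (ht_top g).exists_le h4
    obtain ⟨U, h7, h8⟩ := h6.exists_le h5
    exact ⟨U, W, h7, h8.finrank.trans h2, h6.finrank.trans h3, h8.iv, h6.iv⟩

theorem le_two_rep {a k i : ℕ} {ν : Multiset ℕ}
    (h : ν ≤ Multiset.replicate a 1 + Multiset.replicate k i) :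
    ∃ a' ≤ a, ∃ k' ≤ k, ν = Multiset.replicate a' 1 + Multiset.replicate k' i := by
  obtain ⟨s, t, rfl, h1, h2⟩ : ∃ s t, ν = s + t ∧ s ≤ Multiset.replicate a 1 ∧
      t ≤ Multiset.replicate k i := by
    refine ⟨ν ∩ Multiset.replicate a 1, ν - Multiset.replicate a 1, ?_, Multiset.inter_le_right,
      Multiset.sub_le_iff_le_add'.mpr h⟩
    rw [add_comm, Multiset.sub_add_inter]
  obtain ⟨a', h3, rfl⟩ := Multiset.le_replicate_iff.mp h1
  obtain ⟨k', h4, rfl⟩ := Multiset.le_replicate_iff.mp h2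
  exact ⟨a', h3, k', h4, rfl⟩

theorem two_rep_le {a k i a' k' : ℕ} (h : a' ≤ a) (h' : k' ≤ k) :
    Multiset.replicate a' 1 + Multiset.replicate k' i ≤
      Multiset.replicate a 1 + Multiset.replicate k i :=
  add_le_add ((Multiset.replicate_le_replicate _).mpr h) ((Multiset.replicate_le_replicate _).mpr h')

theorem sum_two_rep (a k i : ℕ) :
    (Multiset.replicate a 1 + Multiset.replicate k i).sum = a + k * i := by simp

theorem sub_two_rep (a k i m : ℕ) :
    (∃ ν ≤ Multiset.replicate a 1 + Multiset.replicate k i, ν.sum = m) ↔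
      ∃ a' ≤ a, ∃ k' ≤ k, a' + k' * i = m :=
  ⟨fun ⟨_, h1, h2⟩ => by
    obtain ⟨a', h3, k', h4, rfl⟩ := le_two_rep h1
    exact ⟨a', h3, k', h4, (sum_two_rep _ _ _).symm.trans h2⟩,
  fun ⟨_, h1, _, h2, h3⟩ => ⟨_, two_rep_le h1 h2, (sum_two_rep _ _ _).trans h3⟩⟩

theorem flag_two_rep (a k i m m' : ℕ) :
    (∃ ν ν', ν ≤ ν' ∧ ν' ≤ Multiset.replicate a 1 + Multiset.replicate k i ∧ ν.sum = m ∧
      ν'.sum = m') ↔ ∃ a₁ a₂ k₁ k₂, a₁ ≤ a₂ ∧ a₂ ≤ a ∧ k₁ ≤ k₂ ∧ k₂ ≤ k ∧ a₁ + k₁ * i = m ∧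
        a₂ + k₂ * i = m' :=
  ⟨fun ⟨_, _, h0, h1, h2, h2'⟩ => by
    obtain ⟨a', h3, k', h4, rfl⟩ := le_two_rep h1
    obtain ⟨a'', h5, k'', h6, rfl⟩ := le_two_rep h0
    exact ⟨a'', a', k'', k', h5, h3, h6, h4, (sum_two_rep _ _ _).symm.trans h2,
      (sum_two_rep _ _ _).symm.trans h2'⟩,
  fun ⟨_, _, _, _, h1, h2, h3, h4, h5, h6⟩ => ⟨_, _, two_rep_le h1 h3, two_rep_le h2 h4,
    (sum_two_rep _ _ _).trans h5, (sum_two_rep _ _ _).trans h6⟩⟩

end Cfsg.Agent.H18.El
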