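import Mathlib
import Cfsg.Agent.H18.El1
import Cfsg.Agent.H10.Reg

/-! Elements of prime order modulo scalars of `SL`, and counting lemmas. -/

set_option autoImplicit false

namespace Cfsg.Agent.H18.El

open Module Polynomial H11 L0 H10

universe u

section count
variable {G X : Type*} [Group G] [MulAction G X] {P : X → Prop}

theorem not_dvd_of_fix [Finite {x // P x}] (hP : ∀ (g : G) x, P x → P (g • x)) {r : ℕ}
    [Fact r.Prime] {g : G} {e : ℕ} (hg : g ^ r ^ e = 1) (K : Subgroup G) {x₀ : X}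
    (hfix : ∀ x, (P x ∧ g • x = x) ↔ ∃ k ∈ K, k • x₀ = x) (hK : ¬ r ∣ Nat.card K) :
    ¬ r ∣ Nat.card {x // P x} := by
  let S : SubMulAction G X := ⟨{x | P x}, fun c {x} hx => hP c x hx⟩
  have : Finite S := ‹Finite {x // P x}›
  have h1 : IsPGroup r (Subgroup.zpowers g) := fun x => by
    obtain ⟨_, k, rfl⟩ := x
    refine ⟨e, Subtype.ext ?_⟩
    change (g ^ k) ^ r ^ e = 1
    rw [← zpow_natCast, ← zpow_mul, mul_comm, zpow_mul, zpow_natCast, hg, one_zpow]
  have h2 := h1.card_modEq_card_fixedPoints S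
  have h3 : Nat.card (MulAction.fixedPoints (Subgroup.zpowers g) S) =
      Nat.card (MulAction.orbit K x₀) := by
    refine Nat.card_congr ⟨fun x => ⟨x.1.1, ?_⟩, fun x => ⟨⟨x.1, ?_⟩, ?_⟩, fun _ => rfl,
      fun _ => rfl⟩
    · obtain ⟨k, hk, h⟩ := (hfix x.1.1).mp ⟨x.1.2, congrArg Subtype.val
        (x.2 ⟨g, Subgroup.mem_zpowers g⟩)⟩
      exact ⟨⟨k, hk⟩, h⟩
    · obtain ⟨k, h⟩ := x.2
      exact ((hfix x.1).mpr ⟨k, k.2, h⟩).1
    · obtain ⟨k, h⟩ := x.2
      rintro ⟨_, j, rfl⟩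
      exact Subtype.ext (MulAction.fixedBy_subset_fixedBy_zpow X g j
        ((hfix x.1).mpr ⟨k, k.2, h⟩).2)
  intro h
  refine hK (((Nat.ModEq.dvd_iff h2 dvd_rfl).mp h).trans ?_)
  rw [h3, Nat.card_coe_set_eq, ← MulAction.index_stabilizer]
  exact Subgroup.index_dvd_card _

theorem card_mul_dvd {x₀ : X} (hP : ∀ x, P x ↔ ∃ g : G, g • x₀ = x) {H : Type*} [Group H]
    (φ : H →* G) (hφ : Function.Injective φ) (h : ∀ k, φ k • x₀ = x₀) :
    Nat.card {x // P x} * Nat.card H ∣ Nat.card G := by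
  have h1 : Nat.card {x // P x} = (MulAction.stabilizer G x₀).index := by
    rw [MulAction.index_stabilizer, ← Nat.card_coe_set_eq]
    exact Nat.card_congr (Equiv.subtypeEquivRight hP)
  rw [h1, ← (MulAction.stabilizer G x₀).index_mul_card]
  exact Nat.mul_dvd_mul_left _ (Subgroup.card_dvd_of_injective (φ.codRestrict _ h)
    fun a b e => hφ (congrArg Subtype.val e))

end count

section cyc
variable {G : Type*} [CommGroup G] [IsCyclic G] [Finite G] {r : ℕ} [hr : Fact r.Prime]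

theorem cyc_nonpow (h : r ∣ Nat.card G) {k : ℕ} (hk : k ≠ 0) :
    (∃ z : G, (∀ w, w ^ r ≠ z) ∧ z ^ k = 1) ↔ padicValNat r (Nat.card G) ≤ padicValNat r k := by
  have h0 : Nat.card G ≠ 0 := Nat.card_pos.ne'
  have h1 : ∀ z : G, (∀ w, w ^ r ≠ z) ↔ ¬ orderOf z ∣ Nat.card G / r := fun z => by
    rw [orderOf_dvd_iff_pow_eq_one, ← Nat.gcd_eq_right h, ← exists_pow_eq_iff, Nat.gcd_eq_right h]
    simp
  obtain ⟨M, hM⟩ := h
  have h2 : Nat.card G / r = M := by rw [hM, Nat.mul_div_cancel_left _ hr.out.pos]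
  have hM0 : M ≠ 0 := by rintro rfl; simp [hM] at h0
  simp only [h1, h2, ← orderOf_dvd_iff_pow_eq_one]
  constructor
  · rintro ⟨z, h3, h4⟩
    rw [← padicValNat_dvd_iff_le hk]
    refine Dvd.dvd.trans ?_ h4
    obtain ⟨c, hc⟩ := orderOf_dvd_natCard z
    have h5 : ¬ r ∣ c := by
      rintro ⟨c, rfl⟩
      exact h3 ⟨c, Nat.eq_of_mul_eq_mul_left hr.out.pos (by rw [← hM, hc]; ring)⟩
    refine (Nat.Coprime.pow_left _ ((Nat.Prime.coprime_iff_not_dvd hr.out).mpr h5)
      ).dvd_of_dvd_mul_right ?_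
    rw [← hc]; exact pow_padicValNat_dvd
  · intro h3
    obtain ⟨γ, hγ⟩ := IsCyclic.exists_ofOrder_eq_natCard (α := G)
    have h4 : orderOf (γ ^ (Nat.card G / r ^ padicValNat r (Nat.card G))) =
        r ^ padicValNat r (Nat.card G) := by
      rw [← hγ]; exact orderOf_pow_orderOf_div (hγ ▸ h0) pow_padicValNat_dvd
    refine ⟨_, fun h5 => ?_, h4.symm ▸ (padicValNat_dvd_iff_le hk).mpr h3⟩
    rw [h4] at h5
    have := (padicValNat_dvd_iff_le hM0).mp h5
    rw [hM, padicValNat.mul hr.out.ne_zero hM0, padicValNat_self] at this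
    omega

omit [IsCyclic G] in
theorem exists_pow_of_not_dvd (h : ¬ r ∣ Nat.card G) (z : G) : ∃ w, w ^ r = z :=
  (powCoprime ((Nat.Prime.coprime_iff_not_dvd hr.out).mpr h).symm).surjective z

omit [IsCyclic G] in
theorem eq_one_of_not_dvd (h : ¬ r ∣ Nat.card G) {z : G} (hz : z ^ r = 1) : z = 1 :=
  (powCoprime ((Nat.Prime.coprime_iff_not_dvd hr.out).mpr h).symm).injective
    (hz.trans (one_pow r).symm)

end cyc

variable {F : Type u} [Field F] {V V' : Type*} [AddCommGroup V] [Module F V] [AddCommGroup V']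
  [Module F V']

/-- The action of the general linear group on subspaces. -/
@[reducible] def actSub (F : Type u) [Field F] (V : Type*) [AddCommGroup V] [Module F V] :
    MulAction (V ≃ₗ[F] V) (Submodule F V) where
  smul g W := W.map g.toLinearMap
  one_smul W := Submodule.map_id W
  mul_smul g h W := Submodule.map_comp h.toLinearMap g.toLinearMap W

attribute [local instance] actSub

theorem smul_sub_def (g : V ≃ₗ[F] V) (W : Submodule F V) : g • W = W.map g.toLinearMap := rfl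

/-- Non-scalar with scalar `r`-th power. -/
def PE (r : ℕ) (g : End F V) : Prop := (∃ c : F, g ^ r = c • 1) ∧ ∀ c : F, g ≠ c • 1

theorem PE.smul {r : ℕ} {g : End F V} (h : PE r g) {c : F} (hc : c ≠ 0) : PE r (c • g) := by
  obtain ⟨⟨z, hz⟩, h⟩ := h
  refine ⟨⟨c ^ r * z, by rw [_root_.smul_pow, hz, mul_smul]⟩, fun a e => h (c⁻¹ * a) ?_⟩
  rw [mul_smul, ← e, inv_smul_smul₀ hc]

theorem pe_toLin' {ι : Type} [Fintype ι] [DecidableEq ι] (r : ℕ) (A : Matrix ι ι F) :
    PE r (Matrix.toLin' A) ↔ (∃ c : F, A ^ r = c • 1) ∧ ∀ c : F, A ≠ c • 1 := by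
  have : ∀ (A : Matrix ι ι F) (c : F), Matrix.toLin' A = c • 1 ↔ A = c • 1 := fun A c => by
    rw [← Matrix.toLin'.injective.eq_iff, map_smul, Matrix.toLin'_one]; rfl
  simp only [PE, ← Matrix.toLin'_pow, ne_eq, this]

theorem sl_forall {ι : Type} [Fintype ι] [DecidableEq ι] (r : ℕ) (P : End F (ι → F) → Prop) :
    (∀ x : Matrix.SpecialLinearGroup ι F,
      (∃ c : F, ((x ^ r : Matrix.SpecialLinearGroup ι F) : Matrix ι ι F) = c • 1) →
      (∀ c : F, (x : Matrix ι ι F) ≠ c • 1) → P (Matrix.toLin' (x : Matrix ι ι F))) ↔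
    ∀ g : End F (ι → F), LinearMap.det g = 1 → PE r g → P g := by
  refine ⟨fun H g h1 h2 => ?_, fun H x h1 h2 => H _ (by simp) ((pe_toLin' r _).mpr ⟨by simpa using h1, h2⟩)⟩
  obtain ⟨A, rfl⟩ := Matrix.toLin'.surjective g
  rw [pe_toLin'] at h2
  exact H ⟨A, by simpa using h1⟩ (h2.1.imp fun c hc =>
    (Matrix.SpecialLinearGroup.coe_pow _ _).trans hc) h2.2

variable [FiniteDimensional F V] [FiniteDimensional F V']

theorem det_tyE (g : End F V) :
    LinearMap.det g = (-1) ^ finrank F V * ((tyE g).map fun u => u.coeff 0).prod := by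
  rw [LinearMap.det_eq_sign_charpoly_coeff, charpoly_eq_prod_tyE, coeff_zero_multiset_prod]

theorem pow_eq_smul_iff (g : End F V) (k : ℕ) (z : F) :
    g ^ k = z • 1 ↔ ∀ u ∈ tyE g, u ∣ X ^ k - C z := by
  rw [← aeval_eq_zero_iff_tyE]; simp [sub_eq_zero, Algebra.algebraMap_eq_smul_one]

theorem ne_zero_of_pow {g : End F V} {k : ℕ} {z : F} (h0 : 0 < finrank F V)
    (hd : LinearMap.det g ≠ 0) (h : g ^ k = z • 1) : z ≠ 0 := by
  rintro rfl
  have := congrArg LinearMap.det h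
  rw [map_pow, LinearMap.det_smul, zero_pow h0.ne', zero_mul] at this
  exact hd (pow_eq_zero_iff' .. |>.mp this).1

theorem smul_one_inj (h0 : 0 < finrank F V) {a b : F} (h : (a • 1 : End F V) = b • 1) : a = b := by
  have := Module.finrank_pos_iff.mp h0
  obtain ⟨v, hv⟩ := exists_ne (0 : V)
  exact smul_left_injective F hv (LinearMap.congr_fun h v)

theorem ty_split {r : ℕ} (hr : (r : F) ≠ 0) {g : End F V} (h : g ^ r = 1) :
    ∃ a A, tyE g = Multiset.replicate a (X - 1) + A ∧ ∀ u ∈ A, IrrD r u ∧ u ≠ X - 1 := by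
  classical
  exact ⟨_, _, (eq_filter_add _).trans (add_comm _ _), fun u hu =>
    ⟨irrD_of_mem hr h (Multiset.mem_of_mem_filter hu), Multiset.of_mem_filter (p := (· ≠ X - 1)) hu⟩⟩

theorem eq_one_of_ty {g : End F V} (h : ∀ u ∈ tyE g, u = X - 1) : g = 1 := by
  have := (pow_eq_smul_iff g 1 1).mpr fun u hu => by simp [h u hu]
  simpa using this

theorem IrrD.deg [Finite F] {r : ℕ} (hr : r.Prime) {u : F[X]} (h : IrrD r u) (h1 : u ≠ X - 1) :
    u.natDegree = orderOf ((Nat.card F : ℕ) : ZMod r) :=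
  natDegree_eq_orderOf_of_prime h.1 h.2.1 hr h.2.2 h1

theorem exists_irrD [Finite F] {r : ℕ} (hr : r.Prime) (h0 : (r : F) ≠ 0) :
    ∃ u : F[X], IrrD r u ∧ u ≠ X - 1 := by
  have h := card_PF (F := F) hr h0
  have := hr.two_le
  have : Nonempty (PF F r) := (Nat.card_pos_iff.mp (Nat.pos_of_ne_zero fun e => by
    rw [e] at h; omega)).1
  exact ⟨_, this.some.2⟩

theorem dm_split [Finite F] {r : ℕ} (hr : r.Prime) (h0 : (r : F) ≠ 0) {g : End F V}
    (h : g ^ r = 1) (h1 : g ≠ 1) : ∃ a k, 0 < k ∧ dm g = Multiset.replicate a 1 +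
      Multiset.replicate k (orderOf ((Nat.card F : ℕ) : ZMod r)) := by
  obtain ⟨a, A, h2, h3⟩ := ty_split h0 h
  refine ⟨a, A.card, Multiset.card_pos.mpr ?_, ?_⟩
  · rintro rfl
    exact h1 (eq_one_of_ty fun u hu => Multiset.eq_of_mem_replicate (by simpa [h2] using hu))
  · rw [dm, h2, Multiset.map_add, Multiset.map_replicate, natDegree_X_sub_one,
      Multiset.map_congr rfl fun u hu => IrrD.deg hr (h3 u hu).1 (h3 u hu).2, Multiset.map_const']

theorem ty_nonsplit {r : ℕ} (hr : r.Prime) {g : End F V} {z : F} (h : g ^ r = z • 1)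
    (hz : ∀ w, w ^ r ≠ z) : r ∣ finrank F V ∧
      tyE g = Multiset.replicate (finrank F V / r) (X ^ r - C z) ∧
      LinearMap.det g = ((-1) ^ (r + 1) * z) ^ (finrank F V / r) := by
  have h1 := X_pow_sub_C_irreducible_of_prime hr hz
  have h2 := monic_X_pow_sub_C z hr.ne_zero
  have h3 : tyE g = Multiset.replicate _ (X ^ r - C z) :=
    Multiset.eq_replicate_card.mpr fun u hu => eq_of_monic_of_associated (prim_of_mem_tyE hu).monic
      h2 ((h1.dvd_iff.mp ((pow_eq_smul_iff g r z).mp h u hu)).resolve_left fun e => by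
        have := (prim_of_mem_tyE hu).natDegree_pos
        rw [natDegree_eq_zero_of_isUnit e] at this; omega).symm
  have h4 := finrank_dg g
  rw [h3, dg_replicate, natDegree_X_pow_sub_C] at h4
  rw [det_tyE, h4, Nat.mul_div_cancel _ hr.pos]
  refine ⟨Dvd.intro_left _ rfl, h3, ?_⟩
  rw [h3, Multiset.map_replicate, Multiset.prod_replicate, Multiset.card_replicate, mul_comm _ r,
    pow_mul, ← mul_pow]
  congr 1
  simp [coeff_X_pow, hr.ne_zero.symm, pow_succ]

theorem exists_nonsplit {r : ℕ} (hr : r.Prime) {z : F} (hz : ∀ w, w ^ r ≠ z)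
    (hn : r ∣ finrank F V) : ∃ g : End F V, g ^ r = z • 1 := by
  obtain ⟨g, hg⟩ := exists_tyE_eq (V := V) (s := Multiset.replicate (finrank F V / r) (X ^ r - C z))
    (fun u hu => Multiset.eq_of_mem_replicate hu ▸ Prim.of_irreducible
      (X_pow_sub_C_irreducible_of_prime hr hz) (monic_X_pow_sub_C z hr.ne_zero))
    (by simp [natDegree_X_pow_sub_C, Nat.div_mul_cancel hn])
  exact ⟨g, (pow_eq_smul_iff g r z).mpr fun u hu => by
    rw [hg] at hu; rw [Multiset.eq_of_mem_replicate hu]⟩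

theorem pe_nonsplit {r : ℕ} {g : End F V} {z : F} (h0 : 0 < finrank F V) (h : g ^ r = z • 1)
    (hz : ∀ w, w ^ r ≠ z) : PE r g :=
  ⟨⟨z, h⟩, fun c e => hz c (smul_one_inj h0 (by rw [← h, e, _root_.smul_pow, one_pow]))⟩

/-- The condition for the non-existence of non-split elements. -/
def Cond (r n q : ℕ) : Prop :=
  padicValNat r n ≤ padicValNat r (q - 1) ∧ (r = 2 → Even n → q % 4 = 1)

theorem card_units' [Finite F] : Nat.card Fˣ = Nat.card F - 1 := Nat.card_units F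

theorem ord_eq_one_iff {q r : ℕ} (hq : 0 < q) : orderOf (q : ZMod r) = 1 ↔ r ∣ q - 1 := by
  rw [← Nat.dvd_one, orderOf_zmod_dvd_iff hq, pow_one]

theorem val_div {r n : ℕ} [hr : Fact r.Prime] (h : r ∣ n) (hn : n ≠ 0) :
    n / r ≠ 0 ∧ padicValNat r n = padicValNat r (n / r) + 1 := by
  obtain ⟨k, rfl⟩ := h
  have : k ≠ 0 := by rintro rfl; simp at hn
  rw [Nat.mul_div_cancel_left _ hr.out.pos, padicValNat.mul hr.out.ne_zero this, padicValNat_self]
  exact ⟨this, add_comm _ _⟩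

theorem nonsplit_iff [Finite F] {r n : ℕ} [hr : Fact r.Prime] (h : r ∣ Nat.card F - 1)
    (hn : n ≠ 0) : (∃ z : F, z ≠ 0 ∧ (∀ w, w ^ r ≠ z) ∧ r ∣ n ∧ ((-1) ^ (r + 1) * z) ^ (n / r) = 1)
      ↔ ¬ Cond r n (Nat.card F) := by
  have := Fintype.ofFinite F
  have hq : 1 < Nat.card F := Finite.one_lt_card
  have h1 : 1 ≤ padicValNat r (Nat.card F - 1) := one_le_padicValNat_of_dvd (by omega) h
  by_cases hs : ∃ s : F, s ^ r = (-1) ^ (r + 1)
  · obtain ⟨s, hs⟩ := hs
    have hs0 : s ≠ 0 := by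
      rintro rfl
      rw [zero_pow hr.out.ne_zero] at hs
      exact pow_ne_zero _ (by simp) hs.symm
    have h4 : r = 2 → Nat.card F % 4 = 1 := by
      rintro rfl
      have : Nat.card F % 4 ≠ 3 := by
        rw [Nat.card_eq_fintype_card, ← FiniteField.isSquare_neg_one_iff]
        exact ⟨s, by rw [← sq, hs]; norm_num⟩
      omega
    have h5 : ¬ Cond r n (Nat.card F) ↔ r ∣ n ∧ padicValNat r (Nat.card Fˣ) ≤
        padicValNat r (n / r) := by
      rw [card_units', Cond, and_iff_left fun e _ => h4 e, not_le]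
      refine ⟨fun h6 => ?_, fun ⟨h6, h7⟩ => by rw [(val_div h6 hn).2]; omega⟩
      have h7 : r ∣ n := dvd_of_one_le_padicValNat (by omega)
      exact ⟨h7, by rw [(val_div h7 hn).2] at h6; omega⟩
    rw [h5, ← hs]
    constructor
    · rintro ⟨z, h6, h7, h8, h9⟩
      refine ⟨h8, (cyc_nonpow (card_units' (F := F) ▸ h) (val_div h8 hn).1).mp
        ⟨Units.mk0 _ (mul_ne_zero (pow_ne_zero r hs0) h6), fun w e => h7 (w / s) ?_,
          Units.ext (by simpa using h9)⟩⟩
      have : (w : F) ^ r = s ^ r * z := by simpa using congrArg Units.val e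
      rw [div_pow, this]; field_simp
    · rintro ⟨h6, h7⟩
      obtain ⟨z, h8, h9⟩ := (cyc_nonpow (card_units' (F := F) ▸ h) (val_div h6 hn).1).mpr h7
      refine ⟨z / s ^ r, by simp [hs0], fun w e => ?_, h6, ?_⟩
      · have hw : w ≠ 0 := by rintro rfl; simp [hr.out.ne_zero, eq_comm, hs0] at e
        exact h8 (Units.mk0 _ (mul_ne_zero hw hs0)) (Units.ext (by simp [mul_pow, e, hs0]))
      · rw [mul_div_cancel₀ _ (pow_ne_zero r hs0)]
        simpa using congrArg Units.val h9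
  · obtain rfl : r = 2 := by
      by_contra e
      exact hs ⟨1, by rw [(hr.out.odd_of_ne_two e).add_one.neg_one_pow, one_pow]⟩
    have h3 : Nat.card F % 4 = 3 := by
      by_contra e
      rw [Nat.card_eq_fintype_card, ← ne_eq, ← FiniteField.isSquare_neg_one_iff] at e
      obtain ⟨s, e⟩ := e
      exact hs ⟨s, by rw [sq, ← e]; norm_num⟩
    refine ⟨fun ⟨z, _, _, h4, _⟩ h5 => ?_, fun h4 => ⟨-1, by simp, fun w e => hs ⟨w, by
      rw [e]; norm_num⟩, ?_, by norm_num⟩⟩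
    · have := h5.2 rfl (even_iff_two_dvd.mpr h4); omega
    · by_contra e
      exact h4 ⟨by rw [padicValNat.eq_zero_of_not_dvd e]; omega,
        fun _ e' => absurd (even_iff_two_dvd.mp e') e⟩

theorem cast_ne_zero {p r : ℕ} [Fact p.Prime] [CharP F p] [hr : Fact r.Prime] (h : r ≠ p) :
    (r : F) ≠ 0 := natCast_ne_zero_of_coprime ((Nat.coprime_primes hr.out Fact.out).mpr h)

theorem pow_eq_one_unit [Finite F] {r : ℕ} [Fact r.Prime] (h : ¬ r ∣ Nat.card F - 1) {c : F}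
    (hc : c ^ r = 1) : c = 1 := by
  have h0 : c ≠ 0 := by rintro rfl; simp [(Fact.out : r.Prime).ne_zero] at hc
  simpa using congrArg Units.val (eq_one_of_not_dvd (G := Fˣ) (card_units' (F := F) ▸ h)
    (z := Units.mk0 c h0) (Units.ext (by simpa using hc)))

theorem dvd_of_nonpow [Finite F] {r : ℕ} [Fact r.Prime] {z : F} (h0 : z ≠ 0)
    (hz : ∀ w, w ^ r ≠ z) : r ∣ Nat.card F - 1 := by
  by_contra h
  obtain ⟨w, hw⟩ := exists_pow_of_not_dvd (G := Fˣ) (card_units' (F := F) ▸ h) (Units.mk0 z h0)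
  exact hz w (by simpa using congrArg Units.val hw)

/-- An invertible map with scalar `r`-th power is split or non-split. -/
theorem pe_cases {r : ℕ} (hr : r ≠ 0) {g : End F V} (h0 : 0 < finrank F V)
    (hd : LinearMap.det g ≠ 0) (h : PE r g) : (∃ c : F, c ≠ 0 ∧ (c • g) ^ r = 1 ∧ c • g ≠ 1) ∨
      ∃ z : F, z ≠ 0 ∧ g ^ r = z • 1 ∧ ∀ w, w ^ r ≠ z := by
  obtain ⟨⟨z, hz⟩, h⟩ := h
  have h1 := ne_zero_of_pow h0 hd hz
  by_cases hw : ∃ w, w ^ r = z
  · obtain ⟨w, rfl⟩ := hw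
    have hw : w ≠ 0 := fun e => h1 (by simp [e, hr])
    refine .inl ⟨w⁻¹, inv_ne_zero hw, ?_, fun e => h w (by rw [← e, smul_inv_smul₀ hw])⟩
    rw [_root_.smul_pow, hz, smul_smul, ← mul_pow, inv_mul_cancel₀ hw, one_pow, one_smul]
  · exact .inr ⟨z, h1, hz, fun w e => hw ⟨w, e⟩⟩

theorem PE.ss {r : ℕ} (hr : (r : F) ≠ 0) {g : End F V} (h0 : 0 < finrank F V)
    (hd : LinearMap.det g ≠ 0) (h : PE r g) : SS g := by
  obtain ⟨z, hz⟩ := h.1
  exact ss_of_pow hr (ne_zero_of_pow h0 hd hz) hz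

theorem exists_sl_of_ty [Finite F] {r : ℕ} [hr : Fact r.Prime] (hi : ¬ r ∣ Nat.card F - 1)
    {s : Multiset F[X]} (hs : ∀ u ∈ s, IrrD r u) (h1 : ∃ u ∈ s, u ≠ X - 1)
    (hn : dg s = finrank F V) :
    ∃ g : End F V, LinearMap.det g = 1 ∧ g ^ r = 1 ∧ PE r g ∧ tyE g = s := by
  obtain ⟨g, rfl⟩ := exists_tyE_eq (V := V) (fun u hu => (hs u hu).prim) hn
  have h2 : g ^ r = 1 := (pow_eq_one_iff_tyE g r).mpr fun u hu => (hs u hu).2.2
  obtain ⟨u, h3, h4⟩ := h1
  refine ⟨g, pow_eq_one_unit hi (by rw [← map_pow, h2, map_one]), h2, ⟨⟨1, by simp [h2]⟩,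
    fun c e => h4 ?_⟩, rfl⟩
  have h0 : 0 < finrank F V := Nat.pos_of_ne_zero fun e => by
    simp [eq_zero_of_dg (fun u hu => (hs u hu).prim) (hn.trans e)] at h3
  obtain rfl : c = 1 := pow_eq_one_unit hi (smul_one_inj h0 (by
    rw [e, _root_.smul_pow, one_pow] at h2; rw [h2, one_smul]))
  rw [e, one_smul, tyE_one] at h3
  exact Multiset.eq_of_mem_replicate h3

theorem sl_main [Finite F] {r n i : ℕ} [hr : Fact r.Prime] (h0 : (r : F) ≠ 0)
    (hn : finrank F V = n) (hn0 : 0 < n) (hi : orderOf ((Nat.card F : ℕ) : ZMod r) = i)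
    {P : End F V → Prop} {Pd : Multiset ℕ → Prop} (hP : ∀ g, SS g → (P g ↔ Pd (dm g)))
    (hs : ∀ g (c : F), c ≠ 0 → P (c • g) → P g) (h1 : Pd (Multiset.replicate n 1)) :
    (∀ g : End F V, LinearMap.det g = 1 → PE r g → P g) ↔
      if i = 1 then Cond r n (Nat.card F) ∨ r ∣ n ∧ Pd (Multiset.replicate (n / r) r) else
      ∀ a k, 0 < k → a + k * i = n → Pd (Multiset.replicate a 1 + Multiset.replicate k i) := by
  subst hn
  have hq : 0 < Nat.card F := Nat.card_pos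
  have hd : ∀ {g : End F V}, LinearMap.det g = 1 → LinearMap.det g ≠ 0 := fun h => by simp [h]
  have hns : ∀ {g : End F V} {z : F}, g ^ r = z • 1 → (∀ w, w ^ r ≠ z) →
      dm g = Multiset.replicate (finrank F V / r) r := fun h h' => by
    rw [dm, (ty_nonsplit hr.out h h').2.1, Multiset.map_replicate, natDegree_X_pow_sub_C]
  split_ifs with h2
  · have h3 := (ord_eq_one_iff hq).mp (hi.trans h2)
    refine ⟨fun H => or_iff_not_imp_left.mpr fun h4 => ?_, fun H g h4 h5 => ?_⟩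
    · obtain ⟨z, h5, h6, h7, h8⟩ := (nonsplit_iff h3 hn0.ne').mpr h4
      obtain ⟨g, hg⟩ := exists_nonsplit hr.out h6 h7
      exact ⟨h7, hns hg h6 ▸ (hP g (ss_of_pow h0 h5 hg)).mp (H g
        ((ty_nonsplit hr.out hg h6).2.2.trans h8) (pe_nonsplit hn0 hg h6))⟩
    · rcases pe_cases hr.out.ne_zero hn0 (hd h4) h5 with ⟨c, h6, h7, h8⟩ | ⟨z, h6, h7, h8⟩
      · obtain ⟨a, k, -, h9⟩ := dm_split hr.out h0 h7 h8
        refine hs g c h6 ((hP _ ((h5.ss h0 hn0 (hd h4)).smul h6)).mpr ?_)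
        rw [hi, h2, ← Multiset.replicate_add] at h9
        have := sum_dm (c • g)
        rw [h9, Multiset.sum_replicate, smul_eq_mul, mul_one] at this
        rwa [h9, this]
      · refine (hP g (h5.ss h0 hn0 (hd h4))).mpr (hns h7 h8 ▸ (H.resolve_left ?_).2)
        exact (nonsplit_iff h3 hn0.ne').mp ⟨z, h6, h8, (ty_nonsplit hr.out h7 h8).1,
          (ty_nonsplit hr.out h7 h8).2.2.symm.trans h4⟩
  · have h3 : ¬ r ∣ Nat.card F - 1 := fun e => h2 (hi.symm.trans ((ord_eq_one_iff hq).mpr e))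
    refine ⟨fun H a k h4 h5 => ?_, fun H g h4 h5 => ?_⟩
    · obtain ⟨u, h6, h7⟩ := exists_irrD hr.out h0
      obtain ⟨g, h8, h9, h10, h11⟩ := exists_sl_of_ty (V := V) h3
        (s := Multiset.replicate a (X - 1) + Multiset.replicate k u) (fun v hv => by
          rcases Multiset.mem_add.mp hv with h | h <;> rw [Multiset.eq_of_mem_replicate h]
          exacts [irrD_X_sub_one, h6])
        ⟨u, Multiset.mem_add.mpr (.inr (Multiset.mem_replicate.mpr ⟨h4.ne', rfl⟩)), h7⟩ (by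
          rw [dg_add, dg_replicate, dg_replicate, natDegree_X_sub_one, IrrD.deg hr.out h6 h7, hi,
            mul_one, h5])
      have := (hP g (h10.ss h0 hn0 (hd h8))).mp (H g h8 h10)
      rwa [dm, h11, Multiset.map_add, Multiset.map_replicate, Multiset.map_replicate,
        natDegree_X_sub_one, IrrD.deg hr.out h6 h7, hi] at this
    · rcases pe_cases hr.out.ne_zero hn0 (hd h4) h5 with ⟨c, h6, h7, h8⟩ | ⟨z, h6, h7, h8⟩
      · obtain ⟨a, k, h9, h10⟩ := dm_split hr.out h0 h7 h8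
        refine hs g c h6 ((hP _ ((h5.ss h0 hn0 (hd h4)).smul h6)).mpr ?_)
        rw [hi] at h10
        exact h10 ▸ H a k h9 (by rw [← sum_two_rep, ← h10, sum_dm])
      · exact absurd (dvd_of_nonpow h6 h8) h3

end Cfsg.Agent.H18.El
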