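import Mathlib
import Cfsg.Agent.H18.El2

/-! Transitivity and counting for the general linear group; arithmetic lemmas. -/

set_option autoImplicit false

namespace Cfsg.Agent.H18.El

open Module Polynomial H11 L0 H10

universe u

variable {F : Type u} [Field F] {V V' : Type*} [AddCommGroup V] [Module F V] [AddCommGroup V']
  [Module F V']

attribute [local instance] actSub

/-- Gluing two isomorphisms along complementary subspaces. -/
noncomputable def glue {U W : Submodule F V} {U' W' : Submodule F V'} (h : IsCompl U W)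
    (h' : IsCompl U' W') (a : U ≃ₗ[F] U') (b : W ≃ₗ[F] W') : V ≃ₗ[F] V' :=
  (U.prodEquivOfIsCompl W h).symm ≪≫ₗ a.prodCongr b ≪≫ₗ U'.prodEquivOfIsCompl W' h'

section glue
variable {U W : Submodule F V} {U' W' : Submodule F V'} (h : IsCompl U W)
    (h' : IsCompl U' W') (a : U ≃ₗ[F] U') (b : W ≃ₗ[F] W')

theorem glue_left (x : U) : glue h h' a b x = a x := by simp [glue]

theorem glue_right (x : W) : glue h h' a b x = b x := by simp [glue]

theorem map_eq_of {k : V ≃ₗ[F] V'} {a : U ≃ₗ[F] U'} (hk : ∀ x : U, k x = a x) :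
    U.map k.toLinearMap = U' :=
  le_antisymm (fun _ ⟨x, hx, e⟩ => e ▸ (hk ⟨x, hx⟩).symm ▸ (a _).2) fun y hy =>
    ⟨a.symm ⟨y, hy⟩, Subtype.prop _, (hk _).trans (by simp)⟩

end glue

theorem ext_compl {U W : Submodule F V} (h : IsCompl U W) {a b : V →ₗ[F] V'}
    (h1 : ∀ x ∈ U, a x = b x) (h2 : ∀ x ∈ W, a x = b x) (x : V) : a x = b x := by
  obtain ⟨y, hy, z, hz, rfl⟩ := Submodule.mem_sup.mp (h.sup_eq_top ▸ Submodule.mem_top (x := x))
  rw [map_add, map_add, h1 y hy, h2 z hz]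

variable [FiniteDimensional F V] [FiniteDimensional F V']

theorem trans_compl {U W : Submodule F V} {U' W' : Submodule F V'} (h : IsCompl U W)
    (h' : IsCompl U' W') (hV : finrank F V = finrank F V') (hU : finrank F U = finrank F U') :
    ∃ e : V ≃ₗ[F] V', U.map e.toLinearMap = U' ∧ W.map e.toLinearMap = W' := by
  have h1 := Submodule.finrank_add_eq_of_isCompl h
  have h2 := Submodule.finrank_add_eq_of_isCompl h'
  exact ⟨glue h h' (.ofFinrankEq _ _ hU) (.ofFinrankEq _ _ (by omega)),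
    map_eq_of (glue_left _ _ _ _), map_eq_of (glue_right _ _ _ _)⟩

theorem trans_sub {U : Submodule F V} {U' : Submodule F V'} (hV : finrank F V = finrank F V')
    (hU : finrank F U = finrank F U') : ∃ e : V ≃ₗ[F] V', U.map e.toLinearMap = U' := by
  obtain ⟨W, h⟩ := U.exists_isCompl
  obtain ⟨W', h'⟩ := U'.exists_isCompl
  exact (trans_compl h h' hV hU).imp fun _ h => h.1

theorem trans_flag {U W U' W' : Submodule F V} (h : U ≤ W) (h' : U' ≤ W')
    (hU : finrank F U = finrank F U') (hW : finrank F W = finrank F W') :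
    ∃ e : V ≃ₗ[F] V, U.map e.toLinearMap = U' ∧ W.map e.toLinearMap = W' := by
  obtain ⟨a, ha⟩ := trans_sub (U := U.comap W.subtype) (U' := U'.comap W'.subtype) hW (by
    rw [(Submodule.comapSubtypeEquivOfLe h).finrank_eq, hU,
      (Submodule.comapSubtypeEquivOfLe h').finrank_eq])
  obtain ⟨Z, h1⟩ := W.exists_isCompl
  obtain ⟨Z', h2⟩ := W'.exists_isCompl
  have h3 := Submodule.finrank_add_eq_of_isCompl h1
  have h4 := Submodule.finrank_add_eq_of_isCompl h2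
  have h5 := glue_left h1 h2 a (.ofFinrankEq _ _ (by omega))
  refine ⟨_, Submodule.eq_of_le_of_finrank_eq ?_ ((LinearEquiv.finrank_map_eq _ _).trans hU),
    map_eq_of h5⟩
  rintro _ ⟨x, hx, rfl⟩
  have : a ⟨x, h hx⟩ ∈ U'.comap W'.subtype := ha ▸ ⟨_, hx, rfl⟩
  exact (h5 ⟨x, h hx⟩).symm ▸ this

theorem gl_succ (q n : ℕ) : ∏ i : Fin (n + 1), (q ^ (n + 1) - q ^ (i : ℕ)) =
    (q ^ (n + 1) - 1) * q ^ n * ∏ i : Fin n, (q ^ n - q ^ (i : ℕ)) := by
  rw [Fin.prod_univ_succ, mul_assoc]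
  simp only [Fin.val_zero, pow_zero, Fin.val_succ, pow_succ', ← Nat.mul_sub, Finset.prod_mul_distrib]
  simp

theorem gl_add {q r : ℕ} (hr : r.Prime) (hq : ¬ r ∣ q) (n k : ℕ)
    (h : ∀ j < k, ¬ r ∣ q ^ (n + j + 1) - 1) : ∃ T, ¬ r ∣ T ∧
      ∏ i : Fin (n + k), (q ^ (n + k) - q ^ (i : ℕ)) = T * ∏ i : Fin n, (q ^ n - q ^ (i : ℕ)) := by
  induction k with
  | zero => exact ⟨1, hr.not_dvd_one, by simp⟩
  | succ k ih =>
    obtain ⟨T, h1, h2⟩ := ih fun j hj => h j (by omega)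
    refine ⟨(q ^ (n + k + 1) - 1) * q ^ (n + k) * T, ?_, by rw [← add_assoc, gl_succ, h2]; ring⟩
    simp only [hr.dvd_mul, not_or]
    exact ⟨⟨h k (by omega), fun e => hq (hr.dvd_of_dvd_pow e)⟩, h1⟩

theorem not_dvd_card [Finite F] {r : ℕ} (hr : r.Prime) (h0 : (r : F) ≠ 0) : ¬ r ∣ Nat.card F := by
  have := Fintype.ofFinite F
  obtain ⟨p, hp⟩ := CharP.exists F
  obtain ⟨k, h1, h2⟩ := FiniteField.card F p
  rw [Nat.card_eq_fintype_card, h2]
  intro h
  rw [(Nat.prime_dvd_prime_iff_eq hr h1).mp (hr.dvd_of_dvd_pow h)] at h0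
  exact h0 (CharP.cast_eq_zero F p)

theorem ord_pos [Finite F] {r : ℕ} (hr : r.Prime) (h0 : (r : F) ≠ 0) :
    0 < orderOf ((Nat.card F : ℕ) : ZMod r) := Nat.pos_of_ne_zero fun e => by
  have := (card_PF hr h0).2
  have := hr.two_le
  rw [e] at *; omega

theorem not_dvd_gl [Finite F] {X : Type*} [MulAction (V ≃ₗ[F] V) X] {P : X → Prop} {r n i : ℕ}
    (hr : r.Prime) (h0 : (r : F) ≠ 0) (hn : finrank F V = n)
    (hi : orderOf ((Nat.card F : ℕ) : ZMod r) = i)
    (h1 : ∀ (g : V ≃ₗ[F] V) x, P x → P (g • x)) (h2 : ∀ x y, P x → P y → ∃ g : V ≃ₗ[F] V, g • x = y)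
    (h3 : ∀ U W : Submodule F V, IsCompl U W → finrank F U = n % i → ∃ x, P x ∧
      ∀ g : V ≃ₗ[F] V, (∀ v ∈ U, g v = v) → g • W = W → g • x = x) :
    ¬ r ∣ Nat.card {x // P x} := by
  obtain ⟨U, -, hU⟩ := exists_le_finrank_eq (⊤ : Submodule F V) (k := n % i)
    (by rw [finrank_top, hn]; exact Nat.mod_le _ _)
  obtain ⟨W, hc⟩ := U.exists_isCompl
  obtain ⟨x, h4, h5⟩ := h3 U W hc hU
  let φ : (W ≃ₗ[F] W) →* (V ≃ₗ[F] V) := MonoidHom.mk' (glue hc hc (.refl F U)) fun a b =>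
    LinearEquiv.ext fun v => ext_compl (a := (glue hc hc (.refl F U) (a * b)).toLinearMap)
      (b := (glue hc hc (.refl F U) a * glue hc hc (.refl F U) b).toLinearMap) hc
      (fun x hx => by simp [glue_left hc hc _ _ ⟨x, hx⟩]) (fun x hx => by
        simp [glue_right hc hc _ _ ⟨x, hx⟩, glue_right]) v
  have h6 := card_mul_dvd (P := P) (x₀ := x) (fun y => ⟨h2 x y h4, fun ⟨g, e⟩ => e ▸ h1 g x h4⟩) φ
    (fun a b e => LinearEquiv.ext fun v => Subtype.ext (by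
      rw [← glue_right hc hc (.refl F U) a, ← glue_right hc hc (.refl F U) b]
      exact LinearEquiv.congr_fun e v))
    fun k => h5 _ (fun v hv => glue_left hc hc _ k ⟨v, hv⟩) (map_eq_of (glue_right hc hc _ k))
  have h7 := Submodule.finrank_add_eq_of_isCompl hc
  have hi0 := hi ▸ ord_pos hr h0
  have h8 : finrank F W = i * (n / i) := by have := Nat.mod_add_div n i; omega
  obtain ⟨T, h9, h10⟩ := gl_add hr (not_dvd_card hr h0) (finrank F W) (n % i) fun j hj e => by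
    rw [← orderOf_zmod_dvd_iff Nat.card_pos, hi, h8, add_assoc,
      Nat.dvd_add_right (Dvd.intro _ rfl)] at e
    have := Nat.le_of_dvd (by omega) e
    have := Nat.mod_lt n hi0
    omega
  have : Finite (W ≃ₗ[F] W) := by
    have : Finite W := Module.finite_of_finite F
    exact Finite.of_injective _ LinearEquiv.toEquiv_injective
  rw [card_linearEquiv (V := V) (k := finrank F W + n % i) (by omega), h10,
    ← card_linearEquiv rfl] at h6
  exact fun e => h9 (e.trans (Nat.dvd_of_mul_dvd_mul_right Nat.card_pos h6))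

omit [FiniteDimensional F V] in
theorem aeval_sub_one_pow (g : End F V) (m : ℕ) : aeval g ((X - 1 : F[X]) ^ m) = (g - 1) ^ m := by
  simp

theorem reg_ker {g : End F V} {n m : ℕ} (h : tyE g = {(X - 1) ^ n}) (hm : m ≤ n) :
    finrank F (LinearMap.ker ((g - 1) ^ m)) = m := by
  have := kdE_eq_sum g ((X - 1) ^ m)
  rw [h, kdE, aeval_sub_one_pow] at this
  simpa [gd_pow_pow irr_X_sub_one.ne_zero, natDegree_X_sub_one, hm] using this

omit [FiniteDimensional F V] in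
theorem iv_ker (g : End F V) (f : F[X]) : Iv g (LinearMap.ker (aeval g f)) := fun x hx => by
  have : aeval g f * g = g * aeval g f := by
    simpa using congrArg (aeval g) (mul_comm f X)
  rw [LinearMap.mem_ker, ← End.mul_apply, this, End.mul_apply, LinearMap.mem_ker.mp hx, map_zero]

theorem reg_iff {g : End F V} {n m : ℕ} (h : tyE g = {(X - 1) ^ n}) (hm : m ≤ n)
    (W : Submodule F V) : finrank F W = m ∧ Iv g W ↔ W = LinearMap.ker ((g - 1) ^ m) :=
  ⟨fun ⟨h1, h2⟩ => h1 ▸ invariant_reg h h2, fun e => e ▸ ⟨reg_ker h hm, aeval_sub_one_pow g m ▸ iv_ker g _⟩⟩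

theorem unip_pow (p : ℕ) [hp : Fact p.Prime] [CharP F p] {g : End F V} {e : ℕ}
    (h : ∀ u ∈ tyE g, ∃ j ≤ p ^ e, u = (X - 1) ^ j) : g ^ p ^ e = 1 :=
  (pow_eq_one_iff_tyE g _).mpr fun u hu => by
    obtain ⟨j, h1, rfl⟩ := h u hu
    rw [X_pow_char_pow_sub_one]; exact pow_dvd_pow _ h1

omit [FiniteDimensional F V] in
theorem equiv_coe_pow (g : V ≃ₗ[F] V) (k : ℕ) : (g ^ k).toLinearMap = g.toLinearMap ^ k :=
  map_pow LinearEquiv.automorphismGroup.toLinearMapMonoidHom g k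

omit [FiniteDimensional F V] in
theorem equiv_pow_eq_one {g : V ≃ₗ[F] V} {k : ℕ} : g ^ k = 1 ↔ g.toLinearMap ^ k = 1 := by
  rw [← LinearEquiv.toLinearMap_inj, equiv_coe_pow]; rfl

theorem exists_equiv_of_pow {g : End F V} {k : ℕ} (hk : k ≠ 0) (h : g ^ k = 1) :
    ∃ e : V ≃ₗ[F] V, e.toLinearMap = g :=
  ⟨LinearMap.equivOfDetNeZero g (by
    have := congrArg LinearMap.det h
    rw [map_pow, map_one] at this
    intro e; simp [e, hk] at this), rfl⟩

theorem exists_reg (p : ℕ) [hp : Fact p.Prime] [CharP F p] {n : ℕ} (hn : finrank F V = n)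
    (h0 : 0 < n) : ∃ g : V ≃ₗ[F] V, g ^ p ^ n = 1 ∧ tyE g.toLinearMap = {(X - 1) ^ n} := by
  obtain ⟨g, hg⟩ := exists_tyE_eq (V := V) (s := {(X - 1 : F[X]) ^ n})
    (by simpa using prim_X_sub_one_pow h0) (by simp [natDegree_X_sub_one, hn])
  have := unip_pow p (g := g) (e := n) fun u hu =>
    ⟨n, (Nat.lt_pow_self hp.out.one_lt).le, by simpa [hg] using hu⟩
  obtain ⟨e, rfl⟩ := exists_equiv_of_pow (pow_ne_zero _ hp.out.ne_zero) this
  exact ⟨e, equiv_pow_eq_one.mpr this, hg⟩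

theorem smul_eq_iff {g : V ≃ₗ[F] V} {W : Submodule F V} : g • W = W ↔ Iv g.toLinearMap W :=
  ⟨fun h => iv_iff.mp h.le, Iv.map_eq⟩

omit [FiniteDimensional F V] in
theorem finrank_smul (g : V ≃ₗ[F] V) (W : Submodule F V) : finrank F ↥(g • W) = finrank F W :=
  LinearEquiv.finrank_map_eq g W

theorem smul_eq_of_fix {g : V ≃ₗ[F] V} {U W : Submodule F V} (h : ∀ v ∈ U, g v = v) (hle : W ≤ U) :
    g • W = W := smul_eq_iff.mpr fun x hx => (h x (hle hx)).symm ▸ hx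

omit [FiniteDimensional F V] in
theorem smul_sup' (g : V ≃ₗ[F] V) (U W : Submodule F V) : g • (U ⊔ W) = g • U ⊔ g • W :=
  Submodule.map_sup _ _ _

theorem finite_sub [Finite F] : Finite (Submodule F V) := by
  have : Finite V := Module.finite_of_finite F
  infer_instance

theorem finrank_sup_disj {U W : Submodule F V} (h : Disjoint U W) :
    finrank F ↥(U ⊔ W) = finrank F U + finrank F W := by
  rw [← Submodule.finrank_sup_add_finrank_inf_eq, h.eq_bot, finrank_bot, add_zero]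

omit [FiniteDimensional F V] in
theorem exists_compl_le {U Z : Submodule F V} (h : U ≤ Z) : ∃ W, Disjoint U W ∧ U ⊔ W = Z := by
  obtain ⟨W, hW⟩ := U.exists_isCompl
  refine ⟨W ⊓ Z, hW.disjoint.mono_right inf_le_left, ?_⟩
  rw [← sup_inf_assoc_of_le _ h, hW.sup_eq_top, top_inf_eq]

/-! ### Unipotent elements -/

theorem exists_unip (p : ℕ) [hp : Fact p.Prime] [CharP F p] {μ : Multiset ℕ}
    (h : ∀ a ∈ μ, 0 < a ∧ a ≤ p) :
    (∀ u ∈ μ.map fun j => (X - 1 : F[X]) ^ j, Prim u) ∧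
    ∀ g : End F V, tyE g = μ.map (fun j => (X - 1 : F[X]) ^ j) → g ^ p = 1 ∧ dm g = μ ∧
      LinearMap.det g = 1 ∧ ((∃ a ∈ μ, a ≠ 1) → PE p g) := by
  refine ⟨fun u hu => ?_, fun g hg => ?_⟩
  · obtain ⟨j, h1, rfl⟩ := Multiset.mem_map.mp hu
    exact prim_X_sub_one_pow (h j h1).1
  have h1 : g ^ p = 1 := by
    simpa using unip_pow p (g := g) (e := 1) fun u hu => by
      obtain ⟨j, h1, rfl⟩ := Multiset.mem_map.mp (hg ▸ hu)
      exact ⟨j, by simpa using (h j h1).2, rfl⟩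
  have h2 : dm g = μ := by simp [dm, hg, natDegree_X_sub_one]
  have h3 : ∀ c : F, c ^ p = 1 → c = 1 := fun c hc =>
    frobenius_inj F p (by simpa [frobenius_def] using hc)
  refine ⟨h1, h2, h3 _ (by rw [← map_pow, h1, map_one]), fun ⟨a, h4, h5⟩ =>
    ⟨⟨1, by simp [h1]⟩, fun c e => h5 ?_⟩⟩
  have h0 : 0 < finrank F V := by
    have := Multiset.single_le_sum (fun _ _ => Nat.zero_le _) a h4
    have := h a h4
    rw [← sum_dm g, h2]; omega
  obtain rfl : c = 1 := h3 c (smul_one_inj h0 (by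
    rw [e, _root_.smul_pow, one_pow] at h1; rw [h1, one_smul]))
  rw [← h2, e, one_smul, dm, tyE_one, Multiset.map_replicate, natDegree_X_sub_one] at h4
  exact Multiset.eq_of_mem_replicate h4

theorem ty_unip (p : ℕ) [hp : Fact p.Prime] [CharP F p] {g : End F V} (h : g ^ p = 1) :
    (∀ a ∈ dm g, 0 < a ∧ a ≤ p) ∧ tyE g = (dm g).map fun j => (X - 1 : F[X]) ^ j := by
  have : ∀ u ∈ tyE g, ∃ k, 0 < k ∧ k ≤ p ∧ u = (X - 1) ^ k := fun u hu =>
    (prim_of_mem_tyE hu).eq_pow_of_dvd_pow irr_X_sub_one monic_X_sub_one (by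
      have := (pow_eq_one_iff_tyE g p).mp h u hu
      rwa [← pow_one p, X_pow_char_pow_sub_one, pow_one] at this)
  refine ⟨fun a ha => ?_, ?_⟩
  · obtain ⟨u, hu, rfl⟩ := Multiset.mem_map.mp ha
    obtain ⟨k, h1, h2, rfl⟩ := this u hu
    rw [natDegree_X_sub_one_pow]; exact ⟨h1, h2⟩
  · rw [dm, Multiset.map_map]
    refine (Multiset.map_id _).symm.trans (Multiset.map_congr rfl fun u hu => ?_)
    obtain ⟨k, -, -, rfl⟩ := this u hu
    simp [natDegree_X_sub_one]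

theorem pe_char [Finite F] (p : ℕ) [hp : Fact p.Prime] [CharP F p] {g : End F V}
    (h0 : 0 < finrank F V) (hd : LinearMap.det g ≠ 0) (h : PE p g) :
    ∃ c : F, c ≠ 0 ∧ (c • g) ^ p = 1 ∧ c • g ≠ 1 :=
  (pe_cases hp.out.ne_zero h0 hd h).resolve_right fun ⟨z, _, _, hz⟩ =>
    hz _ ((frobeniusEquiv F p).apply_symm_apply z)

theorem exists_sub_of_one {μ : Multiset ℕ} (h : ∀ a ∈ μ, a = 1) {m : ℕ} (hm : m ≤ μ.sum) :
    ∃ ν ≤ μ, ν.sum = m := by
  rw [Multiset.eq_replicate_card.mpr h] at hm ⊢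
  exact ⟨Multiset.replicate m 1, (Multiset.replicate_le_replicate _).mpr (by simpa using hm),
    by simp⟩

theorem sl_unip [Finite F] (p : ℕ) [hp : Fact p.Prime] [CharP F p] {n : ℕ}
    (hn : finrank F V = n) (hn0 : 0 < n)
    {P : End F V → Prop} {Pd : Multiset ℕ → Prop} (hP : ∀ g, P g ↔ Pd (dm g))
    (hs : ∀ g (c : F), c ≠ 0 → P (c • g) → P g) (h1 : ∀ μ, (∀ a ∈ μ, a = 1) → μ.sum = n → Pd μ) :
    (∀ g : End F V, LinearMap.det g = 1 → PE p g → P g) ↔
      ∀ μ : Multiset ℕ, (∀ a ∈ μ, 0 < a ∧ a ≤ p) → μ.sum = n → Pd μ := by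
  subst hn
  refine ⟨fun H μ h2 h3 => ?_, fun H g h2 h3 => ?_⟩
  · by_cases h4 : ∀ a ∈ μ, a = 1
    · exact h1 μ h4 h3
    obtain ⟨h5, h6⟩ := exists_unip (F := F) (V := V) p h2
    obtain ⟨g, hg⟩ := exists_tyE_eq (V := V) h5 (by simpa [natDegree_X_sub_one] using h3)
    obtain ⟨-, h7, h8, h9⟩ := h6 g hg
    exact h7 ▸ (hP g).mp (H g h8 (h9 (by simpa using h4)))
  · obtain ⟨c, h4, h5, -⟩ := pe_char p hn0 (by simp [h2]) h3
    exact hs g c h4 ((hP _).mpr (H _ (ty_unip p h5).1 (sum_dm _)))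

/-! ### Arithmetic -/

theorem dvd_of_not_cond [Finite F] {r n : ℕ} [Fact r.Prime]
    (h1 : orderOf ((Nat.card F : ℕ) : ZMod r) = 1) (h : ¬ Cond r n (Nat.card F)) : r ∣ n := by
  by_cases hn : n = 0
  · simp [hn]
  obtain ⟨z, -, -, h, -⟩ := (nonsplit_iff ((ord_eq_one_iff Nat.card_pos).mp h1) hn).mpr h
  exact h

theorem mod_eq_of {a k i m : ℕ} (h : a + k * i = m) (ha : a < i) : m % i = a ∧ m / i = k := by
  subst h
  rw [Nat.add_mul_mod_self_right, Nat.add_mul_div_right _ _ (by omega), Nat.mod_eq_of_lt ha,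
    Nat.div_eq_of_lt ha, zero_add]
  exact ⟨rfl, rfl⟩

theorem mod_le_of {a k i n : ℕ} (h : a + k * i = n) : n % i ≤ a := by
  subst h; rw [Nat.add_mul_mod_self_right]; exact Nat.mod_le _ _

theorem arith_sub {n m i : ℕ} (hi : 0 < i) (hm : m ≤ n) (hb : ¬ (m < i ∧ m ≤ n % i)) :
    (∀ a k, 0 < k → a + k * i = n → ∃ a' ≤ a, ∃ k' ≤ k, a' + k' * i = m) ↔
      i ≤ m ∧ m % i ≤ n % i := by
  refine ⟨fun H => ?_, fun ⟨h1, h2⟩ a k _ h3 => ?_⟩
  · have h1 : i ≤ n := by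
      by_contra e
      exact hb ⟨by omega, by rwa [Nat.mod_eq_of_lt (by omega)]⟩
    obtain ⟨a, h2, k, -, h3⟩ := H _ _ (Nat.div_pos h1 hi) (Nat.mod_add_div' n i)
    have h4 := (mod_eq_of h3 (h2.trans_lt (Nat.mod_lt _ hi))).1
    refine ⟨?_, by omega⟩
    by_contra e
    rw [Nat.mod_eq_of_lt (by omega)] at h4
    exact hb ⟨by omega, by omega⟩
  · by_cases h4 : m / i ≤ k
    · exact ⟨_, h2.trans (mod_le_of h3), _, h4, Nat.mod_add_div' m i⟩
    · have := Nat.mul_le_mul_right i (not_le.mp h4).le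
      have := Nat.div_mul_le_self m i
      exact ⟨m - k * i, by omega, k, le_rfl, by omega⟩

theorem arith_flag {n m i : ℕ} (hi : 0 < i) (hm : 2 * m ≤ n) (hb : ¬ (m < i ∧ 2 * m ≤ n % i)) :
    (∀ a k, 0 < k → a + k * i = n → ∃ a₁ a₂ k₁ k₂, a₁ ≤ a₂ ∧ a₂ ≤ a ∧ k₁ ≤ k₂ ∧ k₂ ≤ k ∧
      a₁ + k₁ * i = m ∧ a₂ + k₂ * i = n - m) ↔ i ≤ m ∧ 2 * (m % i) ≤ n % i := by
  refine ⟨fun H => ?_, fun ⟨h1, h2⟩ a k _ h3 => ?_⟩
  · have h1 : i ≤ n := by
      by_contra e
      exact hb ⟨by omega, by rwa [Nat.mod_eq_of_lt (by omega)]⟩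
    have h0 := Nat.mod_add_div' n i
    have h0' := Nat.mod_lt n hi
    obtain ⟨a₁, a₂, k₁, k₂, h2, h3, -, h4, h5, h6⟩ := H _ _ (Nat.div_pos h1 hi) h0
    obtain ⟨k₃, h7⟩ := Nat.exists_eq_add_of_le h4
    rw [h7, add_mul] at h0
    have h8 := (mod_eq_of h5 (by omega)).1
    have h9 := (mod_eq_of (a := n % i - a₂) (k := k₃) (i := i) (m := m) (by omega) (by omega)).1
    refine ⟨?_, by omega⟩
    by_contra e
    rw [Nat.mod_eq_of_lt (by omega)] at h8 h9
    exact hb ⟨by omega, by omega⟩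
  · have h4 := mod_le_of h3
    have h5 := Nat.mod_add_div' m i
    by_cases h6 : 2 * (m / i) ≤ k
    · obtain ⟨c, rfl⟩ := Nat.exists_eq_add_of_le h6
      refine ⟨m % i, a - m % i, m / i, m / i + c, by omega, by omega, by omega, by omega, h5, ?_⟩
      rw [add_mul] at h3 ⊢; rw [mul_assoc] at h3; omega
    · by_cases h7 : m / i ≤ k
      · obtain ⟨c, rfl⟩ := Nat.exists_eq_add_of_le h7
        have := Nat.mul_le_mul_right i (show c ≤ m / i by omega)
        rw [add_mul] at h3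
        exact ⟨m % i, a - (m - c * i), m / i, m / i, by omega, by omega, le_rfl, by omega, h5,
          by omega⟩
      · have := Nat.mul_le_mul_right i (not_le.mp h7).le
        exact ⟨m - k * i, a - m, k, k, by omega, by omega, le_rfl, le_rfl, by omega, by omega⟩

theorem sub_rep {k r m : ℕ} (hm : m ≤ k * r) (hr : 0 < r) :
    (∃ ν ≤ Multiset.replicate k r, ν.sum = m) ↔ r ∣ m := by
  refine ⟨fun ⟨ν, h1, h2⟩ => ?_, fun ⟨j, h⟩ => ⟨Multiset.replicate j r,
    (Multiset.replicate_le_replicate _).mpr ?_, by simp [h, mul_comm]⟩⟩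
  · obtain ⟨j, -, rfl⟩ := Multiset.le_replicate_iff.mp h1
    exact ⟨j, by simp [← h2, mul_comm]⟩
  · exact Nat.le_of_mul_le_mul_right (by rwa [mul_comm, ← h]) hr

theorem part_two {n m : ℕ} (hm : m ≤ n) :
    (∀ μ : Multiset ℕ, (∀ a ∈ μ, 0 < a ∧ a ≤ 2) → μ.sum = n → ∃ ν ≤ μ, ν.sum = m) ↔
      Odd n ∨ Even m := by
  refine ⟨fun H => or_iff_not_imp_left.mpr fun h => ?_, fun H μ h1 h2 => ?_⟩
  · obtain ⟨k, rfl⟩ := Nat.not_odd_iff_even.mp h
    exact even_iff_two_dvd.mpr ((sub_rep (k := k) (by omega) two_pos).mp (H _ (fun a ha => by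
      rw [Multiset.eq_of_mem_replicate ha]; omega) (by simp; omega)))
  · have : μ = Multiset.replicate (μ.count 1) 1 + Multiset.replicate (μ.count 2) 2 := by
      ext a
      rw [Multiset.count_add, Multiset.count_replicate, Multiset.count_replicate]
      split_ifs with e e' e'
      · omega
      · simp [e]
      · simp [e']
      · exact Multiset.count_eq_zero.mpr fun h => by have := h1 a h; omega
    rw [this, sum_two_rep] at h2
    rw [this, sub_two_rep]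
    by_cases h3 : m / 2 ≤ μ.count 2
    · exact ⟨m % 2, by rw [Nat.odd_iff, Nat.even_iff] at H; omega, _, h3, by omega⟩
    · exact ⟨m - μ.count 2 * 2, by omega, _, le_rfl, by omega⟩

end Cfsg.Agent.H18.El
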