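import Mathlib
import Cfsg.Prelude.Def_GeometricClasses
import Cfsg.Agent.H10.Ext
import Cfsg.Agent.H10.Reg
import Cfsg.Agent.H18.El3

/-! Linear maps permuting a direct sum decomposition. -/

set_option autoImplicit false

namespace Cfsg.Agent.H18.El

open Module Polynomial H11 L0 H10

universe u

variable {F : Type u} [Field F] {V : Type*} [AddCommGroup V] [Module F V] [FiniteDimensional F V]

/-- The elementary divisors of the cyclic module `F[X]/(f)`. -/
noncomputable def cy (f : F[X]) : Multiset F[X] := by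
  classical
  exact if h : f = 0 then 0 else
    @tyE F _ (AdjoinRoot f) _ _ (finite_adjoinRoot h) (LinearMap.mulLeft F (AdjoinRoot.root f))

theorem cy_eq {f : F[X]} (h : f ≠ 0) [FiniteDimensional F (AdjoinRoot f)] :
    cy f = tyE (LinearMap.mulLeft F (AdjoinRoot.root f)) := by
  rw [cy, dif_neg h]

theorem mdl_one (f : F[X]) : IsMdl (LinearMap.mulLeft F (AdjoinRoot.root f)) fun _ : Unit => f :=
  ⟨(LinearEquiv.funUnique Unit F _).symm, fun _ _ => rfl⟩

theorem cy_mdl {f : F[X]} (hf : f ≠ 0) {T : End F V} {a : ℕ} (h : IsMdl T fun _ : Fin a => f) :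
    tyE T = a • cy f := by
  have := finite_adjoinRoot hf
  rw [cy_eq hf]
  refine tyE_eq_of_kdE (fun u hu => prim_of_mem_tyE (Multiset.mem_of_mem_nsmul hu)) fun p k _ _ => ?_
  rw [h.kdE_eq fun _ => hf, Multiset.map_nsmul, Multiset.sum_nsmul, ← kdE_eq_sum,
    (mdl_one f).kdE_eq fun _ => hf]
  simp

/-- The free module over `F[X]/(f)`. -/
noncomputable def mT (f : F[X]) (a : ℕ) : End F (Fin a → AdjoinRoot f) :=
  LinearMap.mulLeft F (fun _ => AdjoinRoot.root f : Fin a → AdjoinRoot f)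

theorem mdl_mT (f : F[X]) (a : ℕ) : IsMdl (mT f a) fun _ : Fin a => f :=
  ⟨.refl F (Fin a → AdjoinRoot f), fun _ _ => rfl⟩

theorem cy_prim {f : F[X]} (h : Prim f) : cy f = {f} := by
  have := finite_adjoinRoot h.ne_zero
  rw [cy_eq h.ne_zero, tyE_mulLeft_root h]

theorem ne_zero_Xr {r : ℕ} (hr : 0 < r) (z : F) : (X ^ r - C z : F[X]) ≠ 0 :=
  X_pow_sub_C_ne_zero hr z

open Classical in
theorem cy_sep {r : ℕ} (hr : (r : F) ≠ 0) : (∀ u ∈ cy (X ^ r - C 1 : F[X]), IrrD r u) ∧
    ∀ u, IrrD r u → (cy (X ^ r - C 1 : F[X])).count u = 1 := by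
  have h0 : 0 < r := Nat.pos_of_ne_zero fun e => hr (by simp [e])
  have h1 := ne_zero_Xr h0 (1 : F)
  have := finite_adjoinRoot h1
  have h2 : ∀ u ∈ cy (X ^ r - C 1 : F[X]), IrrD r u := fun u hu => by
    rw [cy_eq h1] at hu
    refine irrD_of_mem hr ?_ hu
    have := ((mdl_one (X ^ r - C 1 : F[X])).aeval_eq_zero_iff (X ^ r - C 1)).mpr fun _ => dvd_rfl
    simpa [sub_eq_zero] using this
  refine ⟨h2, fun u hu => ?_⟩
  have h3 := kdE_eq_count (T := LinearMap.mulLeft F (AdjoinRoot.root (X ^ r - C 1 : F[X])))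
    (cy_eq h1 ▸ h2) (f := u) (w := u) fun v hv => ⟨hv.eq_of_dvd hu, fun e => e ▸ dvd_rfl⟩
  rw [(mdl_one _).kdE_eq fun _ => h1, ← cy_eq h1] at h3
  simp only [Finset.univ_unique, Finset.sum_singleton] at h3
  rw [gd_of_dvd_right h1 (by simpa using hu.2.2)] at h3
  exact Nat.eq_of_mul_eq_mul_right hu.prim.natDegree_pos (h3.symm.trans (one_mul _).symm)

theorem dg_cy {f : F[X]} (hf : f ≠ 0) : dg (cy f) = f.natDegree := by
  have := finite_adjoinRoot hf
  rw [cy_eq hf, ← finrank_dg, finrank_adjoinRoot hf]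

theorem finrank_sup_le_sum {ι : Type*} (S : Finset ι) (D : ι → Submodule F V) :
    finrank F ↥(S.sup D) ≤ ∑ i ∈ S, finrank F (D i) := by
  classical
  induction S using Finset.induction_on with
  | empty => simp
  | insert i S hi ih =>
    rw [Finset.sup_insert, Finset.sum_insert hi]
    exact (Submodule.finrank_add_le_finrank_add_finrank _ _).trans (by omega)

theorem finrank_sup_le_mul {S : Finset (Submodule F V)} {a : ℕ} (h : ∀ W ∈ S, finrank F W = a) :
    finrank F ↥(S.sup id) ≤ a * S.card := by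
  refine (finrank_sup_le_sum S id).trans_eq ?_
  simp [Finset.sum_congr (g := fun _ => a) rfl h, mul_comm]

/-- `g` permutes `t` independent subspaces of dimension `a` with sum `Z`. -/
def PD (a : ℕ) (g : End F V) (Z : Submodule F V) (t : ℕ) : Prop :=
  ∃ S : Finset (Submodule F V), S.card = t ∧ (∀ W ∈ S, finrank F W = a ∧ W.map g ∈ S) ∧
    S.sup id = Z ∧ finrank F Z = a * t

variable {a r : ℕ} {g : End F V} {z : F}

theorem PD.zero : PD a g ⊥ 0 := ⟨∅, rfl, by simp, rfl, by simp⟩

theorem finrank_map_inj (hg : Function.Injective g) (W : Submodule F V) :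
    finrank F (W.map g) = finrank F W := (Submodule.equivMapOfInjective g hg W).finrank_eq.symm

theorem PD.one (hg : Function.Injective g) {W : Submodule F V} (h : Iv g W)
    (ha : finrank F W = a) : PD a g W 1 :=
  ⟨{W}, rfl, by simpa [ha] using (Submodule.eq_of_le_of_finrank_eq (iv_iff.mpr h)
    (finrank_map_inj hg W)), by simp, by simp [ha]⟩

theorem PD.add (ha : 0 < a) {Z Z' : Submodule F V} {t t' : ℕ} (h : PD a g Z t) (h' : PD a g Z' t')
    (hd : Disjoint Z Z') : PD a g (Z ⊔ Z') (t + t') := by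
  classical
  obtain ⟨S, rfl, h1, rfl, h2⟩ := h
  obtain ⟨S', rfl, h3, rfl, h4⟩ := h'
  refine ⟨S ∪ S', Finset.card_union_of_disjoint (Finset.disjoint_left.mpr fun W h5 h6 => ?_),
    fun W hW => ?_, Finset.sup_union, by rw [finrank_sup_disj hd, h2, h4, mul_add]⟩
  · have := (h1 W h5).1
    rw [show W = ⊥ from le_bot_iff.mp
      (hd (Finset.le_sup (f := id) h5) (Finset.le_sup (f := id) h6))] at this
    simp at this; omega
  · rcases Finset.mem_union.mp hW with e | e
    exacts [⟨(h1 W e).1, by simp [(h1 W e).2]⟩, ⟨(h3 W e).1, by simp [(h3 W e).2]⟩]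

theorem inj_of_pow (hr : 0 < r) (hz : z ≠ 0) (hg : g ^ r = z • 1) : Function.Injective g := by
  obtain ⟨k, rfl⟩ := Nat.exists_eq_add_one_of_ne_zero hr.ne'
  refine LinearMap.ker_eq_bot.mp (LinearMap.ker_eq_bot'.mpr fun x hx => ?_)
  have := LinearMap.congr_fun hg x
  rw [pow_succ, End.mul_apply, hx, map_zero] at this
  simpa [hz] using this.symm

theorem map_iter (W : Submodule F V) (i : ℕ) : (Submodule.map g)^[i] W = W.map (g ^ i) := by
  induction i with
  | zero => simp [End.one_eq_id]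
  | succ i ih => rw [Function.iterate_succ_apply', ih, pow_succ', End.mul_eq_comp,
      Submodule.map_comp]

theorem per_of_pow (hz : z ≠ 0) (hg : g ^ r = z • 1) (W : Submodule F V) :
    Function.IsPeriodicPt (Submodule.map g) r W := by
  change _^[r] W = W
  rw [map_iter, hg, Submodule.map_smul _ _ _ hz, End.one_eq_id, Submodule.map_id]

open Classical in
/-- The orbit of a subspace. -/
noncomputable def ob (g : End F V) (r : ℕ) (W : Submodule F V) : Finset (Submodule F V) :=
  (Finset.range r).image fun i => (Submodule.map g)^[i] W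

theorem mem_ob (hr : 0 < r) (hz : z ≠ 0) (hg : g ^ r = z • 1) {W U : Submodule F V} :
    U ∈ ob g r W ↔ ∃ i, (Submodule.map g)^[i] W = U := by
  simp only [ob, Finset.mem_image, Finset.mem_range]
  exact ⟨fun ⟨i, _, h⟩ => ⟨i, h⟩, fun ⟨i, h⟩ => ⟨i % r, Nat.mod_lt _ hr,
    ((per_of_pow hz hg W).iterate_mod_apply i).trans h⟩⟩

theorem ob_map (hr : 0 < r) (hz : z ≠ 0) (hg : g ^ r = z • 1) {W U : Submodule F V} :
    U.map g ∈ ob g r W ↔ U ∈ ob g r W := by
  simp only [mem_ob hr hz hg]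
  refine ⟨fun ⟨i, h⟩ => ⟨r - 1 + i, ?_⟩, fun ⟨i, h⟩ => ⟨i + 1, by
    rw [Function.iterate_succ_apply', h]⟩⟩
  rw [Function.iterate_add_apply, h, ← Function.iterate_succ_apply, Nat.succ_eq_add_one,
    Nat.sub_add_cancel hr]
  exact per_of_pow hz hg U

theorem finrank_ob (hr : 0 < r) (hz : z ≠ 0) (hg : g ^ r = z • 1) {W U : Submodule F V}
    (h : U ∈ ob g r W) : finrank F U = finrank F W := by
  obtain ⟨i, rfl⟩ := (mem_ob hr hz hg).mp h
  induction i with
  | zero => rfl
  | succ i ih => rw [Function.iterate_succ_apply', finrank_map_inj (inj_of_pow hr hz hg),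
      ih ((mem_ob hr hz hg).mpr ⟨i, rfl⟩)]

theorem ht_ob (hr : 0 < r) (hz : z ≠ 0) (hg : g ^ r = z • 1) {W : Submodule F V}
    (h : finrank F ↥((ob g r W).sup id) = finrank F W * r) :
    HT g ((ob g r W).sup id) (finrank F W • cy (X ^ r - C z)) := by
  have h1 := ne_zero_Xr hr z
  have := finite_adjoinRoot h1
  obtain ⟨φ, hφ⟩ := exists_algHom_root (T := g) (u := X ^ r - C z)
    (by simp [hg, Algebra.algebraMap_eq_smul_one])
  let b := finBasis F W
  let Ψ : (Fin (finrank F W) → AdjoinRoot (X ^ r - C z)) →ₗ[F] V :=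
    ∑ k, LinearMap.applyₗ (b k : V) ∘ₗ φ.toLinearMap ∘ₗ LinearMap.proj k
  have h2 : ∀ c, Ψ c = ∑ k, φ (c k) (b k) := fun c => by simp [Ψ]
  have h3 : (ob g r W).sup id ≤ LinearMap.range Ψ := Finset.sup_le fun U hU => by
    obtain ⟨i, rfl⟩ := (mem_ob hr hz hg).mp hU
    rw [map_iter]
    rintro _ ⟨x, hx, rfl⟩
    refine ⟨fun k => b.repr ⟨x, hx⟩ k • AdjoinRoot.root _ ^ i, ?_⟩
    have := congrArg ((g ^ i) ∘ₗ W.subtype) (b.sum_repr ⟨x, hx⟩)
    rw [map_sum] at this
    simpa [h2, hφ] using this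
  have h4 : finrank F (Fin (finrank F W) → AdjoinRoot (X ^ r - C z)) = finrank F W * r := by
    simp [finrank_pi_fintype, finrank_adjoinRoot h1]
  have h5 := Ψ.finrank_range_add_finrank_ker
  have h6 := Submodule.finrank_mono h3
  rw [Submodule.eq_of_le_of_finrank_le h3 (by omega), ← Submodule.map_top, ← cy_mdl h1 (mdl_mT _ _)]
  exact (ht_top _).map Ψ (LinearMap.ker_eq_bot.mp (Submodule.finrank_eq_zero.mp (by omega)))
    fun x => by simp [h2, hφ, mT]

theorem pd_of_cy (ha : 0 < a) (hr : 0 < r) (hz : z ≠ 0) (hg : g ^ r = z • 1) {Z : Submodule F V}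
    (h : HT g Z (a • cy (X ^ r - C z))) : PD a g Z r := by
  classical
  have h1 := ne_zero_Xr hr z
  have := finite_adjoinRoot h1
  obtain ⟨e, he⟩ := (tyE_eq_iff _ _).mp ((cy_mdl h1 (mdl_mT _ a)).trans h.2.symm)
  let W := Submodule.span F (Set.range fun k => (e (Pi.single k 1) : V))
  have h2 : finrank F W ≤ a := 
    (finrank_range_le_card fun k => (e (Pi.single k 1) : V)).trans_eq (by simp)
  have h3 : Iv g ((ob g r W).sup id) := iv_iff.mp (by
    rw [Finset.sup_id_eq_sSup, sSup_eq_iSup, Submodule.map_iSup]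
    refine iSup_le fun U => ?_
    rw [Submodule.map_iSup]
    exact iSup_le fun hU => le_iSup₂_of_le _ ((ob_map hr hz hg).mpr hU) le_rfl)
  have h4 : W ≤ (ob g r W).sup id := Finset.le_sup (f := id) ((mem_ob hr hz hg).mpr ⟨0, rfl⟩)
  have h5 : (ob g r W).sup id = Z := le_antisymm (Finset.sup_le fun U hU => by
    obtain ⟨i, rfl⟩ := (mem_ob hr hz hg).mp hU
    rw [map_iter]
    rintro _ ⟨x, hx, rfl⟩
    exact h.iv.pow i x (Submodule.span_le.mpr (by rintro _ ⟨k, rfl⟩; exact (e _).2) hx)) fun x hx => by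
    obtain ⟨c, hc⟩ := e.surjective ⟨x, hx⟩
    have h6 : Iv (mT (X ^ r - C z) a)
        (((ob g r W).sup id).comap (Z.subtype ∘ₗ e.toLinearMap)) := fun y hy => by
      simpa [he] using h3 _ hy
    suffices c ∈ ((ob g r W).sup id).comap (Z.subtype ∘ₗ e.toLinearMap) by simpa [hc] using this
    rw [← Finset.univ_sum_single c]
    refine Submodule.sum_mem _ fun k _ => ?_
    obtain ⟨p, hp⟩ := AdjoinRoot.mk_surjective (c k)
    have := h6.aeval p (Pi.single k 1) (h4 (Submodule.subset_span ⟨k, rfl⟩))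
    convert this
    ext j
    have := mdl_aeval (T := mT (X ^ r - C z) a) (g := fun _ : Fin a => X ^ r - C z)
      (e := .refl F (Fin a → AdjoinRoot (X ^ r - C z))) (fun _ _ => rfl) p (Pi.single k 1) j
    rw [LinearEquiv.refl_apply, LinearEquiv.refl_apply, hp] at this
    rw [this]; by_cases e : j = k <;> simp [e]
  have h6 : finrank F Z = a * r := by
    rw [h.finrank, dg, Multiset.map_nsmul, Multiset.sum_nsmul, ← dg, dg_cy h1,
      natDegree_X_pow_sub_C, smul_eq_mul]
  have h7 := finrank_sup_le_mul fun U => finrank_ob hr hz hg (W := W) (U := U)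
  have h8 : (ob g r W).card ≤ r := Finset.card_image_le.trans (by simp)
  rw [h5, h6] at h7
  have h9 : finrank F W = a := le_antisymm h2 (Nat.le_of_mul_le_mul_right
    (h7.trans (Nat.mul_le_mul_left _ h8)) hr)
  exact ⟨_, le_antisymm h8 (Nat.le_of_mul_le_mul_left (h9 ▸ h7) ha), fun U hU =>
    ⟨(finrank_ob hr hz hg hU).trans h9, (ob_map hr hz hg).mpr hU⟩, h5, h6⟩

theorem pd_of_ty (ha : 0 < a) (hr : 0 < r) (hz : z ≠ 0) (hg : g ^ r = z • 1) (j : ℕ)
    (L : Multiset (Multiset F[X])) (hL : ∀ s ∈ L, dg s = a) {Z : Submodule F V}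
    (h : HT g Z ((a * j) • cy (X ^ r - C z) + L.sum)) : PD a g Z (L.card + r * j) := by
  induction L using Multiset.induction_on generalizing Z with
  | empty =>
    induction j generalizing Z with
    | zero =>
      have := h.finrank
      simp only [mul_zero, zero_nsmul, Multiset.sum_zero, add_zero, dg_zero,
        Submodule.finrank_eq_zero] at this
      exact this ▸ PD.zero
    | succ j ih =>
      rw [mul_add, add_nsmul, mul_one, add_right_comm] at h
      obtain ⟨U, W, h1, rfl, h2, h3⟩ := h.split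
      rw [mul_add, mul_one, ← add_assoc]
      exact (ih h2).add ha (pd_of_cy ha hr hz hg h3) h1
  | cons s L ih =>
    rw [Multiset.sum_cons, add_comm s, ← add_assoc] at h
    obtain ⟨U, W, h1, rfl, h2, h3⟩ := h.split
    rw [Multiset.card_cons, add_right_comm]
    exact (ih (fun s hs => hL s (by simp [hs])) h2).add ha (PD.one (inj_of_pow hr hz hg) h3.iv
      (h3.finrank.trans (hL s (by simp)))) h1

theorem PD.ty (hr : r.Prime) (hz : z ≠ 0) (hg : g ^ r = z • 1) {t : ℕ} {Z : Submodule F V}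
    (h : PD a g Z t) : ∃ (j : ℕ) (L : Multiset (Multiset F[X])), L.card + r * j = t ∧
      (∀ s ∈ L, dg s = a) ∧ HT g Z ((a * j) • cy (X ^ r - C z) + L.sum) := by
  classical
  induction t using Nat.strong_induction_on generalizing Z with | _ t ih => ?_
  obtain ⟨S, rfl, h1, rfl, h2⟩ := h
  rcases S.eq_empty_or_nonempty with rfl | ⟨W, hW⟩
  · exact ⟨0, 0, rfl, by simp, by simpa using ht_bot g⟩
  have h3 : ob g r W ⊆ S := fun U hU => by
    obtain ⟨i, rfl⟩ := (mem_ob hr.pos hz hg).mp hU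
    clear hU
    induction i with
    | zero => exact hW
    | succ i ih => rw [Function.iterate_succ_apply']; exact (h1 _ ih).2
  have h4 : W ∈ ob g r W := (mem_ob hr.pos hz hg).mpr ⟨0, rfl⟩
  have h5 := Finset.card_sdiff_add_card_eq_card h3
  have h6 : (S \ ob g r W).sup id ⊔ (ob g r W).sup id = S.sup id := by
    rw [← Finset.sup_union, Finset.sdiff_union_of_subset h3]
  have h7 := finrank_sup_le_mul fun U (hU : U ∈ ob g r W) => (h1 U (h3 hU)).1
  have h8 := finrank_sup_le_mul fun U (hU : U ∈ S \ ob g r W) => (h1 U (Finset.sdiff_subset hU)).1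
  have h9 := Submodule.finrank_sup_add_finrank_inf_eq ((S \ ob g r W).sup id) ((ob g r W).sup id)
  rw [h6, h2, ← h5, mul_add] at h9
  have hd : Disjoint ((S \ ob g r W).sup id) ((ob g r W).sup id) :=
    disjoint_iff.mpr (Submodule.finrank_eq_zero.mp (by omega))
  obtain ⟨j, L, e1, e2, e3⟩ := ih (S \ ob g r W).card (by
    have := Finset.card_pos.mpr ⟨W, h4⟩; omega) ⟨_, rfl, fun U hU => ⟨(h1 U (Finset.sdiff_subset
      hU)).1, Finset.mem_sdiff.mpr ⟨(h1 U (Finset.sdiff_subset hU)).2, fun e =>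
        (Finset.mem_sdiff.mp hU).2 ((ob_map hr.pos hz hg).mp e)⟩⟩, rfl, by omega⟩
  rcases (Nat.dvd_prime hr).mp (per_of_pow hz hg W).minimalPeriod_dvd with e | e
  · have h10 : W.map g = W := Function.minimalPeriod_eq_one_iff_isFixedPt.mp e
    have h11 : ob g r W = {W} := Finset.eq_singleton_iff_unique_mem.mpr ⟨h4, fun U hU => by
      obtain ⟨i, rfl⟩ := (mem_ob hr.pos hz hg).mp hU
      exact Function.IsFixedPt.iterate h10 i⟩
    obtain ⟨s, hs⟩ := (iv_iff.mp h10.le).ht
    refine ⟨j, s ::ₘ L, by rw [← h5, ← e1, h11]; simp; ring, fun s' h => ?_, ?_⟩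
    · rcases Multiset.mem_cons.mp h with rfl | h
      exacts [hs.finrank.symm.trans (h1 W hW).1, e2 s' h]
    · rw [← h6, Multiset.sum_cons, add_comm s, ← add_assoc]
      exact e3.sup (by simpa [h11] using hs) hd
  · have h11 : (ob g r W).card = r := by
      rw [ob, Finset.card_image_of_injOn, Finset.card_range]
      have := Function.iterate_injOn_Iio_minimalPeriod (f := Submodule.map g) (x := W)
      simpa [e] using this
    refine ⟨j + 1, L, by rw [← h5, ← e1, h11]; ring, e2, ?_⟩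
    rw [← h6, mul_add, add_nsmul, mul_one, add_right_comm]
    exact e3.sup ((h1 W hW).1 ▸ ht_ob hr.pos hz hg (by rw [(h1 W hW).1]; rw [h11] at h7 h9; omega)) hd

theorem pd_iff {ι : Type} [Fintype ι] [DecidableEq ι] {g : End F (ι → F)} {t : ℕ}
    (hg : Function.Injective g) (ha : 0 < a) (ht : 2 ≤ t) (hn : Fintype.card ι = a * t) :
    (∃ D : Fin t → Submodule F (ι → F), Geo.IsMDecomposition a D ∧
      ∃ σ : Equiv.Perm (Fin t), ∀ j, (D j).map g = D (σ j)) ↔ PD a g ⊤ t := by
  classical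
  refine ⟨fun ⟨D, h, σ, hσ⟩ => ⟨Finset.univ.image D, ?_, fun W hW => ?_, ?_, by simp [hn]⟩,
    fun ⟨S, h1, h2, h3, h4⟩ => ?_⟩
  · rw [Finset.card_image_of_injective _ (h.indep.injective fun i e => ?_), Finset.card_fin]
    have := h.finrank_eq i
    rw [e, finrank_bot] at this; omega
  · obtain ⟨i, -, rfl⟩ := Finset.mem_image.mp hW
    exact ⟨h.finrank_eq i, by simp [hσ]⟩
  · rw [Finset.sup_image, Finset.sup_univ_eq_iSup, ← h.iSup_eq_top]; rfl
  let e : Fin t ≃ S := (S.equivFinOfCardEq h1).symm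
  let τ : S → S := fun W => ⟨W.1.map g, (h2 _ W.2).2⟩
  have h5 : Function.Bijective τ := Finite.injective_iff_bijective.mp fun W W' h =>
    Subtype.ext (Submodule.map_injective_of_injective hg (congrArg Subtype.val h))
  have h6 : (Finset.univ.sup fun i => (e i).1) = ⊤ := eq_top_iff.mpr (h3 ▸ Finset.sup_le
    fun W hW => Finset.le_sup_of_le (Finset.mem_univ (e.symm ⟨W, hW⟩)) (by simp))
  refine ⟨fun i => e i, ⟨ht, ha, fun i => (h2 _ (e i).2).1, ?_, by
    rw [← Finset.sup_univ_eq_iSup, h6]⟩, (e.trans (.ofBijective τ h5)).trans e.symm,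
    fun j => by simp [τ]⟩
  rw [iSupIndep_iff_supIndep_univ, Finset.supIndep_iff_disjoint_erase]
  intro i hi
  have h7 := Submodule.finrank_sup_add_finrank_inf_eq (e i).1
    ((Finset.univ.erase i).sup fun i => (e i).1)
  have h8 := finrank_sup_le_sum (Finset.univ.erase i) fun i => (e i).1
  rw [← Finset.sup_insert (f := fun i => (e i).1), Finset.insert_erase hi, h6, h4,
    (h2 _ (e i).2).1] at h7
  rw [Finset.sum_congr (g := fun _ => a) rfl fun i _ => (h2 _ (e i).2).1, Finset.sum_const,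
    Finset.card_erase_of_mem hi, Finset.card_fin, smul_eq_mul, Nat.sub_one_mul, mul_comm] at h8
  have : a ≤ a * t := Nat.le_mul_of_pos_right _ (by omega)
  exact disjoint_iff.mpr (Submodule.finrank_eq_zero.mp (by omega))

end Cfsg.Agent.H18.El
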