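import Mathlib
import Cfsg.Agent.H18.Li1

/-! Elements of prime order and imprimitive subgroups. -/

set_option autoImplicit false

namespace Cfsg.Agent.H18.El

open Module Polynomial H11 L0 H10

universe u

variable {F : Type u} [Field F] {V : Type*} [AddCommGroup V] [Module F V] [FiniteDimensional F V]

theorem two_val {α : Type*} {s : Multiset α} {v w : α} (h : ∀ u ∈ s, u = v ∨ u = w) :
    ∃ x k, s = Multiset.replicate x v + Multiset.replicate k w := by
  classical
  refine ⟨_, _, (Multiset.filter_add_not (· = v) s).symm.trans (congrArg₂ _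
    (Multiset.eq_replicate_card.mpr fun u hu => (Multiset.mem_filter.mp hu).2)
    (Multiset.eq_replicate_card.mpr fun u hu => (h u (Multiset.mem_filter.mp hu).1).resolve_left
      (Multiset.mem_filter.mp hu).2))⟩

theorem exists_card_split {α : Type*} (s : Multiset α) {k : ℕ} (h : k ≤ s.card) :
    ∃ a b, s = a + b ∧ a.card = k := by
  induction s using Quotient.inductionOn with | _ l => ?_
  exact ⟨l.take k, l.drop k, by simp, by simpa using h⟩

theorem exists_parts {a i : ℕ} (t : ℕ) {A B : Multiset F[X]} (hA : ∀ u ∈ A, u.natDegree = 1)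
    (hB : ∀ u ∈ B, u.natDegree = i) (h : A.card + i * B.card = a * t) (hk : B.card ≤ t * (a / i)) :
    ∃ L : Multiset (Multiset F[X]), L.card = t ∧ (∀ s ∈ L, dg s = a) ∧ L.sum = A + B := by
  induction t generalizing A B with
  | zero =>
    obtain rfl : B = 0 := by simpa using hk
    obtain rfl : A = 0 := by simpa using h
    exact ⟨0, rfl, by simp, by simp⟩
  | succ t ih =>
    have h1 := Nat.mul_div_le a i
    obtain ⟨B₁, B₂, rfl, h2⟩ := exists_card_split B (min_le_left _ (a / i))
    rw [Multiset.card_add] at h hk h2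
    have h3 : B₂.card ≤ t * (a / i) ∧ i * B₁.card ≤ a ∧ i * B₂.card ≤ a * t := by
      have : B₂.card ≤ t * (a / i) := by rw [add_mul] at hk; omega
      exact ⟨this, (Nat.mul_le_mul_left i (by omega)).trans h1, by nlinarith⟩
    obtain ⟨A₁, A₂, rfl, h4⟩ := exists_card_split A (k := a - i * B₁.card) (by
      rw [mul_add, mul_add] at h; omega)
    obtain ⟨L, h5, h6, h7⟩ := ih (A := A₂) (B := B₂) (fun u hu => hA u (by simp [hu]))
      (fun u hu => hB u (by simp [hu])) (by rw [Multiset.card_add, mul_add, mul_add] at h; omega)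
      h3.1
    refine ⟨(A₁ + B₁) ::ₘ L, by simp [h5], fun s hs => ?_, by rw [Multiset.sum_cons, h7]; abel⟩
    rcases Multiset.mem_cons.mp hs with rfl | hs
    · rw [dg_add, dg_const fun u hu => hA u (by simp [hu]), dg_const fun u hu => hB u (by simp [hu])]
      omega
    · exact h6 s hs

open Classical in
theorem count_parts {a : ℕ} {L : Multiset (Multiset F[X])} (h : ∀ s ∈ L, dg s = a) {u : F[X]}
    (hu : 0 < u.natDegree) : L.sum.count u ≤ L.card * (a / u.natDegree) := by
  induction L using Multiset.induction_on with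
  | empty => simp
  | cons s L ih =>
    have h1 : s.count u ≤ a / u.natDegree := by
      obtain ⟨s', e⟩ := Multiset.le_iff_exists_add.mp (Multiset.le_count_iff_replicate_le.mp
        (le_refl (s.count u)))
      rw [Nat.le_div_iff_mul_le hu, ← h s (by simp), e, dg_add, dg_replicate, ← e]
      omega
    have := ih fun s hs => h s (by simp [hs])
    rw [Multiset.sum_cons, Multiset.count_add, Multiset.card_cons, add_mul]; omega

variable {a r t : ℕ} {g : End F V} {z : F}

omit [FiniteDimensional F V] in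
theorem PD.smul {c : F} (hc : c ≠ 0) {Z : Submodule F V} (h : PD a (c • g) Z t) : PD a g Z t := by
  simpa only [PD, Submodule.map_smul _ _ _ hc] using h

theorem pd_parts (ha : 0 < a) (hr : 0 < r) (hz : z ≠ 0) (hg : g ^ r = z • 1) {i j : ℕ}
    {A B : Multiset F[X]} (hA : ∀ u ∈ A, u.natDegree = 1) (hB : ∀ u ∈ B, u.natDegree = i)
    (hn : finrank F V = a * t) (hj : r * j ≤ t) (hk : B.card ≤ (t - r * j) * (a / i))
    (h : tyE g = (a * j) • cy (X ^ r - C z) + (A + B)) : PD a g ⊤ t := by
  obtain ⟨L, h1, h2, h3⟩ := exists_parts (a := a) (t - r * j) hA hB (by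
    have := finrank_dg g
    rw [h, dg_add, dg_add, dg_const hA, dg_const hB, dg, Multiset.map_nsmul, Multiset.sum_nsmul,
      ← dg, dg_cy (ne_zero_Xr hr z), natDegree_X_pow_sub_C, smul_eq_mul, hn] at this
    rw [Nat.mul_sub, mul_comm r, ← mul_assoc]; omega) hk
  have := pd_of_ty ha hr hz hg j L h2 (h3 ▸ h ▸ ht_top g)
  rwa [h1, Nat.sub_add_cancel hj] at this

theorem pd_nonsplit (ha : 0 < a) (hr : r.Prime) (hz : z ≠ 0) (hg : g ^ r = z • 1)
    (h : ∀ w, w ^ r ≠ z) (hn : finrank F V = a * t) : PD a g ⊤ t := by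
  obtain ⟨h1, h2, -⟩ := ty_nonsplit hr hg h
  have h3 : cy (X ^ r - C z) = {X ^ r - C z} := cy_prim (.of_irreducible
    (X_pow_sub_C_irreducible_of_prime hr h) (monic_X_pow_sub_C z hr.ne_zero))
  rcases hr.dvd_mul.mp (hn ▸ h1) with ⟨k, rfl⟩ | ⟨k, rfl⟩
  · refine pd_parts (j := 0) (A := 0) (i := r) ha hr.pos hz hg (by simp) (fun u hu => ?_) hn
      (by simp) ?_ (by simpa using h2)
    · rw [Multiset.eq_of_mem_replicate hu, natDegree_X_pow_sub_C]
    · simp [hn, mul_assoc, hr.pos, mul_comm t]
  · refine pd_parts (j := k) (A := 0) (B := 0) (i := r) ha hr.pos hz hg (by simp) (by simp) hn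
      le_rfl (by simp) ?_
    rw [h2, h3, hn, mul_left_comm, Nat.mul_div_cancel_left _ hr.pos]
    simp [Multiset.nsmul_singleton]

theorem pd_lin [Finite F] (ha : 0 < a) (hr : r.Prime) (h0 : (r : F) ≠ 0)
    (hi : orderOf ((Nat.card F : ℕ) : ZMod r) = 1) (hn : finrank F V = a * t) (ht : 0 < t)
    (hd : LinearMap.det g = 1) (h : PE r g) : PD a g ⊤ t := by
  rcases pe_cases hr.ne_zero (hn ▸ Nat.mul_pos ha ht) (by simp [hd]) h with
    ⟨c, h1, h2, -⟩ | ⟨z, h1, h2, h3⟩
  · refine .smul h1 (pd_parts (j := 0) (B := 0) (A := tyE (c • g)) (i := 1) (z := 1) ha hr.pos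
      one_ne_zero (by simpa using h2) (fun u hu => ?_) (by simp) hn (by simp) (by simp) (by simp))
    by_cases e : u = X - 1
    · rw [e, natDegree_X_sub_one]
    · rw [IrrD.deg hr (irrD_of_mem h0 h2 hu) e, hi]
  · exact pd_nonsplit ha hr h1 h2 h3 hn

theorem cy_char (p : ℕ) [hp : Fact p.Prime] [CharP F p] :
    cy (X ^ p - C 1 : F[X]) = {(X - 1) ^ p} := by
  have := X_pow_char_pow_sub_one (F := F) p 1
  rw [pow_one] at this
  rw [C_1, this, cy_prim (prim_X_sub_one_pow hp.out.pos)]

theorem pd_two [Finite F] [CharP F 2] (ha : 0 < a) (hn : finrank F V = a * t) (ht : 0 < t)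
    (hd : LinearMap.det g = 1) (h : PE 2 g) : PD a g ⊤ t := by
  obtain ⟨c, h1, h2, -⟩ := pe_char 2 (hn ▸ Nat.mul_pos ha ht) (by simp [hd]) h
  obtain ⟨h3, h4⟩ := ty_unip 2 h2
  obtain ⟨x, k, h5⟩ := two_val (s := dm (c • g)) (v := 1) (w := 2) fun u hu => by
    have := h3 u hu; omega
  have h6 := sum_dm (c • g)
  rw [h5, sum_two_rep, hn] at h6
  have h7 := Nat.div_add_mod k a
  have h8 := Nat.mod_lt k ha
  have h9 : 2 * (k / a) ≤ t := Nat.le_of_mul_le_mul_left (by rw [mul_left_comm]; omega) ha
  refine .smul h1 (pd_parts (j := k / a) (B := .replicate (k % a) ((X - 1) ^ 2))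
    (A := .replicate x (X - 1)) (i := 2) (z := 1) ha two_pos one_ne_zero (by simpa using h2)
    (fun u hu => ?_) (fun u hu => ?_) hn h9 ?_ ?_)
  · rw [Multiset.eq_of_mem_replicate hu, natDegree_X_sub_one]
  · rw [Multiset.eq_of_mem_replicate hu, natDegree_X_sub_one_pow]
  · obtain ⟨t', rfl⟩ := Nat.exists_eq_add_of_le h9
    rw [Multiset.card_replicate, Nat.add_sub_cancel_left]
    rw [mul_add, mul_left_comm] at h6
    rcases t' with _ | _ | t'
    · omega
    · omega
    · rw [add_assoc, add_mul]; omega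
  · rw [h4, h5, cy_char 2, Multiset.nsmul_singleton, add_left_comm, ← Multiset.replicate_add, h7]
    simp

theorem pd_unip (p : ℕ) [hp : Fact p.Prime] [CharP F p] (ht : 0 < t) (hg : g ^ p = 1)
    (h : PD a g ⊤ t) (hc : (dm g).count p < a) : ∃ ν ≤ dm g, ν.sum = a := by
  obtain ⟨j, L, h1, h2, h3⟩ := h.ty (z := 1) hp.out one_ne_zero (by simpa using hg)
  have h4 : dm g = _ := congrArg (Multiset.map natDegree) ((ht_top g).uniq h3)
  rw [cy_char p, Multiset.nsmul_singleton, Multiset.map_add, Multiset.map_replicate,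
    natDegree_X_sub_one_pow] at h4
  rcases j with _ | j
  · obtain ⟨s, hs⟩ := Multiset.card_pos_iff_exists_mem.mp (show 0 < L.card by omega)
    exact ⟨s.map natDegree, h4 ▸ (Multiset.map_le_map (Multiset.single_le_sum
      (fun _ _ => Multiset.zero_le _) s hs)).trans (Multiset.le_add_left ..), h2 s hs⟩
  · rw [h4, Multiset.count_add, Multiset.count_replicate_self, mul_add] at hc; omega

theorem arith_dec {a t c : ℕ} (hc : 0 < c) :
    (a * t) / c ≤ t * (a / c) ↔ (a * t) % c = t * (a % c) := by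
  have h1 := Nat.div_add_mod (a * t) c
  have h2 : a * t = c * (t * (a / c)) + t * (a % c) := by
    conv_lhs => rw [← Nat.div_add_mod a c]
    ring
  have h3 := Nat.mod_lt (a * t) hc
  refine ⟨fun h => ?_, fun h => (Nat.eq_of_mul_eq_mul_left hc (by omega)).le⟩
  have : t * (a / c) ≤ a * t / c := (Nat.le_div_iff_mul_le hc).mpr (by rw [mul_comm _ c]; omega)
  rw [le_antisymm h this] at h1; omega

theorem pd_main [Finite F] (ha : 0 < a) [hr : Fact r.Prime] (h0 : (r : F) ≠ 0) {c : ℕ}
    (hc : orderOf ((Nat.card F : ℕ) : ZMod r) = c) (h1 : c ≠ 1) (hn : finrank F V = a * t)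
    (hcn : c ≤ a * t) :
    (∀ g : End F V, LinearMap.det g = 1 → PE r g → PD a g ⊤ t) ↔
      (a = 1 ∧ 1 < c ∧ c = r - 1 ∧ a * t ≤ (a * t % c) * r) ∨
        (c ≤ a ∧ a * t % c = t * (a % c)) := by
  classical
  have hi : 0 < c := hc ▸ ord_pos hr.out h0
  have h3 : ¬ r ∣ Nat.card F - 1 := fun e => h1 (hc.symm.trans
    ((ord_eq_one_iff Nat.card_pos).mpr e))
  obtain ⟨h4, h5'⟩ := cy_sep h0
  have h5 := fun v hv => Multiset.count_pos.mp ((h5' v hv).symm ▸ one_pos)
  have h6 := dg_cy (ne_zero_Xr hr.out.pos (1 : F))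
  rw [natDegree_X_pow_sub_C] at h6
  obtain ⟨u, hu, hu'⟩ := exists_irrD hr.out h0
  have hud := hc ▸ IrrD.deg hr.out hu hu'
  have h7 : Multiset.replicate 1 (X - 1) + {u} ≤ cy (X ^ r - C 1 : F[X]) := by
    rw [Multiset.replicate_one, Multiset.singleton_add, ← Multiset.insert_eq_cons]
    exact (Multiset.le_iff_subset (by simp [hu'.symm])).mpr fun v hv => h5 v (by
      rcases Multiset.mem_cons.mp hv with rfl | hv
      exacts [irrD_X_sub_one, Multiset.mem_singleton.mp hv ▸ hu])
  obtain ⟨T, hT⟩ := Multiset.le_iff_exists_add.mp h7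
  rw [hT, dg_add, dg_add, dg_replicate, natDegree_X_sub_one] at h6
  simp only [dg, Multiset.map_singleton, Multiset.sum_singleton, hud] at h6
  have hm := Nat.div_add_mod (a * t) c
  have hm' := Nat.mod_lt (a * t) hi
  refine ⟨fun H => ?_, fun H g hd hg => ?_⟩
  · have key : ∀ k, 0 < k → c * k ≤ a * t → ∃ j, a * j ≤ a * t - c * k ∧ (j = 0 ∨ c = r - 1) ∧
        a * j ≤ k ∧ k ≤ a * j + (t - r * j) * (a / c) := fun k hk hk' => by
      obtain ⟨g, h8, h9, h10, h11⟩ := exists_sl_of_ty (V := V) h3
        (s := Multiset.replicate (a * t - c * k) (X - 1) + Multiset.replicate k u) (fun v hv => by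
          rcases Multiset.mem_add.mp hv with h | h <;> rw [Multiset.eq_of_mem_replicate h]
          exacts [irrD_X_sub_one, hu])
        ⟨u, Multiset.mem_add.mpr (.inr (Multiset.mem_replicate.mpr ⟨hk.ne', rfl⟩)), hu'⟩ (by
          rw [dg_add, dg_replicate, dg_replicate, natDegree_X_sub_one, hud, hn, mul_comm k]; omega)
      obtain ⟨j, L, e1, e2, e3⟩ := (H g h8 h10).ty (z := 1) hr.out one_ne_zero (by simpa using h9)
      have e4 := h11.symm.trans ((ht_top g).uniq e3)
      have hT0 : j ≠ 0 → T = 0 := fun hj => Multiset.eq_zero_of_forall_notMem fun v hv => by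
        have e5 : v ∈ cy (X ^ r - C 1 : F[X]) := hT ▸ Multiset.mem_add.mpr (.inr hv)
        have e7 : v ∈ Multiset.replicate (a * t - c * k) (X - 1) + Multiset.replicate k u :=
          e4 ▸ Multiset.mem_add.mpr (.inl (Multiset.mem_nsmul.mpr ⟨Nat.mul_ne_zero ha.ne' hj, e5⟩))
        have e6 := h5' v (h4 v e5)
        have e8 := Multiset.count_pos.mpr hv
        rw [hT, Multiset.count_add, Multiset.count_add] at e6
        rcases Multiset.mem_add.mp e7 with h | h <;> rw [Multiset.eq_of_mem_replicate h] at e6 e8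
        · rw [Multiset.count_replicate_self] at e6; omega
        · rw [Multiset.count_singleton_self] at e6; omega
      have e5 := congrArg (Multiset.count u) e4
      have e6 := congrArg (Multiset.count (X - 1)) e4
      have e7 := count_parts e2 (u := u) (by omega)
      rw [hud, show L.card = t - r * j by omega] at e7
      rcases eq_or_ne j 0 with rfl | hj
      · simp [Multiset.count_replicate, hu'.symm] at e5
        exact ⟨0, by simp, .inl rfl, by simp, by simpa [e5] using e7⟩
      · rw [hT0 hj] at hT h6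
        rw [hT] at e5 e6
        simp [Multiset.count_replicate, hu'.symm, hu'] at e5 e6 h6
        exact ⟨j, by omega, .inr (by omega), by omega, by omega⟩
    obtain ⟨j, e1, e2, e3, e4⟩ := key (a * t / c) (Nat.div_pos hcn hi) (by omega)
    have hm0 := Nat.div_pos hcn hi
    rcases eq_or_ne j 0 with rfl | hj
    · simp only [mul_zero, zero_add, Nat.sub_zero] at e4
      refine .inr ⟨not_lt.mp fun e => ?_, (arith_dec hi).mp e4⟩
      rw [Nat.div_eq_of_lt e] at e4; omega
    · have e5 : a ≤ a * j := Nat.le_mul_of_pos_right _ (by omega)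
      obtain ⟨j', -, -, e6, e7⟩ := key 1 one_pos (by omega)
      rw [Nat.div_eq_of_lt (show a < c by omega)] at e4 e7
      have e8 : r = c + 1 := by have := hr.out.pos; omega
      refine .inl ⟨Nat.eq_one_of_mul_eq_one_right (show a * j' = 1 by omega), by omega, by omega, ?_⟩
      have : c * (a * t / c) ≤ c * (a * t % c) := Nat.mul_le_mul_left _ (by omega)
      rw [e8, mul_add, mul_comm _ c]; omega
  rcases pe_cases hr.out.ne_zero (by omega) (by simp [hd]) hg with ⟨d, e1, e2, -⟩ | ⟨z, e1, -, e2⟩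
  swap
  · exact absurd (dvd_of_nonpow e1 e2) h3
  obtain ⟨x, A, e3, e4⟩ := ty_split h0 e2
  have e5 : ∀ v ∈ A, v.natDegree = c := fun v hv => hc ▸ IrrD.deg hr.out (e4 v hv).1 (e4 v hv).2
  have e6 := finrank_dg (d • g)
  rw [e3, dg_add, dg_replicate, natDegree_X_sub_one, dg_const e5, hn] at e6
  have e7 : A.card ≤ a * t / c := (Nat.le_div_iff_mul_le hi).mpr (by rw [mul_comm]; omega)
  have e8 : ∀ k, ∀ v ∈ Multiset.replicate k (X - 1 : F[X]), v.natDegree = 1 := fun k v hv => by
    rw [Multiset.eq_of_mem_replicate hv, natDegree_X_sub_one]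
  refine .smul e1 ?_
  rcases H with ⟨rfl, -, e9, e10⟩ | ⟨-, e9⟩
  · have hT0 : T = 0 := eq_zero_of_dg (fun v hv => (h4 v (hT ▸ Multiset.mem_add.mpr (.inr hv))).prim) (by
      have := hr.out.pos; unfold dg; omega)
    have e11 : A = Multiset.replicate A.card u := Multiset.eq_replicate_card.mpr fun v hv => by
      have := h5 v (e4 v hv).1
      rw [hT] at this
      simpa [hT0, (e4 v hv).2] using this
    have e12 : r = c + 1 := by have := hr.out.pos; omega
    have e13 : 1 * t / c ≤ 1 * t % c := Nat.le_of_lt_succ (Nat.lt_of_mul_lt_mul_left (a := c) (by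
      rw [e12] at e10; nlinarith))
    have e14 : c * A.card ≤ c * (1 * t / c) := Nat.mul_le_mul_left _ e7
    refine pd_parts (j := A.card) (A := .replicate (x - A.card) (X - 1)) (B := 0) (i := c) (z := 1)
      ha hr.out.pos one_ne_zero (by simpa using e2) (e8 _) (by simp) hn (by
        rw [e12, add_mul]; omega) (by simp) ?_
    rw [e3, hT, hT0, add_zero, add_zero, one_mul, nsmul_add, Multiset.nsmul_singleton, ← e11,
      Multiset.nsmul_replicate, mul_one, add_right_comm, ← Multiset.replicate_add,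
      Nat.add_sub_cancel' (by omega)]
  · exact pd_parts (j := 0) (z := 1) ha hr.out.pos one_ne_zero (by simpa using e2) (e8 x) e5 hn
      (by simp) (by simpa using e7.trans ((arith_dec hi).mpr e9)) (by simpa using e3)

section count
variable {ι : Type} [Fintype ι] [DecidableEq ι]
attribute [local instance] actSub

theorem dec_trans {D D' : Fin t → Submodule F (ι → F)} (h : Geo.IsMDecomposition a D)
    (h' : Geo.IsMDecomposition a D') : ∃ e : (ι → F) ≃ₗ[F] (ι → F), e • D = D' := by
  have h1 := DirectSum.isInternal_submodule_of_iSupIndep_of_iSup_eq_top h.indep h.iSup_eq_top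
  have h2 := DirectSum.isInternal_submodule_of_iSupIndep_of_iSup_eq_top h'.indep h'.iSup_eq_top
  let v := fun j => finBasisOfFinrankEq F (D j) (h.finrank_eq j)
  let v' := fun j => finBasisOfFinrankEq F (D' j) (h'.finrank_eq j)
  let e := (h1.collectedBasis v).equiv (h2.collectedBasis v') (.refl _)
  refine ⟨e, funext fun j => map_eq_of (a := (v j).equiv (v' j) (.refl _)) fun x => ?_⟩
  refine LinearMap.congr_fun (f := e.toLinearMap ∘ₗ (D j).subtype)
    (g := (D' j).subtype ∘ₗ ((v j).equiv (v' j) (.refl _)).toLinearMap) ((v j).ext fun k => ?_) x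
  simpa using (h1.collectedBasis v).equiv_apply ⟨j, k⟩ (h2.collectedBasis v') (.refl _)

theorem factorial_dvd_dec :
    t.factorial ∣ Nat.card {D : Fin t → Submodule F (ι → F) // Geo.IsMDecomposition a D} := by
  let _ : MulAction (Equiv.Perm (Fin t))
      {D : Fin t → Submodule F (ι → F) // Geo.IsMDecomposition a D} :=
    { smul σ D := ⟨D.1 ∘ σ.symm, D.2.two_le, D.2.pos, fun i => D.2.finrank_eq _,
        D.2.indep.comp σ.symm.injective, (σ.symm.iSup_comp (g := D.1)).trans D.2.iSup_eq_top⟩
      one_smul _ := rfl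
      mul_smul _ _ _ := rfl }
  rw [Nat.card_congr (MulAction.selfEquivOrbitsQuotientProd (G := Equiv.Perm (Fin t)) fun D => ?_),
    Nat.card_prod, Nat.card_perm, Nat.card_fin]
  · exact Dvd.intro_left _ rfl
  refine eq_bot_iff.mpr fun σ hσ => Equiv.ext fun i => D.2.indep.injective (fun i e => ?_) ?_
  · have := D.2.finrank_eq i
    have := D.2.pos
    rw [e, finrank_bot] at *; omega
  · exact (congrFun (congrArg Subtype.val hσ) (σ i)).symm.trans
      (congrArg D.1 (σ.symm_apply_apply i))

theorem le_of_dvd_dec [Finite F] (hr : r.Prime) (h0 : (r : F) ≠ 0) (ha : 0 < a) (ht : 2 ≤ t)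
    (hn : Fintype.card ι = a * t) (h : r ∣ Nat.card {D : Fin t → Submodule F (ι → F) //
      Geo.IsMDecomposition a D} / t.factorial) :
    orderOf ((Nat.card F : ℕ) : ZMod r) ≤ a * t := by
  by_contra e
  have hV : finrank F (ι → F) = a * t := by simp [hn]
  refine not_dvd_gl (X := Fin t → Submodule F (ι → F)) hr h0 hV rfl (fun g D h => ?_)
    (fun _ _ => dec_trans) (fun U W _ hU => ?_) (h.trans (Nat.div_dvd_of_dvd factorial_dvd_dec))
  · exact ⟨h.two_le, h.pos, fun i => (finrank_smul g _).trans (h.finrank_eq i),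
      (iSupIndep_map_orderIso_iff (Submodule.orderIsoMapComap g)).mpr h.indep, by
        simp [Pi.smul_def, smul_sub_def, ← Submodule.map_iSup, h.iSup_eq_top]⟩
  obtain ⟨D, hD, -⟩ := (pd_iff (g := 1) Function.injective_id ha ht hn).mpr (pd_parts (j := 0)
    (r := 1) (z := 1) (i := 1) (B := 0) (A := tyE (1 : End F (ι → F))) ha one_pos one_ne_zero (by simp) (fun u hu => by
      rw [tyE_one] at hu; rw [Multiset.eq_of_mem_replicate hu, natDegree_X_sub_one])
    (by simp) hV (by simp) (by simp) (by simp))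
  rw [Nat.mod_eq_of_lt (not_le.mp e), ← hV] at hU
  exact ⟨D, hD, fun g hg _ => funext fun i => smul_eq_of_fix hg
    (Submodule.eq_top_of_finrank_eq hU ▸ le_top)⟩

end count

end Cfsg.Agent.H18.El
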