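import Mathlib
import Cfsg.Agent.H10.PG
import Cfsg.Agent.H18.Li2

/-! Conjugating elements of prime order into a subgroup of the general linear group. -/

set_option autoImplicit false

namespace Cfsg.Agent.H18.El

open Module Polynomial H11 L0 H10 Geo

universe u

variable {F : Type u} [Field F] {V : Type*} [AddCommGroup V] [Module F V] [FiniteDimensional F V]
  {ι : Type} [Fintype ι] [DecidableEq ι] {H : Subgroup (GL ι F)} {r : ℕ}

/-- Some member of `H` is similar to `g`. -/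
def TI (H : Subgroup (GL ι F)) (g : End F (ι → F)) : Prop :=
  ∃ h ∈ H, tyE (Matrix.toLin' h.1) = tyE g

/-- Every element of order `r` of the projective special linear group is conjugate into `H`. -/
def EL (r : ℕ) (H : Subgroup (GL ι F)) : Prop :=
  ∀ x ∈ specialLinear ι F, (∃ z : F, (x ^ r).1 = z • 1) → (∀ z : F, x.1 ≠ z • 1) →
    ∃ g ∈ specialLinear ι F, g⁻¹ * x * g ∈ H

/-- The centraliser has full determinant. -/
def FD (A : Matrix ι ι F) : Prop := ∀ c : F, c ≠ 0 → ∃ B, Commute A B ∧ B.det = c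

theorem mem_sl {x : GL ι F} : x ∈ specialLinear ι F ↔ x.1.det = 1 := Units.ext_iff

theorem range_toGL : (Matrix.SpecialLinearGroup.toGL : Matrix.SpecialLinearGroup ι F →* GL ι F).range
    = specialLinear ι F := by
  ext x
  exact ⟨by rintro ⟨y, rfl⟩; simp [mem_sl], fun h => ⟨⟨x, mem_sl.mp h⟩, Units.ext rfl⟩⟩

theorem idx_sl : (H.comap (Matrix.SpecialLinearGroup.toGL :
    Matrix.SpecialLinearGroup ι F →* GL ι F)).index = H.relIndex (specialLinear ι F) := by
  rw [Subgroup.index_comap, range_toGL]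

theorem el_sl : (∀ x : Matrix.SpecialLinearGroup ι F,
      (∃ z : F, ((x ^ r : Matrix.SpecialLinearGroup ι F) : Matrix ι ι F) = z • 1) →
      (∀ z : F, (x : Matrix ι ι F) ≠ z • 1) → ∃ P : Matrix.SpecialLinearGroup ι F, P⁻¹ * x * P ∈
        H.comap (Matrix.SpecialLinearGroup.toGL : Matrix.SpecialLinearGroup ι F →* GL ι F)) ↔
    EL r H := by
  simp only [EL, ← range_toGL, MonoidHom.mem_range, forall_exists_index, forall_apply_eq_imp_iff,
    exists_exists_eq_and, Subgroup.mem_comap, map_mul, map_inv, ← map_pow]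
  rfl

theorem ti_conj {x g : GL ι F} (h : g⁻¹ * x * g ∈ H) : TI H (Matrix.toLin' x.1) :=
  ⟨_, h, by have := ty_conj g⁻¹ x.1; rwa [inv_inv] at this⟩

theorem TI.conj {x : GL ι F} (h : TI H (Matrix.toLin' x.1)) : ∃ g, g⁻¹ * x * g ∈ H := by
  obtain ⟨y, h1, h2⟩ := h
  obtain ⟨g, hg⟩ := isConj_iff.mp ((isConj_iff_ty x y).mpr h2.symm)
  exact ⟨g⁻¹, by simpa [hg]⟩

theorem FD.conj {x : GL ι F} (h : FD x.1) (g : GL ι F) :
    ∃ k ∈ specialLinear ι F, k⁻¹ * x * k = g⁻¹ * x * g := by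
  obtain ⟨k, h1, h2⟩ := exists_det_one_conj h g⁻¹
  exact ⟨k⁻¹, inv_mem (mem_sl.mpr h1), Units.ext (by simpa using h2)⟩

theorem EL.ti (h : EL r H) (g : End F (ι → F)) (h1 : LinearMap.det g = 1) (h2 : PE r g) :
    TI H g := by
  obtain ⟨A, rfl⟩ := Matrix.toLin'.surjective g
  rw [pe_toLin'] at h2
  rw [LinearMap.det_toLin'] at h1
  obtain ⟨x, rfl⟩ : IsUnit A := (Matrix.isUnit_iff_isUnit_det A).mpr (by simp [h1])
  obtain ⟨g, -, hg⟩ := h x (mem_sl.mpr h1) (by simpa using h2.1) h2.2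
  exact ti_conj hg

theorem el_of (hf : ∀ A : Matrix ι ι F, A.det = 1 → PE r (Matrix.toLin' A) → FD A)
    (h : ∀ g, LinearMap.det g = 1 → PE r g → TI H g) : EL r H := fun x h1 h2 h3 => by
  have h4 := (pe_toLin' r x.1).mpr ⟨by simpa using h2, h3⟩
  obtain ⟨g, hg⟩ := (h _ (by simpa using mem_sl.mp h1) h4).conj
  obtain ⟨k, h5, h6⟩ := (hf _ (mem_sl.mp h1) h4).conj g
  exact ⟨k, h5, h6 ▸ hg⟩

theorem FD.smul {A : Matrix ι ι F} {c : F} (hc : c ≠ 0) (h : FD (c • A)) : FD A := fun d hd =>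
  (h d hd).imp fun B hB => ⟨by simpa [hc] using hB.1.smul_left c⁻¹, hB.2⟩

theorem exists_pow_char [Finite F] (p : ℕ) [Fact p.Prime] [CharP F p] (c : F) : ∃ w, w ^ p = c :=
  (frobenius F p).injective.surjective_of_finite (.refl F) c

theorem exists_mem_ty (h0 : 0 < finrank F V) (g : End F V) : ∃ u, u ∈ tyE g :=
  Multiset.exists_mem_of_ne_zero fun e => by simp [finrank_dg g, e, dg] at h0

theorem fd_char [Finite F] (p : ℕ) [Fact p.Prime] [CharP F p] {A : Matrix ι ι F} {c : F}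
    (hc : c ≠ 0) (h : ∃ j ∈ dm (c • Matrix.toLin' A), j = 1 ∨ j = p) : FD A := by
  obtain ⟨j, h1, h2⟩ := h
  obtain ⟨u, h3, rfl⟩ := Multiset.mem_map.mp h1
  rw [← map_smul] at h3
  refine .smul hc fun d _ => ?_
  obtain ⟨w, rfl⟩ : ∃ w, w ^ u.natDegree = d := by
    rcases h2 with e | e <;> rw [e]
    exacts [⟨d, pow_one d⟩, exists_pow_char p d]
  exact exists_commute_det_pow h3 w

theorem el_iff [Finite F] [Nonempty ι] (hr : (r : F) ≠ 0 ∨ r = 2) :
    EL r H ↔ ∀ g, LinearMap.det g = 1 → PE r g → TI H g := by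
  refine ⟨EL.ti, el_of fun A h1 h2 => ?_⟩
  have h0 : 0 < finrank F (ι → F) := by simp [Fintype.card_pos]
  by_cases h : (r : F) = 0
  · obtain rfl := hr.resolve_left (not_not.mpr h)
    have : CharP F 2 := CharTwo.of_one_ne_zero_of_two_eq_zero one_ne_zero (by simpa using h)
    obtain ⟨c, h3, h4, -⟩ := pe_char 2 h0 (by simp [h1]) h2
    obtain ⟨u, hu⟩ := exists_mem_ty h0 (c • Matrix.toLin' A)
    have := (ty_unip 2 h4).1 _ (Multiset.mem_map_of_mem natDegree hu)
    exact fd_char 2 h3 ⟨_, Multiset.mem_map_of_mem natDegree hu, by omega⟩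
  · obtain ⟨z, hz⟩ := h2.1
    obtain ⟨u, hu⟩ := exists_mem_ty h0 (Matrix.toLin' A)
    exact fun c _ => exists_commute_det_of_irreducible hu ((prim_of_mem_tyE hu).irreducible_of_squarefree
      (separable_X_pow_sub_C z h (ne_zero_of_pow h0 (by simp [h1]) hz)).squarefree
      ((pow_eq_smul_iff _ r z).mp hz u hu)) c

theorem tyE_smul_congr {W : Type*} [AddCommGroup W] [Module F W] [FiniteDimensional F W]
    {g : End F V} {g' : End F W} (h : tyE g = tyE g') (c : F) : tyE (c • g) = tyE (c • g') := by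
  obtain ⟨e, he⟩ := (tyE_eq_iff g g').mp h
  exact tyE_congr e fun v => by simp [he]

theorem TI.smul (hH : scalars ι F ≤ H) (g : End F (ι → F)) (c : F) (hc : c ≠ 0)
    (h : TI H (c • g)) : TI H g := by
  obtain ⟨y, h1, h2⟩ := h
  let s : GL ι F := Units.map (Matrix.scalar ι : F →+* _).toMonoidHom (Units.mk0 c hc)⁻¹
  refine ⟨s * y, mul_mem (hH ⟨_, rfl⟩) h1, ?_⟩
  have : (s * y).1 = c⁻¹ • y.1 := by
    simp [s, Matrix.scalar_apply, ← Matrix.smul_one_eq_diagonal]
  rw [this, map_smul, tyE_smul_congr h2, inv_smul_smul₀ hc]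

theorem TI.smul' (hH : scalars ι F ≤ H) {g : End F (ι → F)} (h : TI H g) {c : F} (hc : c ≠ 0) :
    TI H (c • g) := TI.smul hH _ c⁻¹ (inv_ne_zero hc) (by rwa [inv_smul_smul₀ hc])

theorem pow_congr {W : Type*} [AddCommGroup W] [Module F W] [FiniteDimensional F W]
    {g : End F V} {g' : End F W} (h : tyE g = tyE g') {k : ℕ} {z : F} (hg : g' ^ k = z • 1) :
    g ^ k = z • 1 := by rwa [pow_eq_smul_iff, h, ← pow_eq_smul_iff]

/-! Indices. -/

theorem rel_dvd {G : Type*} [Group G] [Finite G] (H K : Subgroup G) [K.Normal] :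
    H.relIndex K ∣ H.index := by
  obtain ⟨t, ht⟩ := K.relIndex_dvd_index_of_normal H
  have h1 := Subgroup.relIndex_mul_index (inf_le_left (a := H) (b := K))
  have h2 := Subgroup.relIndex_mul_index (inf_le_right (a := H) (b := K))
  rw [Subgroup.inf_relIndex_left] at h1
  rw [Subgroup.inf_relIndex_right, ← h1, ht, mul_left_comm] at h2
  exact ⟨t, (Nat.eq_of_mul_eq_mul_left (Nat.pos_of_ne_zero Subgroup.index_ne_zero_of_finite)
    h2).symm⟩

theorem not_dvd_idx {G K : Type*} [Group G] [Group K] [Finite G] {H : Subgroup G} (φ : K →* G)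
    (h1 : Function.Injective φ) (h2 : ∀ k, φ k ∈ H) {s t : ℤ}
    (h : Nat.card G * t = Nat.card K * s) (hs : (s : ZMod r) ≠ 0) : ¬ r ∣ H.index := by
  rintro ⟨a, ha⟩
  have := Finite.of_injective φ h1
  obtain ⟨b, hb⟩ := Subgroup.card_dvd_of_injective (φ.codRestrict H h2)
    fun a b e => h1 (congrArg Subtype.val e)
  rw [← H.index_mul_card, ha, hb] at h
  have h3 : s = r * (a * b * t) := mul_left_cancel₀ (a := (Nat.card K : ℤ))
    (by exact_mod_cast Nat.card_pos.ne') (by rw [← h]; push_cast; ring)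
  simp [h3] at hs

instance normal_sl : (specialLinear ι F).Normal := MonoidHom.normal_ker _

theorem not_dvd_rel [Finite F] {K : Type*} [Group K] (φ : K →* GL ι F)
    (h1 : Function.Injective φ) (h2 : ∀ k, φ k ∈ H) {s t : ℤ}
    (h : Nat.card (GL ι F) * t = Nat.card K * s) (hs : (s : ZMod r) ≠ 0) :
    ¬ r ∣ H.relIndex (specialLinear ι F) := fun e =>
  not_dvd_idx φ h1 h2 h hs (e.trans (rel_dvd ..))

theorem card_GL_int [Finite F] (n : ℕ) : ∃ e, (Nat.card (GL (Fin n) F) : ℤ) =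
    (Nat.card F : ℤ) ^ e * ∏ i ∈ Finset.range n, ((Nat.card F : ℤ) ^ (i + 1) - 1) := by
  have := Fintype.ofFinite F
  rw [Matrix.card_GL_field, ← Nat.card_eq_fintype_card]
  induction n with
  | zero => exact ⟨0, by simp⟩
  | succ n ih =>
    obtain ⟨e, he⟩ := ih
    refine ⟨e + n, ?_⟩
    rw [gl_succ, Finset.prod_range_succ, Nat.cast_mul, he, Nat.cast_mul,
      Nat.cast_sub (Nat.one_le_pow _ _ Nat.card_pos)]
    push_cast; ring

theorem card_ne_zero [Finite F] [hr : Fact r.Prime] (h0 : (r : F) ≠ 0) :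
    ((Nat.card F : ℕ) : ZMod r) ≠ 0 := fun e =>
  not_dvd_card hr.out h0 ((ZMod.natCast_eq_zero_iff _ _).mp e)

theorem ord_le [Finite F] [hr : Fact r.Prime] (h0 : (r : F) ≠ 0) {n : ℕ} {H : Subgroup (GL (Fin n) F)}
    (h : r ∣ H.relIndex (specialLinear _ F)) : orderOf ((Nat.card F : ℕ) : ZMod r) ≤ n := by
  obtain ⟨e, he⟩ := card_GL_int (F := F) n
  by_contra hn
  refine not_dvd_rel (K := Unit) 1 (fun _ _ _ => rfl) (fun _ => one_mem H) (t := 1)
    (by rw [he]; simp; rfl) ?_ h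
  push_cast
  refine mul_ne_zero (pow_ne_zero _ (card_ne_zero h0)) (Finset.prod_ne_zero_iff.mpr fun i hi e => ?_)
  have := Nat.le_of_dvd i.succ_pos (orderOf_dvd_of_pow_eq_one (sub_eq_zero.mp e))
  have := Finset.mem_range.mp hi
  omega

/-! Diagonalisable maps. -/

/-- Linear elementary divisors. -/
noncomputable def lin (m : Multiset F) : Multiset F[X] := m.map fun a => X - C a

theorem exists_diag {m : Multiset F} (h : m.card = finrank F V) : ∃ y : End F V, tyE y = lin m :=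
  exists_tyE_eq (fun u hu => by
    obtain ⟨a, -, rfl⟩ := Multiset.mem_map.mp hu
    exact .of_irreducible (irreducible_X_sub_C a) (monic_X_sub_C a)) (by simp [lin, h])

section lin
variable {y : End F V} {m : Multiset F} (h : tyE y = lin m)
include h

theorem lin_card : m.card = finrank F V := by simp [finrank_dg y, h, dg, lin]

theorem lin_det : LinearMap.det y = m.prod := by
  rw [det_tyE, h, ← lin_card h, lin, Multiset.map_map]
  have := Multiset.prod_map_neg m
  simp only [Function.comp_apply, coeff_sub, coeff_X_zero, coeff_C_zero, zero_sub]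
  erw [this]; simp [← mul_assoc, ← mul_pow]

theorem lin_pow (k : ℕ) (z : F) : y ^ k = z • 1 ↔ ∀ a ∈ m, a ^ k = z := by
  simp [pow_eq_smul_iff, h, lin, dvd_iff_isRoot, sub_eq_zero]

theorem lin_smul (c : F) : tyE (c • y) = lin (m.map (c * ·)) := tyE_smul_lin h c

open Classical in
theorem lin_kd (a : F) : kdE y (X - C a) = m.count a := by
  rw [kdE_eq_sum, h, lin, Multiset.map_map]
  clear h
  induction m using Multiset.induction_on with
  | empty => simp
  | cons b m ih =>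
    rw [Multiset.map_cons, Multiset.sum_cons, ih, Multiset.count_cons, add_comm]
    simp [gd_X_sub_C, sub_eq_zero, eq_comm]

theorem lin_pe {a b : F} (ha : a ∈ m) (hb : b ∈ m) (hab : a ≠ b) (hr : ∀ a ∈ m, a ^ r = 1) :
    PE r y :=
  ⟨⟨1, (lin_pow h r 1).mpr hr⟩, fun c e => by
    have := (lin_pow h 1 c).mp (by simpa using e)
    exact hab (by simpa using (this a ha).trans (this b hb).symm)⟩

end lin

theorem lin_inj {m m' : Multiset F} (h : lin m = lin m') : m = m' :=
  Multiset.map_injective (fun a b e => by simpa using e) h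

theorem exists_lin [Finite F] [hr : Fact r.Prime] (hq : r ∣ Nat.card F - 1) {y : End F V}
    (h : y ^ r = 1) : ∃ m, tyE y = lin m := by
  have h0 : (r : F) ≠ 0 := natCast_ne_zero_of_dvd one_ne_zero (by simpa using hq)
  refine ⟨(tyE y).map fun u => -u.coeff 0, ?_⟩
  rw [lin, Multiset.map_map, Multiset.map_congr rfl (g := id), Multiset.map_id]
  intro u hu
  have h1 := irrD_of_mem h0 h hu
  have h2 : u.natDegree = 1 := by
    by_cases e : u = X - 1
    · rw [e, natDegree_X_sub_one]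
    · rw [IrrD.deg hr.out h1 e, (ord_eq_one_iff Nat.card_pos).mpr hq]
  simpa using (h1.prim.monic.eq_X_add_C h2).symm

theorem exists_root [Finite F] [hr : Fact r.Prime] (hq : r ∣ Nat.card F - 1) :
    ∃ ζ : F, IsPrimitiveRoot ζ r := by
  obtain ⟨ζ, h⟩ := exists_prime_orderOf_dvd_card' (G := Fˣ) r (card_units' (F := F) ▸ hq)
  exact ⟨ζ, IsPrimitiveRoot.coe_units_iff.mpr (h ▸ IsPrimitiveRoot.orderOf ζ)⟩

theorem root_pow_iff [Finite F] [hr : Fact r.Prime] {ζ : F} (h : IsPrimitiveRoot ζ r) {n : ℕ}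
    (hn : n ≠ 0) : (∃ c, c ^ n = ζ) ↔ padicValNat r n < padicValNat r (Nat.card F - 1) := by
  have h0 := h.ne_zero hr.out.ne_zero
  have h1 : Nat.card F - 1 ≠ 0 := card_units' (F := F) ▸ Nat.card_pos.ne'
  have h2 : (∃ c, c ^ n = ζ) ↔ ∃ c : Fˣ, c ^ n = Units.mk0 ζ h0 :=
    ⟨fun ⟨c, e⟩ => ⟨Units.mk0 c (by rintro rfl; simp [hn, h0.symm] at e), Units.ext e⟩,
      fun ⟨c, e⟩ => ⟨c, congrArg Units.val e⟩⟩
  rw [h2, exists_pow_eq_iff, card_units', Units.ext_iff, Units.val_pow_eq_pow_val, Units.val_mk0,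
    Units.val_one, h.pow_eq_one_iff_dvd]
  have h3 := Nat.gcd_dvd_left (Nat.card F - 1) n
  have h4 := (Nat.div_pos (Nat.le_of_dvd (Nat.pos_of_ne_zero h1) h3)
    (Nat.gcd_pos_of_pos_right _ (Nat.pos_of_ne_zero hn))).ne'
  rw [dvd_iff_padicValNat_ne_zero h4, padicValNat.div_of_dvd h3, ← Nat.factorization_def _ hr.out,
    ← Nat.factorization_def _ hr.out, ← Nat.factorization_def _ hr.out, Nat.factorization_gcd h1 hn,
    Finsupp.inf_apply]
  omega

theorem exists_ns [Finite F] [hr : Fact r.Prime] (hq : r ∣ Nat.card F - 1) (h0 : 0 < finrank F V)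
    (h : ¬ Cond r (finrank F V) (Nat.card F)) : ∃ (g : End F V) (z : F), LinearMap.det g = 1 ∧
      PE r g ∧ z ≠ 0 ∧ g ^ r = z • 1 ∧ ∀ w, w ^ r ≠ z := by
  obtain ⟨z, h5, h6, h7, h8⟩ := (nonsplit_iff hq h0.ne').mpr h
  obtain ⟨g, hg⟩ := exists_nonsplit hr.out h6 h7
  exact ⟨g, z, (ty_nonsplit hr.out hg h6).2.2.trans h8, pe_nonsplit h0 hg h6, h5, hg, h6⟩

theorem not_cond [Finite F] [hr : Fact r.Prime] (h0 : 0 < finrank F V) {g : End F V} {z : F}
    (hd : LinearMap.det g = 1) (hz : z ≠ 0) (hg : g ^ r = z • 1) (h : ∀ w, w ^ r ≠ z) :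
    ¬ Cond r (finrank F V) (Nat.card F) :=
  (nonsplit_iff (dvd_of_nonpow hz h) h0.ne').mp ⟨z, hz, h, (ty_nonsplit hr.out hg h).1,
    (ty_nonsplit hr.out hg h).2.2.symm.trans hd⟩

/-- Symmetric under a reflection. -/
def Sy (m : Multiset F) : Prop := ∃ b : F, b ≠ 0 ∧ m.map (fun a => b * a⁻¹) = m

theorem Sy.inv_mem {k : ℕ} {A : Multiset F} (h : Sy (Multiset.replicate k 1 + A)) (hk : A.card < k)
    {a : F} (ha : a ∈ A) : a⁻¹ ∈ Multiset.replicate k 1 + A := by
  classical
  obtain ⟨b, h0, h1⟩ := h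
  obtain rfl : b = 1 := by
    by_contra e
    have h2 := Multiset.count_map_eq_count' (fun a : F => b * a⁻¹) (Multiset.replicate k 1 + A)
      (fun _ _ e => by simpa [h0] using e) 1
    have := Multiset.count_le_card b A
    simp [h1, Multiset.count_replicate, Ne.symm e] at h2
    omega
  rw [← h1]; exact Multiset.mem_map.mpr ⟨a, by simp [ha], by simp⟩

theorem sy3 : ∀ a b c : ZMod 3, [a, b, c].sum = 0 →
    ∃ s, ([a, b, c].map (s - ·)).Perm [a, b, c] := by
  decide +kernel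

theorem sy5 : ∀ a b c d e : ZMod 5, [a, b, c, d, e].sum = 0 →
    ∃ s, ([a, b, c, d, e].map (s - ·)).Perm [a, b, c, d, e] := by
  decide +kernel

theorem sy_zmod {r : ℕ} (hr : r = 3 ∨ r = 5) (m : Multiset (ZMod r)) (h : m.card = r)
    (h0 : m.sum = 0) : ∃ s, m.map (s - ·) = m := by
  induction m using Quotient.inductionOn with | _ l => ?_
  rcases hr with rfl | rfl
  · match l, h, h0 with
    | [a, b, c], _, h0 => exact (sy3 a b c h0).imp fun s hs => Quotient.sound hs
  · match l, h, h0 with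
    | [a, b, c, d, e], _, h0 => exact (sy5 a b c d e h0).imp fun s hs => Quotient.sound hs

theorem sy_small {ζ : F} (hζ : IsPrimitiveRoot ζ r) (hr : r = 3 ∨ r = 5) {m : Multiset F}
    (h : m.card = r) (h1 : ∀ a ∈ m, a ^ r = 1) (h2 : m.prod = 1) : Sy m := by
  have : NeZero r := ⟨by omega⟩
  let χ := AddChar.zmodChar r hζ.pow_eq_one
  have h3 : ∀ a ∈ m, ∃ k, χ k = a := fun a ha => by
    obtain ⟨i, -, rfl⟩ := hζ.eq_pow_of_pow_eq_one (h1 a ha)
    exact ⟨i, AddChar.zmodChar_apply' ..⟩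
  choose! f hf using h3
  have h4 : (m.map f).map χ = m := by
    rw [Multiset.map_map]; exact (Multiset.map_congr rfl hf).trans (Multiset.map_id m)
  have h5 : ∀ s : Multiset (ZMod r), χ s.sum = (s.map χ).prod := fun s => by
    induction s using Multiset.induction_on with
    | empty => simp
    | cons a s ih => simp [AddChar.map_add_eq_mul, ih]
  obtain ⟨s, hs⟩ := sy_zmod hr (m.map f) (by simpa) (((AddChar.zmodChar_primitive_of_primitive_root
    r hζ).zmod_char_eq_one_iff r _).mp (by rw [h5, h4, h2]))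
  refine ⟨χ s, (χ.val_isUnit s).ne_zero, ?_⟩
  conv_rhs => rw [← h4, ← hs]
  rw [← h4, Multiset.map_map, h4, Multiset.map_map (f := (s - ·))]
  exact Multiset.map_congr rfl fun a _ => by simp [AddChar.map_sub_eq_div, div_eq_mul_inv]

theorem sym_main [Finite F] [hr : Fact r.Prime] (h2 : r ≠ 2) (hq : r ∣ Nat.card F - 1) {n : ℕ}
    (hn : finrank F V = n) (h3 : 3 ≤ n) (h6 : ¬ (n = 6 ∧ r = 3)) {P : End F V → Prop}
    (hs : ∀ g (c : F), c ≠ 0 → P (c • g) → P g)
    (H1 : ∀ g (z : F), z ≠ 0 → g ^ r = z • 1 → (∀ w, w ^ r ≠ z) → ¬ P g)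
    (H2 : ∀ g m, g ^ r = 1 → tyE g = lin m → P g → Sy m)
    (H3 : n = r → ∀ g m, g ^ r = 1 → tyE g = lin m → Sy m → P g) :
    (∀ g, LinearMap.det g = 1 → PE r g → P g) ↔
      (r = 3 ∨ r = 5) ∧ n = r ∧ padicValNat r (Nat.card F - 1) = 1 := by
  subst hn
  obtain ⟨ζ, hζ⟩ := exists_root hq
  have h1 : Nat.card F - 1 ≠ 0 := card_units' (F := F) ▸ Nat.card_pos.ne'
  refine ⟨fun H => ?_, fun ⟨h4, h5, h7⟩ g hd hg => ?_⟩
  · have e0 := hζ.ne_zero hr.out.ne_zero
    have e1 := hζ.ne_one hr.out.one_lt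
    have e2 : ζ⁻¹ ≠ ζ := fun e => h2 ((Nat.prime_dvd_prime_iff_eq hr.out Nat.prime_two).mp
      (hζ.dvd_of_pow_eq_one 2 (by rw [sq]; nth_rw 1 [← e]; exact inv_mul_cancel₀ e0)))
    have key : ∀ k (A : Multiset F) (c : F), k + A.card = finrank F V → A.card < k → ζ ∈ A →
        (∀ a ∈ A, a ^ r = 1) → c ^ finrank F V * A.prod = 1 → ζ⁻¹ ∈ A := fun k A c e3 e4 e5 e6 e7 => by
      obtain ⟨y, hy⟩ := exists_diag (V := V) (m := Multiset.replicate k 1 + A) (by simpa)
      have e8 : ∀ a ∈ Multiset.replicate k (1 : F) + A, a ^ r = 1 := fun a ha =>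
        (Multiset.mem_add.mp ha).elim (fun h => by simp [Multiset.eq_of_mem_replicate h]) (e6 a)
      have hc : c ≠ 0 := by rintro rfl; simp [show finrank F V ≠ 0 by omega] at e7
      have := (H2 y _ (by simpa using (lin_pow hy r 1).mpr e8) hy (hs y c hc (H _ (by
        simp [lin_det hy, e7]) ((lin_pe hy (a := ζ) (b := 1) (by simp [e5]) (by simp [Multiset.mem_replicate, show k ≠ 0 by omega]) e1
          e8).smul hc)))).inv_mem e4 e5
      exact (Multiset.mem_add.mp this).resolve_left fun h =>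
        e1 (inv_eq_one.mp (Multiset.eq_of_mem_replicate h))
    have e3 : Cond r (finrank F V) (Nat.card F) := by
      by_contra e
      obtain ⟨g, z, a1, a2, a3, a4, a5⟩ := exists_ns hq (by omega) e
      exact H1 g z a3 a4 a5 (H g a1 a2)
    have e4 : padicValNat r (finrank F V) = padicValNat r (Nat.card F - 1) :=
      le_antisymm e3.1 (not_lt.mp fun e => by
        obtain ⟨c, hc⟩ := (root_pow_iff hζ.inv (by omega)).mpr e
        exact e2 (Multiset.mem_singleton.mp (key (finrank F V - 1) {ζ} c (by simp; omega)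
          (by simp; omega) (by simp) (by simp [hζ.pow_eq_one]) (by simp [hc, e0]))))
    have e5 : r ∣ finrank F V := (dvd_iff_padicValNat_ne_zero (by omega)).mpr
      (e4 ▸ (dvd_iff_padicValNat_ne_zero h1).mp hq)
    have e6 : finrank F V < 7 := not_le.mp fun e => by
      have := key (finrank F V - 3) {ζ, ζ, ζ⁻¹ * ζ⁻¹} 1 (by simp; omega) (by simp; omega)
        (by simp) (by simp [mul_pow, hζ.pow_eq_one]) (by simp [e0])
      simp [e0, e1, e2] at this
    have e7 := Nat.le_of_dvd (by omega) e5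
    have e8 := hr.out
    have e9 : (r = 3 ∨ r = 5) ∧ finrank F V = r := by
      generalize finrank F V = n at *
      have e10 : r < 7 := by omega
      have e11 := e8.two_le
      have e12 : r ≠ 4 ∧ r ≠ 6 := by constructor <;> (rintro rfl; exact absurd e8 (by decide))
      obtain rfl | rfl : r = 3 ∨ r = 5 := by omega
      all_goals omega
    exact ⟨e9.1, e9.2, by rw [← e4, e9.2, padicValNat_self]⟩
  rcases pe_cases hr.out.ne_zero (by omega) (by simp [hd]) hg with ⟨c, e1, e2, -⟩ | ⟨z, e1, e2, e3⟩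
  · obtain ⟨m, hm⟩ := exists_lin hq e2
    refine hs g c e1 (H3 h5 _ m e2 hm (sy_small hζ h4 ((lin_card hm).trans h5)
      ((lin_pow hm r 1).mp (by simpa using e2)) ?_))
    have e3 : c ^ r ^ 2 = 1 := by
      have := congrArg LinearMap.det e2
      rwa [map_pow, LinearMap.det_smul, hd, mul_one, h5, map_one, ← pow_mul, ← sq] at this
    rw [← lin_det hm, LinearMap.det_smul, hd, mul_one, h5]
    obtain ⟨i, e4, e5⟩ := (Nat.dvd_prime_pow hr.out).mp (orderOf_dvd_of_pow_eq_one e3)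
    have e6 : r ^ i ∣ Nat.card F - 1 := by
      rw [← e5, ← card_units', ← Units.val_mk0 e1, orderOf_units]; exact orderOf_dvd_natCard _
    rw [padicValNat_dvd_iff_le h1, h7] at e6
    exact orderOf_dvd_iff_pow_eq_one.mp (e5 ▸ (pow_dvd_pow r e6).trans (pow_one r).dvd)
  · exact absurd ⟨by rw [h5, padicValNat_self, h7], fun e => absurd e h2⟩
      (not_cond (by omega) hd e1 e2 e3)

end Cfsg.Agent.H18.El
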