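import Mathlib
import Cfsg.Agent.H10.Elus15
import Cfsg.Agent.H26.F3c
import Cfsg.Agent.H11.Syl2O

/-! Elements normalising an extension field structure: generic lemmas and arithmetic. -/

set_option autoImplicit false

namespace Cfsg.Agent.H18.Fe
open Module Cfsg.Agent.H11 Cfsg.Agent.H10 Cfsg.Agent.H26 Cfsg.Agent.H26.MX

universe u

section arith

/-- `b` divides `a` up to a factor prime to `r`. -/
def Dv (r b a : ℕ) : Prop := ∃ N, ¬ r ∣ N ∧ b ∣ a * N

variable {r a b a' b' q : ℕ}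

theorem Dv.of_not (h : ¬ r ∣ b) (a : ℕ) : Dv r b a := ⟨b, h, Dvd.intro_left _ rfl⟩

theorem Dv.of_dvd (hr : r.Prime) (h : b ∣ a) : Dv r b a :=
  ⟨1, hr.one_lt.ne' ∘ Nat.dvd_one.mp, by simpa⟩

theorem Dv.mul (hr : r.Prime) (h : Dv r b a) (h' : Dv r b' a') : Dv r (b * b') (a * a') := by
  obtain ⟨N, h1, h2⟩ := h
  obtain ⟨N', h3, h4⟩ := h'
  refine ⟨N * N', fun e => (hr.dvd_mul.mp e).elim h1 h3, ?_⟩
  rw [mul_mul_mul_comm]; exact mul_dvd_mul h2 h4

theorem Dv.mul_not (hr : r.Prime) (h : Dv r b a) (h' : ¬ r ∣ b') : Dv r (b * b') a := by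
  simpa using h.mul hr (Dv.of_not h' 1)

theorem Dv.trans_dvd (h : Dv r b a) (h' : a ∣ a') : Dv r b a' := by
  obtain ⟨N, h1, h2⟩ := h
  exact ⟨N, h1, h2.trans (mul_dvd_mul_right h' N)⟩

theorem Dv.not (h : Dv r b a) (ha : a ≠ 0) : ¬ r * a ∣ b := fun e => by
  obtain ⟨N, h1, h2⟩ := h
  have := e.trans h2
  rw [mul_comm r] at this
  exact h1 (Nat.dvd_of_mul_dvd_mul_left (Nat.pos_of_ne_zero ha) this)

/-- The part of the symplectic order prime to `q`. -/
def PP (q n : ℕ) : ℕ := ∏ i ∈ Finset.range n, (q ^ (2 * (i + 1)) - 1)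

theorem PP_succ (q n : ℕ) : PP q (n + 1) = PP q n * (q ^ (2 * (n + 1)) - 1) :=
  Finset.prod_range_succ _ _

theorem spO_eq (q n : ℕ) : spO q n = q ^ (n ^ 2) * PP q n := by
  rw [spO, PP, Fin.prod_univ_eq_prod_range fun i => q ^ (2 * (i + 1)) - 1]

theorem dv_PP_add (hr : r.Prime) {n : ℕ} (j : ℕ) (h : Dv r (PP q n) a)
    (H : ∀ i < j, ¬ r ∣ q ^ (2 * (n + i + 1)) - 1) : Dv r (PP q (n + j)) a := by
  induction j with
  | zero => exact h
  | succ j ih =>
    rw [← add_assoc, PP_succ]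
    exact (ih fun i hi => H i (by omega)).mul_not hr (H j (by omega))

theorem dv_PP (hr : r.Prime) {k : ℕ} (hk : 0 < k) (H : ∀ j, r ∣ q ^ (2 * j) - 1 → k ∣ j) (m : ℕ) :
    Dv r (PP q (k * m)) (PP (q ^ k) m) := by
  obtain ⟨k, rfl⟩ : ∃ k', k = k' + 1 := ⟨k - 1, by omega⟩
  induction m with
  | zero => exact Dv.of_dvd hr (by simp [PP])
  | succ m ih =>
    rw [mul_add, mul_one, ← add_assoc, PP_succ, PP_succ]
    refine (dv_PP_add hr k ih fun i hi e => ?_).mul hr (Dv.of_dvd hr (dvd_of_eq ?_))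
    · have := (Nat.dvd_add_right (Dvd.intro m rfl)).mp (add_assoc ((k + 1) * m) i 1 ▸ H _ e)
      have := Nat.le_of_dvd (by omega) this
      omega
    · rw [← pow_mul]; congr 2; ring

theorem dvd_sub_iff [Fact r.Prime] (hq : 0 < q) (j : ℕ) :
    r ∣ q ^ j - 1 ↔ orderOf (q : ZMod r) ∣ j := by
  rw [orderOf_dvd_iff_pow_eq_one, ← ZMod.natCast_eq_zero_iff, Nat.cast_sub (Nat.one_le_pow _ _ hq),
    sub_eq_zero]
  simp

theorem dvd_add_imp [hr : Fact r.Prime] (h2 : r ≠ 2) {j : ℕ} (h : r ∣ q ^ j + 1) :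
    orderOf (q : ZMod r) ∣ 2 * j ∧ ¬ orderOf (q : ZMod r) ∣ j := by
  have h1 : (q : ZMod r) ^ j = -1 := by
    have := (ZMod.natCast_eq_zero_iff _ r).mpr h
    push_cast at this
    linear_combination this
  rw [orderOf_dvd_iff_pow_eq_one, orderOf_dvd_iff_pow_eq_one, mul_comm, pow_mul, h1]
  refine ⟨by simp, fun e => h2 ?_⟩
  have : ((2 : ℕ) : ZMod r) = 0 := by push_cast; linear_combination -e
  exact ((Nat.prime_dvd_prime_iff_eq hr.out Nat.prime_two).mp
    ((ZMod.natCast_eq_zero_iff _ r).mp this))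

theorem dv_uOrd [hr : Fact r.Prime] (h2 : r ≠ 2) (hq : 0 < q) (hi : orderOf (q : ZMod r) % 4 = 2)
    (n : ℕ) : Dv r (PP q n) (uOrd q n) := by
  induction n with
  | zero => exact Dv.of_dvd hr.out (by simp [PP])
  | succ n ih =>
    rw [PP_succ, uOrd_succ, mul_comm _ (uOrd q n), mul_comm 2, pow_mul,
      show (q ^ (n + 1)) ^ 2 - 1 = _ from Nat.sq_sub_sq _ 1]
    refine ih.mul hr.out ?_
    split_ifs with e
    · refine ((Dv.of_dvd hr.out dvd_rfl).mul_not hr.out fun h => ?_).trans_dvd (Dvd.intro_left _ rfl)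
      obtain ⟨c, hc⟩ := (dvd_sub_iff hq _).mp h
      obtain ⟨k, rfl⟩ := e
      obtain ⟨s, hs⟩ : ∃ s, orderOf (q : ZMod r) = 2 * s := ⟨orderOf (q : ZMod r) / 2, by omega⟩
      rw [hs, mul_assoc] at hc
      omega
    · rw [mul_comm (_ + 1)]
      refine ((Dv.of_dvd hr.out dvd_rfl).mul_not hr.out fun h => ?_).trans_dvd (Dvd.intro_left _ rfl)
      obtain ⟨h3, h4⟩ := dvd_add_imp h2 h
      obtain ⟨k, hk⟩ := (Nat.not_even_iff_odd.mp e).add_one
      obtain ⟨s, hs⟩ : ∃ s, orderOf (q : ZMod r) = 2 * (2 * s + 1) :=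
        ⟨orderOf (q : ZMod r) / 4, by omega⟩
      rw [hs, hk, ← two_mul] at h3 h4
      refine h4 (mul_dvd_mul_left 2 ?_)
      exact (Nat.coprime_two_right.mpr (odd_two_mul_add_one s)).dvd_of_dvd_mul_left
        (Nat.dvd_of_mul_dvd_mul_left two_pos h3)

theorem relIndex_dvd_index {G : Type*} [Group G] [Finite G] (H N : Subgroup G) [N.Normal] :
    H.relIndex N ∣ H.index := by
  have h1 := Subgroup.relIndex_mul_index (inf_le_left : H ⊓ N ≤ H)
  have h2 := Subgroup.relIndex_mul_index (inf_le_right : H ⊓ N ≤ N)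
  rw [Subgroup.inf_relIndex_left] at h1
  rw [Subgroup.inf_relIndex_right] at h2
  obtain ⟨c, hc⟩ := Subgroup.relIndex_dvd_index_of_normal N H
  have h0 : N.relIndex H ≠ 0 := Subgroup.index_ne_zero_of_finite
  refine ⟨c, Nat.eq_of_mul_eq_mul_left (Nat.pos_of_ne_zero h0) ?_⟩
  rw [h1, ← h2, hc]; ring

theorem mul_card_dvd {G A : Type*} [Group G] [Group A] [Finite G] (f : A →* G)
    (hf : Function.Injective f) {H : Subgroup G} (h : ∀ a, f a ∈ H) (hr : r ∣ H.index) :
    r * Nat.card A ∣ Nat.card G := by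
  rw [← H.index_mul_card]
  exact mul_dvd_mul hr (Subgroup.card_dvd_of_injective (f.codRestrict H h)
    fun a b e => hf (congrArg Subtype.val e))

end arith

variable {F : Type u} [Field F] {E : Type*} [Field E] [Algebra F E] {V : Type*} [AddCommGroup V]
  [Module F V] [Module E V] [IsScalarTower F E V]

theorem nrm_cases [Finite E] [FiniteDimensional F V] {y : V ≃ₗ[F] V} (h : NrmE E y) :
    (∃ y' : V ≃ₗ[E] V, rs F y' = y) ∨ (finrank F V ≤ 2 * finrank F (movS y) ∧
      ∀ r, y ^ r = 1 → ¬ r.Coprime (finrank F E)) := by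
  by_cases hl : ∀ (k : E) v, y (k • v) = k • y v
  · exact .inl ⟨{ y.toAddEquiv with map_smul' := hl }, rfl⟩
  push Not at hl
  obtain ⟨k, v, hk⟩ := hl
  choose s hs using h
  have hv : y v ≠ 0 := fun e => hk (by rw [hs, e, smul_zero, smul_zero])
  have inj : ∀ a b : E, a • y v = b • y v → a = b := fun a b e => smul_left_injective E hv e
  let σ : E →ₐ[F] E :=
    { toFun := s
      map_one' := inj _ _ (by rw [← hs]; simp)
      map_mul' := fun a b => inj _ _ (by rw [← hs, mul_smul, hs, hs, mul_smul])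
      map_zero' := inj _ _ (by rw [← hs]; simp)
      map_add' := fun a b => inj _ _ (by rw [← hs, add_smul, map_add, hs, hs, add_smul])
      commutes' := fun c => inj _ _ (by rw [← hs, algebraMap_smul, algebraMap_smul, map_smul]) }
  have h1 : s k ≠ k := fun e => hk (by rw [hs, e])
  have h0 : k ≠ 0 := by rintro rfl; exact h1 (map_zero σ)
  refine .inr ⟨?_, fun r hy hc => ?_⟩
  · let L : V →ₗ[F] V := DistribSMul.toLinearMap F V k
    have hL : Function.Injective L := MulAction.injective₀ h0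
    have hd : Disjoint (H11.fixS y) ((H11.fixS y).map L) := by
      refine Submodule.disjoint_def.mpr ?_
      rintro _ hx ⟨w, hw, rfl⟩
      have h2 : y (k • w) = k • w := H11.mem_fixS.mp hx
      rw [hs, H11.mem_fixS.mp hw, ← sub_eq_zero, ← sub_smul, smul_eq_zero, sub_eq_zero] at h2
      rw [h2.resolve_left h1, map_zero]
    have h3 := finrank_sup_of_disjoint hd
    have h4 := Submodule.finrank_le (H11.fixS y ⊔ (H11.fixS y).map L)
    rw [← (Submodule.equivMapOfInjective L hL _).finrank_eq] at h3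
    have := finrank_movS_add y
    omega
  · let τ : E ≃ₐ[F] E := AlgEquiv.ofBijective σ (Finite.injective_iff_bijective.mp σ.injective)
    have h2 : ∀ n (a : E) w, (y ^ n) (a • w) = (τ ^ n) a • (y ^ n) w := fun n => by
      induction n with
      | zero => simp
      | succ n ih =>
        intro a w
        rw [pow_succ', pow_succ', LinearEquiv.mul_apply, LinearEquiv.mul_apply, ih, hs]; rfl
    have h3 : τ ^ r = 1 := AlgEquiv.ext fun a => inj _ _ (by simpa [hy] using (h2 r a (y v)).symm)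
    have h4 : τ ^ finrank F E = 1 := by rw [← IsGalois.card_aut_eq_finrank]; exact pow_card_eq_one'
    have h5 := pow_gcd_eq_one.mpr ⟨h3, h4⟩
    rw [hc, pow_one] at h5
    exact h1 (AlgEquiv.congr_fun h5 k)

theorem finrank_movS_rs [FiniteDimensional F E] [FiniteDimensional F V] (y : V ≃ₗ[E] V) :
    finrank F (movS (rs F y)) = finrank F E * finrank E (movS y) := by
  have : movS (rs F y) = (movS y).restrictScalars F := Submodule.ext fun x => by
    simp [mem_movS]
  rw [this, Module.finrank_mul_finrank]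
  exact (((movS y).restrictScalarsEquiv F E V).restrictScalars F).finrank_eq

theorem rs_injective : Function.Injective (rs F : (V ≃ₗ[E] V) →* (V ≃ₗ[F] V)) :=
  fun _ _ e => LinearEquiv.ext fun v => LinearEquiv.congr_fun e v

theorem nrm_of_comm (hr : finrank F E = 2) {J : E} (hJ : ∀ c, algebraMap F E c ≠ J)
    {y : V ≃ₗ[F] V} {ε : F} (h : ∀ v, y (J • v) = ε • J • y v) : NrmE E y := fun k => by
  have : FiniteDimensional F E := Module.finite_of_finrank_pos (by omega)
  have li : LinearIndependent F ![(1 : E), J] := by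
    rw [LinearIndependent.pair_iff' one_ne_zero]
    exact fun c e => hJ c (by rw [← e, Algebra.algebraMap_eq_smul_one])
  have h1 := li.span_eq_top_of_card_eq_finrank (by simp [hr])
  obtain ⟨a, b, rfl⟩ := Submodule.mem_span_pair.mp
    (show k ∈ Submodule.span F {(1 : E), J} by
      rw [show ({1, J} : Set E) = Set.range ![(1 : E), J] by simp [Set.pair_comm], h1]; trivial)
  exact ⟨a • 1 + b • ε • J, fun v => by simp [add_smul, smul_assoc, h]⟩

section lift
variable {σ : E →+* E} {B : V →ₗ[F] V →ₗ[F] F} {b : V →ₛₗ[σ] V →ₗ[E] E} {δ : E}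

theorem isom_lift [Finite E] (hδ : δ ≠ 0) (h : ∀ x y, Algebra.trace F E (δ * b x y) = B x y)
    {y : V ≃ₗ[E] V} (hy : ∀ u v, B (y u) (y v) = B u v) (u v : V) : b (y u) (y v) = b u v := by
  refine mul_left_cancel₀ hδ (H26.trace_ext (F := F) fun k => ?_)
  have := hy u (k • v)
  rw [← h, ← h, map_smul, map_smul, map_smul, smul_eq_mul, smul_eq_mul] at this
  rwa [mul_left_comm, mul_left_comm k]

/-- Isometries over the extension field as isometries over the ground field. -/
def resI {Q : V → F} {R : V → E} (h : ∀ x y, Algebra.trace F E (δ * b x y) = B x y)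
    (hQ : ∀ g ∈ Isom b R, ∀ x, Q (g x) = Q x) : Isom b R →* Isom (σ := RingHom.id F) B Q :=
  ((rs F).comp (Isom b R).subtype).codRestrict _ fun g =>
    ⟨fun x y => by simp [← h, g.2.1], hQ g.1 g.2⟩

theorem card_dvd_of_index [Finite F] [FiniteDimensional F V] {Q : V → F} {R : V → E}
    (h : ∀ x y, Algebra.trace F E (δ * b x y) = B x y)
    (hQ : ∀ g ∈ Isom b R, ∀ x, Q (g x) = Q x) {H : Subgroup (Isom (σ := RingHom.id F) B Q)}
    (hH : ∀ y, y ∈ H ↔ NrmE E y.1) {r : ℕ} (hr : r ∣ H.index) :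
    r * Nat.card (Isom b R) ∣ Nat.card (Isom (σ := RingHom.id F) B Q) :=
  have := finite_isom (σ := RingHom.id F) B Q
  mul_card_dvd (resI h hQ) (fun _ _ e => Subtype.ext (rs_injective (F := F) (congrArg Subtype.val e :)))
    (fun a => (hH _).mpr (nrmE_rs a.1)) hr

end lift

theorem finrank_movS_conj {σ : F →+* F} {B : V →ₛₗ[σ] V →ₗ[F] F} {Q : V → F} (y g : Isom B Q) :
    finrank F (movS (g⁻¹ * y * g).1) = finrank F (movS y.1) := by
  rw [← map_movS_conj (g := y) (k := g⁻¹) (g' := g⁻¹ * y * g) (by simp),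
    LinearEquiv.finrank_map_eq]

theorem conj_pow_eq_one {G : Type*} [Group G] {y : G} {r : ℕ} (h : y ^ r = 1) (g : G) :
    (g⁻¹ * y * g) ^ r = 1 := by
  simpa [h] using conj_pow (a := g⁻¹) (b := y) (i := r)

end Cfsg.Agent.H18.Fe
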