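import Mathlib
import Cfsg.Agent.H18.Fe1

/-! Adapted symplectic bases and square roots of scalars in symplectic spaces. -/

set_option autoImplicit false

namespace Cfsg.Agent.H18.Fe
open Module Cfsg.Agent.H11 Cfsg.Agent.H10 Sum

universe u

variable {F : Type u} [Field F] {V : Type*} [AddCommGroup V] [Module F V]
  {B : LinearMap.BilinForm F V}

/-- A symplectic system of vectors. -/
structure SS (B : V →ₗ[F] V →ₗ[F] F) {m : ℕ} (b : Fin m ⊕ Fin m → V) : Prop where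
  ee : ∀ i j, B (b (inl i)) (b (inl j)) = 0
  ff : ∀ i j, B (b (inr i)) (b (inr j)) = 0
  ef : ∀ i j, B (b (inl i)) (b (inr j)) = if i = j then 1 else 0
  fe : ∀ i j, B (b (inr i)) (b (inl j)) = if i = j then -1 else 0

theorem SS.li {m : ℕ} {b : Fin m ⊕ Fin m → V} (h : SS B b) : LinearIndependent F b := by
  refine Fintype.linearIndependent_iff.mpr fun g hg i => ?_
  have h1 : ∀ w, ∑ j, g j * B (b j) w = 0 := fun w => by
    simpa [map_sum] using congrArg (fun x => B x w) hg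
  rcases i with i | i
  · simpa [h.ef, h.ff] using h1 (b (inr i))
  · simpa [h.ee, h.fe] using h1 (b (inl i))

theorem SS.isom {m : ℕ} {b b' : Basis (Fin m ⊕ Fin m) F V} (h : SS B b) (h' : SS B b') (x y : V) :
    B (b.equiv b' (Equiv.refl _) x) (b.equiv b' (Equiv.refl _) y) = B x y := by
  have : B.compl₁₂ (b.equiv b' (Equiv.refl _)).toLinearMap (b.equiv b' (Equiv.refl _)).toLinearMap
      = B := LinearMap.ext_basis b b fun i j => by
    rcases i with i | i <;> rcases j with j | j <;>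
      simp [h.ee, h.ff, h.ef, h.fe, h'.ee, h'.ff, h'.ef, h'.fe]
  exact LinearMap.congr_fun₂ this x y

theorem exists_ss_aux [FiniteDimensional F V] (hA : B.IsAlt) {T : End F V} {η : F}
    (hT : ∀ u v, B (T u) v = η * B u (T v)) {R : V → V → Prop}
    (hR : ∀ W : Submodule F V, NondegOn B W → (∀ x ∈ W, T x ∈ W) → W ≠ ⊥ → ∃ e ∈ W, ∃ f ∈ W,
      B e f = 1 ∧ R e f ∧ (∃ a b : F, T e = a • e + b • f) ∧ ∃ a b : F, T f = a • e + b • f)
    (n : ℕ) : ∀ W : Submodule F V, finrank F W ≤ n → NondegOn B W → (∀ x ∈ W, T x ∈ W) →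
      ∃ (m : ℕ) (b : Fin m ⊕ Fin m → V), (∀ i, b i ∈ W) ∧ SS B b ∧
        (∀ i, R (b (inl i)) (b (inr i))) ∧ W ≤ Submodule.span F (Set.range b) := by
  have h0 : ∃ (m : ℕ) (b : Fin m ⊕ Fin m → V), (∀ i, b i ∈ (⊥ : Submodule F V)) ∧ SS B b ∧
      (∀ i, R (b (inl i)) (b (inr i))) ∧ ⊥ ≤ Submodule.span F (Set.range b) :=
    ⟨0, fun _ => 0, by simp, ⟨by simp, by simp, by simp, by simp⟩, by simp, bot_le⟩
  induction n with
  | zero =>
    intro W hW _ _
    rwa [Submodule.finrank_eq_zero.mp (Nat.le_zero.mp hW)]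
  | succ n ih =>
    intro W hW h1 h2
    by_cases h3 : W = ⊥
    · rwa [h3]
    obtain ⟨e, he, f, hf, h4, h5, ⟨a1, b1, h6⟩, a2, b2, h7⟩ := hR W h1 h2 h3
    have h8 : B f e = -1 := by rw [← hA.neg_eq, h4]
    let W' := W ⊓ (LinearMap.ker (B.flip e) ⊓ LinearMap.ker (B.flip f))
    have mem : ∀ x, x ∈ W' ↔ x ∈ W ∧ B x e = 0 ∧ B x f = 0 := fun x => Iff.rfl
    have pr : ∀ x ∈ W, x - (B x f • e - B x e • f) ∈ W' := fun x hx => (mem _).mpr
      ⟨W.sub_mem hx (W.sub_mem (W.smul_mem _ he) (W.smul_mem _ hf)),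
        by simp [hA.self_eq_zero, h8], by simp [hA.self_eq_zero, h4]⟩
    have hlt : W' < W := lt_of_le_of_ne inf_le_left fun q => by
      have := ((mem e).mp (q ▸ he)).2.2
      simp [h4] at this
    obtain ⟨m, b, c1, c2, c3, c4⟩ := ih W' (by have := Submodule.finrank_lt_finrank_of_lt hlt; omega)
      (fun x hx H => h1 x hx.1 fun y hy => by
        simpa [((mem x).mp hx).2.1, ((mem x).mp hx).2.2] using H _ (pr y hy))
      fun x hx => (mem _).mpr ⟨h2 x hx.1, by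
        simp [hT, h6, ((mem x).mp hx).2.1, ((mem x).mp hx).2.2], by
        simp [hT, h7, ((mem x).mp hx).2.1, ((mem x).mp hx).2.2]⟩
    have d1 : ∀ i, B (b i) e = 0 := fun i => ((mem _).mp (c1 i)).2.1
    have d2 : ∀ i, B (b i) f = 0 := fun i => ((mem _).mp (c1 i)).2.2
    have d3 : ∀ i, B e (b i) = 0 := fun i => by rw [← hA.neg_eq, d1, neg_zero]
    have d4 : ∀ i, B f (b i) = 0 := fun i => by rw [← hA.neg_eq, d2, neg_zero]
    refine ⟨m + 1, Sum.elim (Fin.cons e fun i => b (inl i)) (Fin.cons f fun i => b (inr i)),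
      ?_, ⟨fun i j => ?_, fun i j => ?_, fun i j => ?_, fun i j => ?_⟩, fun i => ?_, fun x hx => ?_⟩
    · rintro (i | i) <;> refine Fin.cases ?_ (fun i => ?_) i
      exacts [he, (c1 _).1, hf, (c1 _).1]
    iterate 4
      refine Fin.cases ?_ (fun i => ?_) i <;> refine Fin.cases ?_ (fun j => ?_) j <;>
        simp [hA.self_eq_zero, d1, d2, d3, d4, h4, h8, c2.ee, c2.ff, c2.ef, c2.fe,
          (Fin.succ_ne_zero _).symm]
    · refine Fin.cases ?_ (fun i => ?_) i
      exacts [h5, c3 i]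
    · rw [← sub_add_cancel x (B x f • e - B x e • f)]
      refine Submodule.add_mem _ (Submodule.span_mono ?_ (c4 (pr x hx))) (Submodule.sub_mem _
        (Submodule.smul_mem _ _ (Submodule.subset_span ⟨inl 0, rfl⟩))
        (Submodule.smul_mem _ _ (Submodule.subset_span ⟨inr 0, rfl⟩)))
      rintro _ ⟨i | i, rfl⟩
      exacts [⟨inl i.succ, rfl⟩, ⟨inr i.succ, rfl⟩]

variable [FiniteDimensional F V] (hA : B.IsAlt) (hB : B.SeparatingLeft) {m : ℕ}
  (hm : finrank F V = 2 * m)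
include hA hB hm

theorem exists_ss {T : End F V} {η : F}
    (hT : ∀ u v, B (T u) v = η * B u (T v)) {R : V → V → Prop}
    (hR : ∀ W : Submodule F V, NondegOn B W → (∀ x ∈ W, T x ∈ W) → W ≠ ⊥ → ∃ e ∈ W, ∃ f ∈ W,
      B e f = 1 ∧ R e f ∧ (∃ a b : F, T e = a • e + b • f) ∧ ∃ a b : F, T f = a • e + b • f) :
    ∃ b : Basis (Fin m ⊕ Fin m) F V, SS B b ∧ ∀ i, R (b (inl i)) (b (inr i)) := by
  obtain ⟨k, b, -, h1, h2, h3⟩ := exists_ss_aux hA hT hR _ ⊤ le_rfl (nondegOn_top hB) (by simp)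
  have := finrank_eq_card_basis (Basis.mk h1.li h3)
  obtain rfl : k = m := by simp at this; omega
  exact ⟨Basis.mk h1.li h3, by simpa using h1, by simpa using h2⟩

omit hA hB hm [FiniteDimensional F V] in
theorem solve_sq [Finite F] (h2 : (2 : F) ≠ 0) {a b : F} (ha : a ≠ 0) (hb : b ≠ 0) (c : F) :
    ∃ x y : F, a * x ^ 2 + b * y ^ 2 = c := by
  have := Fintype.ofFinite F
  open Polynomial in
  obtain ⟨x, y, h⟩ := FiniteField.exists_root_sum_quadratic (R := F) (f := C a * X ^ 2)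
    (g := C b * X ^ 2 - C c) (by rw [degree_C_mul_X_pow _ ha]; rfl) (by
      rw [degree_sub_C (by rw [degree_C_mul_X_pow _ hb]; norm_num), degree_C_mul_X_pow _ hb]; rfl)
    (FiniteField.odd_card_of_char_ne_two fun e => h2 (by
      have := ringChar.Nat.cast_ringChar (R := F)
      rwa [e] at this))
  exact ⟨x, y, by simp at h; linear_combination h⟩

theorem exists_ss_skew [Finite F] (h2 : (2 : F) ≠ 0) {T : End F V}
    (hT : ∀ u v, B (T u) v = -1 * B u (T v)) {c : F} (hc : c ≠ 0) (h : ∀ v, T (T v) = c • v) :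
    ∃ b : Basis (Fin m ⊕ Fin m) F V, SS B b ∧ ∀ i, b (inr i) = T (b (inl i)) := by
  refine exists_ss hA hB hm hT (R := fun e f => f = T e) fun W h1 h3 h4 => ?_
  obtain ⟨v, hv, h5⟩ : ∃ v ∈ W, B v (T v) ≠ 0 := by
    by_contra H
    push Not at H
    refine h4 (eq_bot_iff.mpr fun x hx => h1 x hx fun y hy => ?_)
    have h6 := H (x + T y) (W.add_mem hx (h3 y hy))
    have h7 : B (T y) (T x) = c * B x y := by
      rw [hT, h, map_smul, ← hA.neg_eq x y]; simp
    simp only [map_add, LinearMap.add_apply, H x hx, H _ (h3 y hy), h7, h, map_smul,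
      smul_eq_mul] at h6
    have h8 : B (T y) y = 0 := by rw [hT, H y hy, mul_zero]
    rw [h8] at h6
    exact mul_left_cancel₀ (mul_ne_zero h2 hc) (by linear_combination h6)
  obtain ⟨x, y, h6⟩ := solve_sq h2 h5 (neg_ne_zero.mpr (mul_ne_zero hc h5)) 1
  refine ⟨x • v + y • T v, W.add_mem (W.smul_mem _ hv) (W.smul_mem _ (h3 v hv)), _,
    h3 _ (W.add_mem (W.smul_mem _ hv) (W.smul_mem _ (h3 v hv))), ?_, rfl, ⟨0, 1, by simp⟩,
    c, 0, by rw [h]; simp⟩
  have h7 : B (T v) v = -B v (T v) := (hA.neg_eq _ _).symm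
  simp only [map_add, map_smul, LinearMap.add_apply, LinearMap.smul_apply, h, smul_eq_mul,
    hA.self_eq_zero, h7]
  linear_combination h6

theorem exists_ss_invol (h2 : (2 : F) ≠ 0) {T : End F V}
    (hT : ∀ u v, B (T u) v = 1 * B u (T v)) (h : ∀ v, T (T v) = v) :
    ∃ b : Basis (Fin m ⊕ Fin m) F V, SS B b ∧ ∀ i, ∃ ε : F, ε * ε = 1 ∧
      T (b (inl i)) = ε • b (inl i) ∧ T (b (inr i)) = ε • b (inr i) := by
  refine exists_ss hA hB hm hT (R := fun e f => ∃ ε : F, ε * ε = 1 ∧ T e = ε • e ∧ T f = ε • f)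
    fun W h1 h3 h4 => ?_
  obtain ⟨e, he, h5, ε, h6, h7⟩ : ∃ e ∈ W, e ≠ 0 ∧ ∃ ε : F, ε * ε = 1 ∧ T e = ε • e := by
    obtain ⟨w, hw, h5⟩ := Submodule.exists_mem_ne_zero_of_ne_bot h4
    by_cases h6 : T w = w
    · exact ⟨w, hw, h5, 1, by simp, by simpa⟩
    · exact ⟨T w - w, W.sub_mem (h3 w hw) hw, sub_ne_zero.mpr h6, -1, by simp, by simp [h]⟩
  obtain ⟨f, hf, h8⟩ : ∃ f ∈ W, B e f ≠ 0 := by
    by_contra H
    push Not at H
    exact h5 (h1 e he H)
  have h9 : B e (T f) = ε * B e f := by rw [← one_mul (B e _), ← hT, h7]; simp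
  have h10 : T ((2 * B e f)⁻¹ • (f + ε • T f)) = ε • (2 * B e f)⁻¹ • (f + ε • T f) := by
    rw [smul_comm, map_smul, map_add, map_smul, h, smul_add ε, smul_smul ε, h6, one_smul, add_comm]
  refine ⟨e, he, (2 * B e f)⁻¹ • (f + ε • T f), W.smul_mem _ (W.add_mem hf (W.smul_mem _ (h3 f hf))),
    ?_, ⟨ε, h6, h7, h10⟩, ⟨ε, 0, by simp [h7]⟩, 0, ε, by rw [h10]; simp⟩
  simp only [map_smul, map_add, h9, smul_eq_mul, ← mul_assoc, h6]
  field_simp
  ring

omit hA hB hm [FiniteDimensional F V] in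
theorem exists_skew {b : Basis (Fin m ⊕ Fin m) F V} (hb : SS B b) (α β γ : F) : ∃ T : End F V,
    (∀ u v, B (T u) v = -1 * B u (T v)) ∧ (∀ v, T (T v) = (α * α + β * γ) • v) ∧
    (∀ i, T (b (inl i)) = α • b (inl i) + β • b (inr i)) ∧
    ∀ i, T (b (inr i)) = γ • b (inl i) - α • b (inr i) := by
  let T : End F V := b.constr F (Sum.elim (fun i => α • b (inl i) + β • b (inr i))
    fun i => γ • b (inl i) - α • b (inr i))
  have h1 : ∀ i, T (b (inl i)) = α • b (inl i) + β • b (inr i) := fun i => b.constr_basis F _ _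
  have h2 : ∀ i, T (b (inr i)) = γ • b (inl i) - α • b (inr i) := fun i => b.constr_basis F _ _
  refine ⟨T, fun u v => ?_, fun v => ?_, h1, h2⟩
  · have : B ∘ₗ T = (-1 : F) • B.compl₂ T := LinearMap.ext_basis b b fun i j => by
      rcases i with i | i <;> rcases j with j | j <;>
        simp [h1, h2, hb.ee, hb.ff, hb.ef, hb.fe] <;> split_ifs <;> simp
    exact LinearMap.congr_fun₂ this u v
  · have : T ∘ₗ T = (α * α + β * γ) • LinearMap.id := b.ext fun i => by
      rcases i with i | i <;> simp only [LinearMap.comp_apply, h1, h2, map_add, map_sub, map_smul,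
        LinearMap.smul_apply, LinearMap.id_apply] <;> module
    exact LinearMap.congr_fun this v

theorem skew_conj [Finite F] (h2 : (2 : F) ≠ 0) {T T' : End F V}
    (hT : ∀ u v, B (T u) v = -1 * B u (T v)) (hT' : ∀ u v, B (T' u) v = -1 * B u (T' v))
    {c : F} (hc : c ≠ 0) (h : ∀ v, T (T v) = c • v) (h' : ∀ v, T' (T' v) = c • v) :
    ∃ g : Isom (σ := RingHom.id F) B fun _ => 0, ∀ v, g.1 (T v) = T' (g.1 v) := by
  obtain ⟨b, h3, h4⟩ := exists_ss_skew hA hB hm h2 hT hc h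
  obtain ⟨b', h5, h6⟩ := exists_ss_skew hA hB hm h2 hT' hc h'
  refine ⟨⟨b.equiv b' (Equiv.refl _), h3.isom h5, fun _ => rfl⟩, fun v => ?_⟩
  have : (b.equiv b' (Equiv.refl _)).toLinearMap ∘ₗ T =
      T' ∘ₗ (b.equiv b' (Equiv.refl _)).toLinearMap := b.ext fun i => by
    rcases i with i | i
    · simp [← h4, ← h6]
    · have h7 : T (b (inr i)) = c • b (inl i) := by rw [h4, h]
      have h8 : T' (b' (inr i)) = c • b' (inl i) := by rw [h6, h']
      simp [h7, h8]
  exact LinearMap.congr_fun this v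

omit hA hB hm [FiniteDimensional F V] in
theorem isom_adj {Q : V → F} (y : Isom (σ := RingHom.id F) B Q) {z : F}
    (h : ∀ v, y.1 (y.1 v) = z • v) (u v : V) :
    B (y.1.toLinearMap u) v = z * B u (y.1.toLinearMap v) := by
  rw [← y.2.1]; simp [h]

theorem exists_ss_two [Finite F] (h2 : (2 : F) ≠ 0) (y : Isom (σ := RingHom.id F) B fun _ => 0)
    {z : F} (h : ∀ v, (y ^ 2).1 v = z • v) (h0 : 0 < m) :
    ∃ b : Basis (Fin m ⊕ Fin m) F V, SS B b ∧ ((∀ i, y.1 (b (inl i)) = b (inr i) ∧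
      y.1 (b (inr i)) = -b (inl i)) ∨ ∀ i, ∃ ε : F, ε * ε = 1 ∧
      y.1 (b (inl i)) = ε • b (inl i) ∧ y.1 (b (inr i)) = ε • b (inr i)) := by
  have : Nontrivial V := Module.nontrivial_of_finrank_pos (R := F) (by omega)
  have h3 : ∀ v, y.1 (y.1 v) = z • v := fun v => by rw [← h, sq]; rfl
  rcases mul_self_eq_one_iff.mp (norm_of_scalar hB h) with rfl | rfl
  · obtain ⟨b, h4, h5⟩ := exists_ss_invol hA hB hm h2 (isom_adj y h3) (by simpa using h3)
    exact ⟨b, h4, .inr h5⟩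
  · obtain ⟨b, h4, h5⟩ := exists_ss_skew hA hB hm h2 (isom_adj y h3) (by simp) h3
    exact ⟨b, h4, .inl fun i => ⟨(h5 i).symm, by rw [h5]; simpa using h3 _⟩⟩

theorem exists_skew_comm [Finite F] (h2 : (2 : F) ≠ 0) (y : Isom (σ := RingHom.id F) B fun _ => 0)
    {z : F} (h : ∀ v, (y ^ 2).1 v = z • v) (h0 : 0 < m) (c : F) :
    ∃ (T : End F V) (ε : F), (∀ u v, B (T u) v = -1 * B u (T v)) ∧ (∀ v, T (T v) = c • v) ∧
      ∀ v, y.1 (T v) = ε • T (y.1 v) := by
  obtain ⟨b, h3, h4 | h4⟩ := exists_ss_two hA hB hm h2 y h h0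
  · obtain ⟨α, β, h5⟩ := solve_sq h2 one_ne_zero one_ne_zero c
    obtain ⟨T, t1, t2, t3, t4⟩ := exists_skew h3 α β β
    refine ⟨T, -1, t1, fun v => by rw [t2, ← h5]; congr 1; ring, fun v => ?_⟩
    have : y.1.toLinearMap ∘ₗ T = (-1 : F) • T ∘ₗ y.1.toLinearMap := b.ext fun i => by
      rcases i with i | i <;> simp only [LinearMap.comp_apply, t3, t4, map_add, map_sub, map_smul,
        LinearMap.smul_apply, LinearEquiv.coe_coe, (h4 _).1, (h4 _).2, map_neg] <;> module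
    exact LinearMap.congr_fun this v
  · obtain ⟨T, t1, t2, t3, t4⟩ := exists_skew h3 0 1 c
    refine ⟨T, 1, t1, fun v => by rw [t2]; simp, fun v => ?_⟩
    have : y.1.toLinearMap ∘ₗ T = (1 : F) • T ∘ₗ y.1.toLinearMap := b.ext fun i => by
      rcases i with i | i <;> obtain ⟨ε, -, h5, h6⟩ := h4 i <;>
        simp only [LinearMap.comp_apply, t3, t4, map_add, map_sub, map_smul,
        LinearMap.smul_apply, LinearEquiv.coe_coe, h5, h6] <;> module
    exact LinearMap.congr_fun this v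

end Cfsg.Agent.H18.Fe
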