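import Mathlib
import Cfsg.Agent.H18.Fe2

/-! Elements of prime order of symplectic groups and extension field subgroups. -/

set_option autoImplicit false

namespace Cfsg.Agent.H18.Fe
open Module Cfsg.Agent.H11 Cfsg.Agent.H10 Cfsg.Agent.H26 Cfsg.Agent.H26.MX Sum

universe u

variable {F : Type u} [Field F] {V : Type*} [AddCommGroup V] [Module F V] [FiniteDimensional F V]
  {r : ℕ}

section gen
variable {ε κ : F} {τ : F →+ F} {B : V →ₗ[F] V →ₗ[F] F} {Q : V → F}

theorem exists_min [Finite F] {d D t : ℕ} (O : OD (RingHom.id F) r d D t)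
    (h : IsForm (σ := RingHom.id F) ε κ τ B Q) (hB : B.SeparatingLeft) (P : Par (RingHom.id F) ε κ τ)
    (H : D < finrank F V → OD.Adm (σ := RingHom.id F) ε κ τ B Q r (1 * D))
    (hr : r ∣ Nat.card (Isom (σ := RingHom.id F) B Q)) :
    ∃ y : Isom (σ := RingHom.id F) B Q, y ^ r = 1 ∧ finrank F (movS y.1) = D := by
  by_cases hD : D < finrank F V
  · simpa using O.exists_elt' h hB P (H hD)
  have := Fact.mk O.prime
  have := finite_isom (σ := RingHom.id F) B Q
  obtain ⟨y, hy⟩ := exists_prime_orderOf_dvd_card' r hr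
  have h1 : y ^ r = 1 := hy ▸ pow_orderOf_eq_one y
  obtain ⟨k, hk⟩ := O.exists_finrank_movS h hB h1
  have h2 : k ≠ 0 := by
    rintro rfl
    have : y = 1 := Subtype.ext (finrank_movS_eq_zero.mp (by simpa using hk))
    rw [this, orderOf_one] at hy
    exact O.prime.one_lt.ne hy
  have h3 := Submodule.finrank_le (movS y.1)
  have h4 := Nat.mul_le_mul_right D (Nat.one_le_iff_ne_zero.mpr h2)
  exact ⟨y, h1, by omega⟩

theorem elu_apply (hB : B.SeparatingLeft) {G : Subgroup (Isom (σ := RingHom.id F) B Q)}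
    {Φ : Isom (σ := RingHom.id F) B Q → Prop} (hE : EluP G r Φ) {y : Isom (σ := RingHom.id F) B Q}
    (hy : y ∈ G) (h1 : y ^ r = 1) (h2 : 0 < finrank F (movS y.1))
    (h3 : Odd r ∨ finrank F (movS y.1) < finrank F V) : Φ y := by
  refine hE y hy ⟨1, by simp [h1]⟩ fun z hz => ?_
  have h4 : z ≠ 1 := by
    rintro rfl
    rw [finrank_movS_eq_zero.mpr (LinearEquiv.ext (by simpa using hz))] at h2
    omega
  have : Nontrivial V := Module.nontrivial_of_finrank_pos (R := F)
    (h2.trans_le (Submodule.finrank_le _))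
  rcases h3 with ⟨k, rfl⟩ | h3
  · have h5 : z * z = 1 := norm_of_scalar hB hz
    obtain ⟨v, hv⟩ := exists_ne (0 : V)
    have := isom_pow_of_scalar hz (2 * k + 1) v
    rw [h1, pow_succ, pow_mul, sq, h5, one_pow, one_mul] at this
    exact h4 (smul_left_injective F hv (this.symm.trans (one_smul F v).symm))
  · have : movS y.1 = ⊤ := eq_top_iff.mpr fun v _ => mem_movS.mpr ⟨(z - 1)⁻¹ • v, by
      rw [hz, smul_smul, ← sub_smul, ← sub_one_mul, mul_inv_cancel₀ (sub_ne_zero.mpr h4), one_smul]⟩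
    rw [this, finrank_top] at h3
    omega

variable {E : Type*} [Field E] [Algebra F E] [Module E V] [IsScalarTower F E V]

theorem elu_key [Finite E] (hB : B.SeparatingLeft) {G H : Subgroup (Isom (σ := RingHom.id F) B Q)}
    (hH : ∀ y, y ∈ H ↔ NrmE E y.1) (hE : EluP G r fun y => ∃ g ∈ G, g⁻¹ * y * g ∈ H)
    {y : Isom (σ := RingHom.id F) B Q} (hy : y ∈ G) (h1 : y ^ r = 1) {c : ℕ}
    (hc : finrank F (movS y.1) = c) (h2 : 0 < c) (h3 : Odd r ∨ c < finrank F V) :
    (∃ y' : V ≃ₗ[E] V, y' ^ r = 1 ∧ (∀ u v, B (y' u) (y' v) = B u v) ∧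
      c = finrank F E * finrank E (movS y') ∧ ∃ g : Isom (σ := RingHom.id F) B Q,
        rs F y' = (g⁻¹ * y * g).1) ∨ (finrank F V ≤ 2 * c ∧ ¬ r.Coprime (finrank F E)) := by
  subst hc
  have := finite_of_algebra F E
  obtain ⟨g, -, hg⟩ := elu_apply hB hE hy h1 h2 h3
  have h4 : (g⁻¹ * y * g).1 ^ r = 1 := congrArg Subtype.val (conj_pow_eq_one h1 g)
  rw [← finrank_movS_conj y g]
  rcases nrm_cases ((hH _).mp hg) with ⟨y', e⟩ | ⟨a, b⟩
  · refine .inl ⟨y', rs_injective (F := F) (by rw [map_pow, e, h4, map_one]), fun u v => ?_,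
      by rw [← e, finrank_movS_rs], g, e⟩
    have := (g⁻¹ * y * g).2.1 u v
    rwa [← e] at this
  · exact .inr ⟨a, b r h4⟩

theorem elu_of_comm (hr : finrank F E = 2) {J : E} (hJ : ∀ c, algebraMap F E c ≠ J)
    {H : Subgroup (Isom (σ := RingHom.id F) B Q)} (hH : ∀ y, y ∈ H ↔ NrmE E y.1)
    {y g : Isom (σ := RingHom.id F) B Q} {T : End F V} {η : F} (h1 : ∀ v, y.1 (T v) = η • T (y.1 v))
    (h2 : ∀ v, g.1 (J • v) = T (g.1 v)) : g⁻¹ * y * g ∈ H := by
  refine (hH _).mpr (nrm_of_comm hr hJ (ε := η) fun v => g.1.injective ?_)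
  have h3 : ∀ w, g.1 ((g⁻¹ * y * g).1 w) = y.1 (g.1 w) := fun w => by simp
  rw [h3, h2, h1, map_smul, h2, h3]

theorem qconj_of_qd [Finite E] {σ : E →+* E} (hr : finrank F E = 2) (h : Qd F σ) :
    QConj σ (Nat.card F) := by
  have := finite_of_algebra F E
  have := Fintype.ofFinite E
  have := Fintype.ofFinite F
  have hE : Fintype.card E = Nat.card F ^ 2 := by
    rw [Module.card_eq_pow_finrank (K := F), hr, Nat.card_eq_fintype_card]
  have h1 := qConj_conjQ hE
  have h2 := qd_of hr h1.ne_id fun c => by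
    rw [conjQ_apply, ← map_pow, Nat.card_eq_fintype_card, FiniteField.pow_card]
  exact ⟨h1.card, h1.two_le, fun x => add_left_cancel ((h.tr x).symm.trans (h2.tr x))⟩

theorem not_dvd_card [Finite F] {p : ℕ} [hp : Fact p.Prime] [CharP F p] (hr : r.Prime) (h : r ≠ p)
    (n : ℕ) : ¬ r ∣ Nat.card F ^ n := fun e => by
  have := Fintype.ofFinite F
  obtain ⟨k, -, hk⟩ := FiniteField.card F p
  rw [Nat.card_eq_fintype_card, hk, ← pow_mul] at e
  exact h ((Nat.prime_dvd_prime_iff_eq hr hp.out).mp (hr.dvd_of_dvd_pow e))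

theorem exists_anti [Finite E] {σ : E →+* E} (h2 : (2 : F) ≠ 0) (h : Qd F σ) :
    ∃ (J : E) (c : F), J ≠ 0 ∧ σ J = -J ∧ (∀ c, algebraMap F E c ≠ J) ∧ c ≠ 0 ∧
      algebraMap F E c = J * J := by
  obtain ⟨k, hk⟩ := DFunLike.ne_iff.1 h.ne
  have h0 : k - σ k ≠ 0 := sub_ne_zero.2 (Ne.symm hk)
  have h1 : σ (k - σ k) = -(k - σ k) := by simp [h.invol]
  generalize k - σ k = J at h0 h1
  obtain ⟨c, hc⟩ := h.fixed (a := J * J) (by simp [h1])
  refine ⟨J, c, h0, h1, fun a e => h0 ?_, fun e => h0 (by simpa [e] using hc.symm), hc⟩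
  have h3 : (2 : E) ≠ 0 := by
    rw [← map_ofNat (algebraMap F E)]; exact (_root_.map_ne_zero _).2 h2
  have h4 := h.alg a
  rw [e, h1] at h4
  exact mul_left_cancel₀ h3 (by linear_combination -h4)

end gen

variable {B : LinearMap.BilinForm F V} (hA : B.IsAlt) (hB : B.SeparatingLeft)
include hA hB

theorem exists_transv [Nontrivial V] (p : ℕ) [CharP F p] :
    ∃ y : Isom (σ := RingHom.id F) B fun _ => 0, y ^ p = 1 ∧ finrank F (movS y.1) = 1 := by
  obtain ⟨v, hv⟩ := exists_ne (0 : V)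
  let N : End F V := (B.flip v).smulRight v
  have hN : ∀ x, N x = B x v • v := fun x => rfl
  let y : V ≃ₗ[F] V := LinearEquiv.ofLinearMap (1 + N) (1 - N)
    (LinearMap.ext fun x => by simp [hN, hA.self_eq_zero])
    (LinearMap.ext fun x => by simp [hN, hA.self_eq_zero])
  have hy : ∀ x, y x = x + B x v • v := fun x => rfl
  have h1 : ∀ (n : ℕ) x, (y ^ n) x = x + ((n : F) * B x v) • v := fun n => by
    induction n with
    | zero => simp
    | succ n ih =>
      intro x
      rw [pow_succ', LinearEquiv.mul_apply, ih, hy]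
      simp [hA.self_eq_zero, add_mul, add_smul, add_assoc]
  refine ⟨⟨y, fun a b => ?_, fun _ => rfl⟩, Subtype.ext (LinearEquiv.ext fun x => by
    simpa using h1 p x), ?_⟩
  · simp only [hy, map_add, map_smul, LinearMap.add_apply, LinearMap.smul_apply, smul_eq_mul,
      hA.self_eq_zero, ← hA.neg_eq b v]
    ring
  · obtain ⟨x, hx⟩ : ∃ x, B x v ≠ 0 := by
      by_contra H
      push Not at H
      exact hv (hB v fun x => by rw [← hA.neg_eq, H, neg_zero])
    suffices movS y = F ∙ v by rw [← finrank_span_singleton (K := F) hv, ← this]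
    refine le_antisymm ?_ ((Submodule.span_singleton_le_iff_mem _ _).mpr
      (mem_movS.mpr ⟨(B x v)⁻¹ • x, by simp [hy, hx]⟩))
    intro w hw
    obtain ⟨a, rfl⟩ := mem_movS.mp hw
    exact Submodule.mem_span_singleton.mpr ⟨B a v, by simp [hy]⟩

theorem exists_min_alt [Finite F] {p : ℕ} [Fact p.Prime] [CharP F p] (hr : r.Prime) (h2 : r ≠ 2)
    (hp : r ≠ p) (h : r ∣ Nat.card (Isom (σ := RingHom.id F) B fun _ => 0)) {i : ℕ}
    (hi : i = orderOf ((Nat.card F : ℕ) : ZMod r)) :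
    0 < i ∧ (if Even i then i else 2 * i) < r ∧ ∃ y : Isom (σ := RingHom.id F) B fun _ => 0,
      y ^ r = 1 ∧ finrank F (movS y.1) = if Even i then i else 2 * i := by
  have O := od_id (F := F) hr h2 hp rfl hi rfl
  refine ⟨O.pos.1, ?_, exists_min O (isForm_alt hA) hB par_alt (fun e => adm_alt hA hB (by omega)) h⟩
  have h3 := O.mul_eq
  have h4 := O.pos.2.1
  generalize (r - 1) / i = t at h3 h4
  have h5 := hr.two_le
  split_ifs with e
  · have := Nat.mul_le_mul_right i h4; omega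
  · have h6 : Even (t * i) := h3 ▸ hr.even_sub_one h2
    obtain ⟨s, rfl⟩ := (Nat.even_mul.mp h6).resolve_right e
    have := Nat.mul_le_mul_right i (show 2 ≤ s + s by omega)
    omega

variable {E : Type*} [Field E] [Algebra F E] [Module E V] [IsScalarTower F E V] [Finite E]
  {p : ℕ} [hp : Fact p.Prime] [hc0 : CharP F p] {d : ℕ} (hm : finrank F V = 2 * d) (hd : 2 ≤ d)
  {H : Subgroup (Isom (σ := RingHom.id F) B fun _ => 0)} (hH : ∀ y, y ∈ H ↔ NrmE E y.1)
  [hr : Fact r.Prime]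
include hm hd hH

theorem not_elu_char (hk : 2 ≤ finrank F E) :
    ¬ EluP ⊤ p fun y => ∃ g ∈ (⊤ : Subgroup _), g⁻¹ * y * g ∈ H := fun hE => by
  have : Nontrivial V := Module.nontrivial_of_finrank_pos (R := F) (by omega)
  obtain ⟨y, h1, h2⟩ := exists_transv hA hB p
  rcases elu_key hB hH hE trivial h1 h2 one_pos (.inr (by omega)) with ⟨y', -, -, h3, -⟩ | ⟨h3, -⟩
  · have := Nat.eq_one_of_mul_eq_one_right h3.symm
    omega
  · omega

include hp hc0 in
theorem gu_main (h2 : (2 : F) ≠ 0) (hk : finrank F E = 2)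
    (ha : ∀ k : E, ∃ k' : E, ∀ u v, B (k • u) v = B u (k' • v))
    (hb : ¬ ∀ (k : E) u v, B (k • u) v = B u (k • v)) (hΩ : r ∣ H.relIndex ⊤) :
    (EluP ⊤ r fun y => ∃ g ∈ (⊤ : Subgroup _), g⁻¹ * y * g ∈ H) ↔ r = 2 := by
  have := finite_of_algebra F E
  have : Nontrivial V := Module.nontrivial_of_finrank_pos (R := F) (by omega)
  obtain ⟨σ, h3, h4⟩ := exists_adj_hom (clAlt hA hB) ha
  have hq := qd_of hk (fun h => hb (by simpa [h] using h3)) h4
  obtain ⟨J, c, j0, j1, j2, j3, j4⟩ := exists_anti h2 hq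
  constructor
  · intro hE
    by_contra e
    by_cases ep : r = p
    · subst ep
      exact not_elu_char hA hB hm hd hH hk.ge hE
    rw [Subgroup.relIndex_top_right] at hΩ
    have : Module.Finite E V := Module.Finite.of_restrictScalars_finite F E V
    have : CharP E p := charP_of_injective_algebraMap (algebraMap F E).injective p
    obtain ⟨b, h5⟩ := exists_lift h3
    have h6 : ∀ x y, Algebra.trace F E (J * (J⁻¹ • b) x y) = B x y := by simp [j0, h5]
    have hh : IsHerm (J⁻¹ • b) := ⟨hq.ne, hq.invol, fun x y => by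
      simp [lift_symm h5 hq.tr_sigma hq.invol (isForm_alt hA).symm x y, j1]⟩
    have hs : (J⁻¹ • b).SeparatingLeft := fun x hx => hB x fun y => by rw [← h6, hx]; simp
    have h7 := card_dvd_of_index h6 (R := fun x => (J⁻¹ • b) x x) (fun _ _ _ => rfl) hH hΩ
    obtain ⟨i0, -, y, y1, y2⟩ := exists_min_alt hA hB hr.out e ep ((Dvd.intro _ rfl).trans h7) rfl
    have hc := qconj_of_qd hk hq
    have hn : finrank E V = d := by
      have := Module.finrank_mul_finrank F E V
      rw [hk, hm] at this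
      omega
    rw [IsHerm.card_uisom hc hh hs hn, card_isom_spO hB hA hm, spO_eq, mul_comm _ (PP _ _)] at h7
    have h8 : orderOf ((Nat.card F : ℕ) : ZMod r) % 4 ≠ 2 := fun a =>
      ((dv_uOrd e Nat.card_pos a d).mul_not hr.out (not_dvd_card hr.out ep _)).not
        (by rw [← IsHerm.card_uisom hc hh hs hn]; have := finite_isom (J⁻¹ • b) fun x => (J⁻¹ • b) x x
            exact Nat.card_pos.ne') h7
    rcases elu_key hB hH hE trivial y1 y2 (by split_ifs <;> omega)
      (.inl (hr.out.odd_of_ne_two e)) with ⟨y', a1, a2, a3, -⟩ | ⟨-, a⟩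
    · obtain ⟨O, -⟩ := od_herm hc hr.out e ep rfl rfl rfl
      obtain ⟨k, a4⟩ := O.exists_finrank_movS hh.form hs
        (y := ⟨y', mem_uisom.mpr (isom_lift j0 h6 a2)⟩) (Subtype.ext a1)
      rw [hk, a4, if_neg h8] at a3
      generalize orderOf ((Nat.card F : ℕ) : ZMod r) = i at a3 i0 h8
      simp only [Nat.even_iff] at a3
      rcases k with _ | k <;> split_ifs at a3 <;> first | omega | nlinarith
    · exact a (hk ▸ (Nat.coprime_primes hr.out Nat.prime_two).mpr e)
  · rintro rfl y - ⟨z, hz⟩ -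
    obtain ⟨T, η, t1, t2, t3⟩ := exists_skew_comm hA hB hm h2 y hz (by omega) c
    obtain ⟨g, hg⟩ := skew_conj hA hB hm h2 (T := DistribSMul.toLinearMap F V J)
      (fun u v => by simp [h3, j1]) t1 j3 (fun v => by simp [smul_smul, ← j4]) t2
    exact ⟨g, trivial, elu_of_comm hk j2 hH t3 hg⟩

end Cfsg.Agent.H18.Fe
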