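import Mathlib
import Cfsg.Agent.H18.Fe3

/-! Symplectic groups over extension fields inside symplectic groups: elements of prime order. -/

set_option autoImplicit false

namespace Cfsg.Agent.H18.Fe
open Module Cfsg.Agent.H11 Cfsg.Agent.H10 Cfsg.Agent.H26 Cfsg.Agent.H26.MX Sum

universe u

variable {F : Type u} [Field F] {E : Type*} [Field E] [Algebra F E] {r : ℕ}

theorem mem_comap_iff {ι : Type} [Fintype ι] [DecidableEq ι] (φ : E →ₐ[F] Matrix ι ι F)
    {B : (ι → F) →ₗ[F] (ι → F) →ₗ[F] F} {Q : (ι → F) → F} (y : Isom (σ := RingHom.id F) B Q) :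
    y ∈ (Geo.subalgebraNormalizer φ.range).comap (isoGL B Q) ↔ NrmE (V := EV φ) E y.1 := by
  have : gE φ (isoGL B Q y) = y.1 := LinearEquiv.ext fun v => isoGL_apply y v
  rw [← this]
  exact ⟨nrmE_of_mem_normalizer, mem_normalizer_of_nrmE⟩

variable {V : Type*} [AddCommGroup V] [Module F V] [FiniteDimensional F V]
  {B : LinearMap.BilinForm F V} (hA : B.IsAlt) (hB : B.SeparatingLeft)
include hA hB

theorem exists_ss_sa (hm : finrank F V = 2 * 2) {T : End F V} (hT : ∀ u v, B (T u) v = B u (T v))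
    (h0 : ∀ v, B (T v) v = 0) {c : F} (hc : ∀ (a : F) v, T v = a • v → v = 0)
    (h : ∀ v, T (T v) = c • v) : ∃ b : Basis (Fin 2 ⊕ Fin 2) F V, SS B b ∧
      T (b (inl 0)) = b (inl 1) ∧ T (b (inr 1)) = b (inr 0) := by
  have : Nontrivial V := Module.nontrivial_of_finrank_pos (R := F) (by omega)
  obtain ⟨e, he⟩ := exists_ne (0 : V)
  obtain ⟨f, h1, h2⟩ : ∃ f, B e f = 0 ∧ B (T e) f = 1 := by
    obtain ⟨f, h1, h2⟩ : ∃ f, B e f = 0 ∧ B (T e) f ≠ 0 := by
      by_contra H
      push Not at H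
      obtain ⟨w, hw⟩ : ∃ w, B e w ≠ 0 := by
        by_contra H'
        push Not at H'
        exact he (hB e H')
      refine he (hc (B (T e) w / B e w) e (sub_eq_zero.mp (hB _ fun x => ?_)))
      have := H (x - (B e x / B e w) • w) (by simp [hw])
      simp only [map_sub, map_smul, smul_eq_mul, LinearMap.sub_apply, LinearMap.smul_apply] at this ⊢
      rw [← this]; ring
    exact ⟨(B (T e) f)⁻¹ • f, by simp [h1], by simp [h2]⟩
  have h3 : B e (T f) = 1 := by rw [← hT, h2]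
  have h4 : B (T e) (T f) = 0 := by rw [← hT, h]; simp [h1]
  have h5 : SS B (Sum.elim ![e, T e] ![T f, f]) := by
    constructor <;> intro i j <;> fin_cases i <;> fin_cases j <;>
      simp [hA.self_eq_zero, h0, h1, h2, h3, h4, ← hA.neg_eq (T e) e, ← hA.neg_eq (T f) f,
        ← hA.neg_eq e (T f), ← hA.neg_eq e f, ← hA.neg_eq (T e) (T f), ← hA.neg_eq (T e) f]
  exact ⟨basisOfLinearIndependentOfCardEqFinrank h5.li (by simp [hm]), by simpa using h5,
    by simp, by simp⟩

theorem sa_conj (hm : finrank F V = 2 * 2) {T T' : End F V} (hT : ∀ u v, B (T u) v = B u (T v))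
    (h0 : ∀ v, B (T v) v = 0) (hT' : ∀ u v, B (T' u) v = B u (T' v))
    (h0' : ∀ v, B (T' v) v = 0) {c : F} (hc : ∀ a, a * a ≠ c)
    (h : ∀ v, T (T v) = c • v) (h' : ∀ v, T' (T' v) = c • v) :
    ∃ g : Isom (σ := RingHom.id F) B fun _ => 0, ∀ v, g.1 (T v) = T' (g.1 v) := by
  have key : ∀ T : End F V, (∀ v, T (T v) = c • v) → ∀ (a : F) v, T v = a • v → v = 0 :=
    fun T h a v e => by
      have := h v
      rw [e, map_smul, e, smul_smul, ← sub_eq_zero, ← sub_smul, smul_eq_zero, sub_eq_zero] at this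
      exact this.resolve_left (hc a)
  obtain ⟨b, h3, h4, h5⟩ := exists_ss_sa hA hB hm hT h0 (key T h) h
  obtain ⟨b', h6, h7, h8⟩ := exists_ss_sa hA hB hm hT' h0' (key T' h') h'
  refine ⟨⟨b.equiv b' (Equiv.refl _), h3.isom h6, fun _ => rfl⟩, fun v => ?_⟩
  have a1 : T (b (inl 1)) = c • b (inl 0) := by rw [← h4, h]
  have a2 : T (b (inr 0)) = c • b (inr 1) := by rw [← h5, h]
  have a3 : T' (b' (inl 1)) = c • b' (inl 0) := by rw [← h7, h']
  have a4 : T' (b' (inr 0)) = c • b' (inr 1) := by rw [← h8, h']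
  have : (b.equiv b' (Equiv.refl _)).toLinearMap ∘ₗ T =
      T' ∘ₗ (b.equiv b' (Equiv.refl _)).toLinearMap := b.ext fun i => by
    rcases i with i | i <;> fin_cases i <;> simp [h4, h5, h7, h8, a1, a2, a3, a4]
  exact LinearMap.congr_fun this v

omit hB [FiniteDimensional F V] in
theorem exists_sa (h2 : (2 : F) ≠ 0) {b : Basis (Fin 2 ⊕ Fin 2) F V} (hb : SS B b) (α β γ : F) :
    ∃ T : End F V, (∀ u v, B (T u) v = B u (T v)) ∧ (∀ v, B (T v) v = 0) ∧
    (∀ v, T (T v) = (α * α + β * γ) • v) ∧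
    T (b (inl 0)) = α • b (inl 0) + β • b (inl 1) ∧ T (b (inl 1)) = γ • b (inl 0) - α • b (inl 1) ∧
    T (b (inr 0)) = α • b (inr 0) + γ • b (inr 1) ∧
    T (b (inr 1)) = β • b (inr 0) - α • b (inr 1) := by
  let T : End F V := b.constr F (Sum.elim
    ![α • b (inl 0) + β • b (inl 1), γ • b (inl 0) - α • b (inl 1)]
    ![α • b (inr 0) + γ • b (inr 1), β • b (inr 0) - α • b (inr 1)])
  have h3 : T (b (inl 0)) = α • b (inl 0) + β • b (inl 1) := b.constr_basis F _ _
  have h4 : T (b (inl 1)) = γ • b (inl 0) - α • b (inl 1) := b.constr_basis F _ _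
  have h5 : T (b (inr 0)) = α • b (inr 0) + γ • b (inr 1) := b.constr_basis F _ _
  have h6 : T (b (inr 1)) = β • b (inr 0) - α • b (inr 1) := b.constr_basis F _ _
  have h1 : ∀ u v, B (T u) v = B u (T v) := fun u v => by
    have : B ∘ₗ T = B.compl₂ T := LinearMap.ext_basis b b fun i j => by
      rcases i with i | i <;> rcases j with j | j <;> fin_cases i <;> fin_cases j <;>
        simp [h3, h4, h5, h6, hb.ee, hb.ff, hb.ef, hb.fe]
    exact LinearMap.congr_fun₂ this u v
  refine ⟨T, h1, fun v => mul_left_cancel₀ h2 ?_, fun v => ?_, h3, h4, h5, h6⟩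
  · have := hA.neg_eq (T v) v
    rw [← h1] at this
    linear_combination -this
  · have : T ∘ₗ T = (α * α + β * γ) • LinearMap.id := b.ext fun i => by
      rcases i with i | i <;> fin_cases i <;>
        simp only [LinearMap.comp_apply, Fin.zero_eta, Fin.mk_one, h3, h4, h5, h6, map_add, map_sub,
          map_smul, LinearMap.smul_apply, LinearMap.id_apply] <;> module
    exact LinearMap.congr_fun this v

theorem exists_sa_comm [Finite F] (hm : finrank F V = 2 * 2) (h2 : (2 : F) ≠ 0)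
    (y : Isom (σ := RingHom.id F) B fun _ => 0) {z : F} (h : ∀ v, (y ^ 2).1 v = z • v) (c : F) :
    ∃ (T : End F V) (ε : F), (∀ u v, B (T u) v = B u (T v)) ∧ (∀ v, B (T v) v = 0) ∧
      (∀ v, T (T v) = c • v) ∧ ∀ v, y.1 (T v) = ε • T (y.1 v) := by
  obtain ⟨b, h3, h4 | h4⟩ := exists_ss_two hA hB hm h2 y h two_pos
  · obtain ⟨α, β, h5⟩ := solve_sq h2 one_ne_zero one_ne_zero c
    obtain ⟨T, t0, t1, t2, t3, t4, t5, t6⟩ := exists_sa hA h2 h3 α β β
    refine ⟨T, 1, t0, t1, fun v => by rw [t2, ← h5]; congr 1; ring, fun v => ?_⟩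
    have : y.1.toLinearMap ∘ₗ T = (1 : F) • T ∘ₗ y.1.toLinearMap := b.ext fun i => by
      rcases i with i | i <;> fin_cases i <;>
        simp only [LinearMap.comp_apply, Fin.zero_eta, Fin.mk_one, t3, t4, t5, t6, map_add, map_sub,
          map_smul, LinearMap.smul_apply, LinearEquiv.coe_coe, (h4 _).1, (h4 _).2, map_neg] <;> module
    exact LinearMap.congr_fun this v
  · obtain ⟨T, t0, t1, t2, t3, t4, t5, t6⟩ := exists_sa hA h2 h3 0 1 c
    obtain ⟨ε, a1, a2, a3⟩ := h4 0
    obtain ⟨η, a4, a5, a6⟩ := h4 1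
    refine ⟨T, ε * η, t0, t1, fun v => by rw [t2]; simp, fun v => ?_⟩
    have : y.1.toLinearMap ∘ₗ T = (ε * η) • T ∘ₗ y.1.toLinearMap := b.ext fun i => by
      rcases mul_self_eq_one_iff.mp a1 with rfl | rfl <;>
      rcases mul_self_eq_one_iff.mp a4 with rfl | rfl <;> rcases i with i | i <;> fin_cases i <;>
        simp only [LinearMap.comp_apply, Fin.zero_eta, Fin.mk_one, t3, t4, t5, t6, map_add, map_sub,
          map_smul, LinearMap.smul_apply, LinearEquiv.coe_coe, a2, a3, a5, a6] <;> module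
    exact LinearMap.congr_fun this v

omit hA hB in
theorem exists_gen [Finite E] (h2 : (2 : F) ≠ 0) (hk : finrank F E = 2) :
    ∃ (J : E) (c : F), (∀ c, algebraMap F E c ≠ J) ∧ (∀ a, a * a ≠ c) ∧
      algebraMap F E c = J * J := by
  have := finite_of_algebra F E
  have := Fintype.ofFinite E
  have := Fintype.ofFinite F
  have hE : Fintype.card E = Nat.card F ^ 2 := by
    rw [Module.card_eq_pow_finrank (K := F), hk, Nat.card_eq_fintype_card]
  obtain ⟨J, c, -, -, j2, -, j4⟩ := exists_anti h2 (qd_of hk (qConj_conjQ hE).ne_id fun c => by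
    rw [conjQ_apply, ← map_pow, Nat.card_eq_fintype_card, FiniteField.pow_card])
  refine ⟨J, c, j2, fun a e => ?_, j4⟩
  rw [← e, map_mul] at j4
  rcases mul_self_eq_mul_self_iff.mp j4 with e | e
  · exact j2 _ e
  · exact j2 (-a) (by simp [e])

omit hA hB in
theorem arith_sp {i k j : ℕ} (hk : k.Prime) (hi : 0 < i)
    (h : (if Even i then i else 2 * i) = k * (j * if Even (i / i.gcd k) then i / i.gcd k
      else 2 * (i / i.gcd k))) (n : ℕ) (hn : i ∣ 2 * n) : k ∣ n := by
  have h2 := hk.two_le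
  rcases j with _ | j
  · split_ifs at h <;> omega
  by_cases h1 : k ∣ i
  · obtain ⟨s, rfl⟩ := h1
    rw [Nat.gcd_eq_right (Dvd.intro s rfl), Nat.mul_div_cancel_left _ hk.pos] at h
    rcases hk.eq_two_or_odd' with rfl | ho
    · rw [if_pos (by simp)] at h
      have hs : Even s := by
        by_contra e
        rw [if_neg e] at h
        nlinarith
      exact hs.two_dvd.trans (Nat.dvd_of_mul_dvd_mul_left two_pos hn)
    · exact (Nat.coprime_two_right.mpr ho).dvd_of_dvd_mul_left ((Dvd.intro s rfl).trans hn)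
  · rw [((hk.coprime_iff_not_dvd).mpr h1).symm, Nat.div_one] at h
    have : 0 < if Even i then i else 2 * i := by split_ifs <;> omega
    generalize (if Even i then i else 2 * i) = c at h this
    nlinarith [Nat.mul_le_mul h2 (Nat.mul_le_mul_right c (show 1 ≤ j + 1 by omega))]

variable [Module E V] [IsScalarTower F E V] [Finite E]
  {p : ℕ} [hp : Fact p.Prime] [hc0 : CharP F p] {d : ℕ} (hm : finrank F V = 2 * d) (hd : 2 ≤ d)
  {H : Subgroup (Isom (σ := RingHom.id F) B fun _ => 0)} (hH : ∀ y, y ∈ H ↔ NrmE E y.1)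
  [hr : Fact r.Prime]
include hm hd hH hp hc0

theorem sp_main {k : ℕ} (hk : finrank F E = k) (hkp : k.Prime)
    (ha : ∀ (k : E) u v, B (k • u) v = B u (k • v)) (hb : ∀ (k : E) v, B (k • v) v = 0)
    (hΩ : r ∣ H.relIndex ⊤) :
    (EluP ⊤ r fun y => ∃ g ∈ (⊤ : Subgroup _), g⁻¹ * y * g ∈ H) ↔
      r = 2 ∧ d = 2 ∧ k = 2 ∧ p ≠ 2 := by
  have := finite_of_algebra F E
  have h2 : p ≠ 2 → (2 : F) ≠ 0 := fun e a => e ((Nat.prime_dvd_prime_iff_eq hp.out Nat.prime_two).1
    ((CharP.cast_eq_zero_iff F p 2).1 (by simpa using a)))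
  constructor
  · intro hE
    have ep : r ≠ p := by
      rintro rfl
      exact not_elu_char hA hB hm hd hH (hk ▸ hkp.two_le) hE
    rw [Subgroup.relIndex_top_right] at hΩ
    have : Module.Finite E V := Module.Finite.of_restrictScalars_finite F E V
    have : CharP E p := charP_of_injective_algebraMap (algebraMap F E).injective p
    obtain ⟨b, h5⟩ := exists_lift (σ := RingHom.id E) ha
    have h6 : ∀ x y, Algebra.trace F E (1 * b x y) = B x y := by simpa using h5
    have hh : LinearMap.BilinForm.IsAlt b := fun x => H26.trace_ext (F := F) fun k => by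
      simpa [← h5] using hb k x
    have hs := lift_sep h5 hB
    obtain ⟨m, hn⟩ := even_finrank_of_alt (hh.isRefl.nondegenerate_iff_separatingLeft.mpr hs) hh
    rw [← two_mul] at hn
    have hkm : d = k * m := by
      have := Module.finrank_mul_finrank F E V
      rw [hk, hm, hn, mul_left_comm] at this
      omega
    by_cases e : r = 2
    · subst e
      obtain ⟨b0, h7⟩ := exists_ss_invol hA hB hm (h2 ep.symm) (T := 1) (by simp) (by simp)
      have i0 : Fin d := ⟨0, by omega⟩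
      have h8 : NondegOn B (Submodule.span F {b0 (inl i0), b0 (inr i0)}) := fun x hx H => by
        obtain ⟨s, t, rfl⟩ := Submodule.mem_span_pair.mp hx
        have a1 := H _ (Submodule.subset_span (Or.inl rfl))
        have a2 := H _ (Submodule.subset_span (Or.inr rfl))
        simp [h7.1.ee, h7.1.ff, h7.1.ef, h7.1.fe] at a1 a2
        simp [a1, a2]
      have h9 : finrank F (Submodule.span F {b0 (inl i0), b0 (inr i0)}) = 2 := by
        have := finrank_span_eq_card (b0.linearIndependent.comp ![inl i0, inr i0] (by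
          intro i j; fin_cases i <;> fin_cases j <;> simp))
        rwa [show Set.range (b0 ∘ ![inl i0, inr i0]) = {b0 (inl i0), b0 (inr i0)} by
          simp [Set.range_comp, Set.image_pair, Set.pair_comm]] at this
      obtain ⟨y, y1, y2⟩ := exists_invol_neg (isForm_alt hA) hB (h2 ep.symm) h8
      rcases elu_key hB hH hE trivial (sq y ▸ y1) (y2 ▸ h9) two_pos (.inr (by omega)) with
        ⟨y', a1, a2, a3, -⟩ | ⟨a1, a2⟩
      · exfalso
        have h3 : (2 : E) ≠ 0 := by
          rw [← map_ofNat (algebraMap F E)]; exact (_root_.map_ne_zero _).2 (h2 ep.symm)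
        obtain ⟨s, a4⟩ := (alt_on hh (invol_data (isForm_alt hh) hs h3
          (y := ⟨y', isom_lift one_ne_zero h6 a2, fun _ => rfl⟩) (Subtype.ext ((sq y').symm.trans a1))).1).1
        rw [hk, a4] at a3
        have := hkp.two_le
        rcases s with _ | s
        · omega
        · nlinarith
      · exact ⟨rfl, by omega, ((Nat.prime_dvd_prime_iff_eq Nat.prime_two hkp).mp
          (Nat.prime_two.dvd_iff_not_coprime.mpr (hk ▸ a2))).symm, ep.symm⟩
    exfalso
    have h7 := card_dvd_of_index h6 (R := fun _ => 0) (fun _ _ _ => rfl) hH hΩ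
    obtain ⟨i0, i1, y, y1, y2⟩ := exists_min_alt hA hB hr.out e ep ((Dvd.intro _ rfl).trans h7) rfl
    have hE2 : Nat.card E = Nat.card F ^ k := by rw [Module.natCard_eq_pow_finrank (K := F), hk]
    rcases elu_key hB hH hE trivial y1 y2 (by split_ifs <;> omega)
      (.inl (hr.out.odd_of_ne_two e)) with ⟨y', a1, a2, a3, -⟩ | ⟨a1, a2⟩
    · obtain ⟨j, a4⟩ := (od_id (F := E) hr.out e ep rfl rfl rfl).exists_finrank_movS (isForm_alt hh) hs
        (y := ⟨y', isom_lift one_ne_zero h6 a2, fun _ => rfl⟩) (Subtype.ext a1)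
      rw [hk, a4, hE2, Nat.cast_pow, orderOf_pow' _ hkp.ne_zero] at a3
      have := finite_isom (σ := RingHom.id E) b fun _ => 0
      refine Dv.not ?_ Nat.card_pos.ne' h7
      rw [card_isom_spO hs hh hn, card_isom_spO hB hA hm, spO_eq, spO_eq, mul_comm _ (PP _ _), hkm,
        hE2]
      exact ((dv_PP hr.out hkp.pos (fun n hn => arith_sp hkp i0 a3 n
        ((dvd_sub_iff Nat.card_pos _).mp hn)) m).mul_not hr.out
        (not_dvd_card hr.out ep _)).trans_dvd (Dvd.intro_left _ rfl)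
    · obtain rfl := (Nat.prime_dvd_prime_iff_eq hr.out hkp).mp
        (hr.out.dvd_iff_not_coprime.mpr (hk ▸ a2))
      rcases m with _ | m
      · omega
      · rw [mul_add] at hkm; omega
  · rintro ⟨rfl, rfl, rfl, e⟩ y - ⟨z, hz⟩ -
    obtain ⟨J, c, j1, j2, j3⟩ := exists_gen (h2 e) hk
    obtain ⟨T, η, t0, t1, t2, t3⟩ := exists_sa_comm hA hB hm (h2 e) y hz c
    obtain ⟨g, hg⟩ := sa_conj hA hB hm (T := DistribSMul.toLinearMap F V J)
      (fun u v => ha J u v) (hb J) t0 t1 j2 (fun v => by simp [smul_smul, ← j3]) t2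
    exact ⟨g, trivial, elu_of_comm hk j1 hH t3 hg⟩

omit hA hB hm hH in
theorem gu_mat (φ : E →ₐ[F] Matrix (Fin d ⊕ Fin d) (Fin d ⊕ Fin d) F) (h2 : (2 : F) ≠ 0)
    (hk : finrank F E = 2) (ha : Geo.IsAdjointClosedFor (sympForm d F) φ.range)
    (hb : ¬ Geo.IsSelfAdjointFor (sympForm d F) φ.range)
    (hΩ : r ∣ (Geo.subalgebraNormalizer φ.range).relIndex (spGL d F)) :
    (∀ x ∈ spGL d F, (∃ z : F, (x ^ r).1 = z • 1) → (∀ z : F, x.1 ≠ z • 1) →
      ∃ g ∈ spGL d F, g⁻¹ * x * g ∈ Geo.subalgebraNormalizer φ.range) ↔ r = 2 := by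
  obtain ⟨e1, e2⟩ := eluP_gl (r := r) (H := Geo.subalgebraNormalizer φ.range)
    (mem_spGL_iff' (F := F) (d := d))
  rw [e2]
  rw [e1] at hΩ
  letI : Module E (Fin d ⊕ Fin d → F) := EV.instModE φ
  have : IsScalarTower F E (Fin d ⊕ Fin d → F) := EV.instTower φ
  refine gu_main (E := E) spBilin_isAlt spBilin_nondegenerate.1 (p := p) (by simp; omega) hd
    (mem_comap_iff φ) h2 hk (fun k => ?_) (fun h => hb ?_) hΩ
  · obtain ⟨_, ⟨k', rfl⟩, h3⟩ := ha _ ⟨k, rfl⟩
    simp only [sympForm_eq_spBilin] at h3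
    exact ⟨k', h3⟩
  · rintro _ ⟨k, rfl⟩ u v
    simp only [sympForm_eq_spBilin]
    exact h k u v

omit hA hB hm hH in
theorem sp_mat (φ : E →ₐ[F] Matrix (Fin d ⊕ Fin d) (Fin d ⊕ Fin d) F) {k : ℕ}
    (hk : finrank F E = k) (hkp : k.Prime) (ha : Geo.IsSelfAdjointFor (sympForm d F) φ.range)
    (hb : ∀ a ∈ φ.range, ∀ v, sympForm d F (a.mulVec v) v = 0)
    (hΩ : r ∣ (Geo.subalgebraNormalizer φ.range).relIndex (spGL d F)) :
    (∀ x ∈ spGL d F, (∃ z : F, (x ^ r).1 = z • 1) → (∀ z : F, x.1 ≠ z • 1) →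
      ∃ g ∈ spGL d F, g⁻¹ * x * g ∈ Geo.subalgebraNormalizer φ.range) ↔
      r = 2 ∧ d = 2 ∧ k = 2 ∧ p ≠ 2 := by
  obtain ⟨e1, e2⟩ := eluP_gl (r := r) (H := Geo.subalgebraNormalizer φ.range)
    (mem_spGL_iff' (F := F) (d := d))
  rw [e2]
  rw [e1] at hΩ
  letI : Module E (Fin d ⊕ Fin d → F) := EV.instModE φ
  have : IsScalarTower F E (Fin d ⊕ Fin d → F) := EV.instTower φ
  simp only [Geo.IsSelfAdjointFor, sympForm_eq_spBilin] at ha hb
  exact sp_main (E := E) spBilin_isAlt spBilin_nondegenerate.1 (p := p) (by simp; omega) hd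
    (mem_comap_iff φ) hk hkp (fun k => ha _ ⟨k, rfl⟩) (fun k => hb _ ⟨k, rfl⟩) hΩ

end Cfsg.Agent.H18.Fe
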