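import Mathlib
import Cfsg.Agent.H18.Fe4

/-! Orthonormal systems adapted to an endomorphism of a quadratic space. -/

set_option autoImplicit false

namespace Cfsg.Agent.H18.Fe
open Module Cfsg.Agent.H11 Cfsg.Agent.H10 Sum

universe u

variable {F : Type u} [Field F] {V : Type*} [AddCommGroup V] [Module F V]
  {B : V →ₗ[F] V →ₗ[F] F} {Q : V → F}

/-- An orthonormal system of vectors. -/
def OS (B : V →ₗ[F] V →ₗ[F] F) {m : ℕ} (b : Fin m ⊕ Fin m → V) : Prop :=
  ∀ i j, B (b i) (b j) = if i = j then 1 else 0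

theorem OS.li {m : ℕ} {b : Fin m ⊕ Fin m → V} (h : OS B b) : LinearIndependent F b := by
  refine Fintype.linearIndependent_iff.mpr fun g hg i => ?_
  rcases i with i | i
  · simpa [map_sum, h _ _] using congrArg (fun x => B x (b (inl i))) hg
  · simpa [map_sum, h _ _] using congrArg (fun x => B x (b (inr i))) hg

theorem isom_of_form (h : IsQuad B Q) (h2 : (2 : F) ≠ 0) {g : V ≃ₗ[F] V}
    (hg : ∀ x y, B (g x) (g y) = B x y) : g ∈ Isom B Q :=
  ⟨hg, fun x => mul_left_cancel₀ h2 (by rw [← h.diag', ← h.diag', hg])⟩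

theorem OS.isom {m : ℕ} {b b' : Basis (Fin m ⊕ Fin m) F V} (h : OS B b) (h' : OS B b') (x y : V) :
    B (b.equiv b' (Equiv.refl _) x) (b.equiv b' (Equiv.refl _) y) = B x y := by
  have : B.compl₁₂ (b.equiv b' (Equiv.refl _)).toLinearMap (b.equiv b' (Equiv.refl _)).toLinearMap
      = B := LinearMap.ext_basis b b fun i j => by simp [h i j, h' i j]
  exact LinearMap.congr_fun₂ this x y

variable [FiniteDimensional F V] (h : IsQuad B Q)
include h

theorem exists_os_aux {T : End F V} {η : F}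
    (hT : ∀ u v, B (T u) v = η * B u (T v)) {R : V → V → Prop} {I : Submodule F V → Prop}
    (hR : ∀ W : Submodule F V, NondegOn B W → (∀ x ∈ W, T x ∈ W) → W ≠ ⊥ → I W →
      ∃ e ∈ W, ∃ f ∈ W, B e e = 1 ∧ B f f = 1 ∧ B e f = 0 ∧ R e f ∧
        (∃ a b : F, T e = a • e + b • f) ∧ (∃ a b : F, T f = a • e + b • f) ∧
        ∀ W', NondegOn B W' → (F ∙ e) ⊔ (F ∙ f) ⊔ W' = W → (∀ x ∈ W', B e x = 0 ∧ B f x = 0) → I W')
    (n : ℕ) : ∀ W : Submodule F V, finrank F W ≤ n → NondegOn B W → (∀ x ∈ W, T x ∈ W) → I W →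
      ∃ (m : ℕ) (b : Fin m ⊕ Fin m → V), (∀ i, b i ∈ W) ∧ OS B b ∧
        (∀ i, R (b (inl i)) (b (inr i))) ∧ W ≤ Submodule.span F (Set.range b) := by
  have h0 : ∃ (m : ℕ) (b : Fin m ⊕ Fin m → V), (∀ i, b i ∈ (⊥ : Submodule F V)) ∧ OS B b ∧
      (∀ i, R (b (inl i)) (b (inr i))) ∧ ⊥ ≤ Submodule.span F (Set.range b) :=
    ⟨0, fun _ => 0, by simp, by simp [OS], by simp, bot_le⟩
  induction n with
  | zero =>
    intro W hW _ _ _
    rwa [Submodule.finrank_eq_zero.mp (Nat.le_zero.mp hW)]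
  | succ n ih =>
    intro W hW h1 h2 hI
    by_cases h3 : W = ⊥
    · rwa [h3]
    obtain ⟨e, he, f, hf, g1, g2, h4, h5, ⟨a1, b1, h6⟩, ⟨a2, b2, h7⟩, h9⟩ := hR W h1 h2 h3 hI
    have h8 : B f e = 0 := by rw [h.comm, h4]
    let W' := W ⊓ (LinearMap.ker (B.flip e) ⊓ LinearMap.ker (B.flip f))
    have mem : ∀ x, x ∈ W' ↔ x ∈ W ∧ B x e = 0 ∧ B x f = 0 := fun x => Iff.rfl
    have pr : ∀ x ∈ W, x - (B x e • e + B x f • f) ∈ W' := fun x hx => (mem _).mpr
      ⟨W.sub_mem hx (W.add_mem (W.smul_mem _ he) (W.smul_mem _ hf)),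
        by simp [g1, h8], by simp [g2, h4]⟩
    have hlt : W' < W := lt_of_le_of_ne inf_le_left fun q => by
      have := ((mem e).mp (q ▸ he)).2.1
      simp [g1] at this
    have nd : NondegOn B W' := fun x hx H => h1 x hx.1 fun y hy => by
      simpa [((mem x).mp hx).2.1, ((mem x).mp hx).2.2] using H _ (pr y hy)
    obtain ⟨m, b, c1, c2, c3, c4⟩ := ih W' (by have := Submodule.finrank_lt_finrank_of_lt hlt; omega)
      nd (fun x hx => (mem _).mpr ⟨h2 x hx.1, by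
        simp [hT, h6, ((mem x).mp hx).2.1, ((mem x).mp hx).2.2], by
        simp [hT, h7, ((mem x).mp hx).2.1, ((mem x).mp hx).2.2]⟩) (h9 W' nd (le_antisymm
          (sup_le (sup_le ((Submodule.span_singleton_le_iff_mem _ _).mpr he)
            ((Submodule.span_singleton_le_iff_mem _ _).mpr hf)) inf_le_left) fun x hx => by
          rw [← add_sub_cancel (B x e • e + B x f • f) x]
          exact Submodule.add_mem_sup (Submodule.add_mem_sup
            (Submodule.smul_mem _ _ (Submodule.mem_span_singleton_self e))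
            (Submodule.smul_mem _ _ (Submodule.mem_span_singleton_self f))) (pr x hx))
        fun x hx => ⟨h.comm e x ▸ ((mem x).mp hx).2.1, h.comm f x ▸ ((mem x).mp hx).2.2⟩)
    have d1 : ∀ i, B (b i) e = 0 := fun i => ((mem _).mp (c1 i)).2.1
    have d2 : ∀ i, B (b i) f = 0 := fun i => ((mem _).mp (c1 i)).2.2
    have d3 : ∀ i, B e (b i) = 0 := fun i => by rw [h.comm, d1]
    have d4 : ∀ i, B f (b i) = 0 := fun i => by rw [h.comm, d2]
    refine ⟨m + 1, Sum.elim (Fin.cons e fun i => b (inl i)) (Fin.cons f fun i => b (inr i)),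
      ?_, ?_, fun i => ?_, fun x hx => ?_⟩
    · rintro (i | i) <;> refine Fin.cases ?_ (fun i => ?_) i
      exacts [he, (c1 _).1, hf, (c1 _).1]
    · rintro (i | i) (j | j) <;> refine Fin.cases ?_ (fun i => ?_) i <;>
        refine Fin.cases ?_ (fun j => ?_) j <;>
        simp [d1, d2, d3, d4, h4, h8, g1, g2, c2 _ _, (Fin.succ_ne_zero _).symm]
    · refine Fin.cases ?_ (fun i => ?_) i
      exacts [h5, c3 i]
    · rw [← sub_add_cancel x (B x e • e + B x f • f)]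
      refine Submodule.add_mem _ (Submodule.span_mono ?_ (c4 (pr x hx))) (Submodule.add_mem _
        (Submodule.smul_mem _ _ (Submodule.subset_span ⟨inl 0, rfl⟩))
        (Submodule.smul_mem _ _ (Submodule.subset_span ⟨inr 0, rfl⟩)))
      rintro _ ⟨i | i, rfl⟩
      exacts [⟨inl i.succ, rfl⟩, ⟨inr i.succ, rfl⟩]

variable (hB : B.SeparatingLeft)
include hB

theorem exists_os {m : ℕ} (hm : finrank F V = 2 * m) {T : End F V} {η : F}
    (hT : ∀ u v, B (T u) v = η * B u (T v)) {R : V → V → Prop} {I : Submodule F V → Prop}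
    (hR : ∀ W : Submodule F V, NondegOn B W → (∀ x ∈ W, T x ∈ W) → W ≠ ⊥ → I W →
      ∃ e ∈ W, ∃ f ∈ W, B e e = 1 ∧ B f f = 1 ∧ B e f = 0 ∧ R e f ∧
        (∃ a b : F, T e = a • e + b • f) ∧ (∃ a b : F, T f = a • e + b • f) ∧
        ∀ W', NondegOn B W' → (F ∙ e) ⊔ (F ∙ f) ⊔ W' = W → (∀ x ∈ W', B e x = 0 ∧ B f x = 0) → I W')
    (hI : I ⊤) : ∃ b : Basis (Fin m ⊕ Fin m) F V, OS B b ∧ ∀ i, R (b (inl i)) (b (inr i)) := by
  obtain ⟨k, b, -, h1, h2, h3⟩ := exists_os_aux h hT hR _ ⊤ le_rfl (nondegOn_top hB) (by simp) hI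
  have := finrank_eq_card_basis (Basis.mk h1.li h3)
  obtain rfl : k = m := by simp at this; omega
  exact ⟨Basis.mk h1.li h3, by simpa using h1, by simpa using h2⟩

variable [Finite F] (h2 : (2 : F) ≠ 0)
include h2

omit hB [Finite F] [FiniteDimensional F V] in
theorem exists_aniso {W : Submodule F V} (hW : NondegOn B W) (h0 : W ≠ ⊥) : ∃ v ∈ W, B v v ≠ 0 :=
  (h.exists_nonsingular hW h0).imp fun v hv => ⟨hv.1, h.diag' v ▸ mul_ne_zero h2 hv.2⟩

omit [Finite F] in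
theorem exists_partner {W : Submodule F V} (hW : NondegOn B W) (hn : 2 ≤ finrank F W) {v : V}
    (hv : v ∈ W) (h0 : B v v ≠ 0) : ∃ w ∈ W, B w w ≠ 0 ∧ B v w = 0 ∧
      (finrank F W = 2 → (F ∙ v) ⊔ (F ∙ w) = W) := by
  obtain ⟨U, u1, u2, -, u4, u5⟩ := exists_orth_compl h hB hW (IsForm.nondegOn_span_singleton h0)
    ((Submodule.span_singleton_le_iff_mem _ _).mpr hv)
  rw [finrank_span_singleton (by rintro rfl; simp at h0)] at u5
  obtain ⟨w, w1, w2⟩ := exists_aniso h h2 u2 (by rintro rfl; simp at u5; omega)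
  have w3 := u4 v (Submodule.mem_span_singleton_self v) w w1
  refine ⟨w, u1 w1, w2, w3, fun e => Submodule.eq_of_le_of_finrank_eq (sup_le
    ((Submodule.span_singleton_le_iff_mem _ _).mpr hv)
    ((Submodule.span_singleton_le_iff_mem _ _).mpr (u1 w1))) ?_⟩
  rw [(nondegOn_sup_span h (IsForm.nondegOn_span_singleton h0) w2 fun a ha => u4 a ha w w1).2,
    finrank_span_singleton (by rintro rfl; simp at h0), e]

theorem exists_rep {W : Submodule F V} (hW : NondegOn B W) (hn : 2 ≤ finrank F W) (c : F) :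
    ∃ v ∈ W, B v v = c := by
  obtain ⟨v, v1, v2⟩ := exists_aniso h h2 hW (by rintro rfl; simp at hn)
  obtain ⟨w, w1, w2, w3, -⟩ := exists_partner h hB h2 hW hn v1 v2
  obtain ⟨x, y, e⟩ := solve_sq h2 v2 w2 c
  refine ⟨x • v + y • w, W.add_mem (W.smul_mem _ v1) (W.smul_mem _ w1), ?_⟩
  simp only [map_add, map_smul, LinearMap.add_apply, LinearMap.smul_apply, smul_eq_mul, w3,
    h.comm w v]
  linear_combination e

omit hB in
theorem pl_on {e f : V} (h1 : B e e = 1) {c : F} (hc : c ≠ 0) (h3 : B f f = c) (h4 : B e f = 0) :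
    Pl B Q ((F ∙ e) ⊔ (F ∙ f)) ↔ IsSquare (-c) := by
  rw [pl_plane h (by simp [h1]) (h3 ▸ hc) h4, ← isSquare_mul_iff_of_isSquare (a := 2 * 2)
    (mul_ne_zero h2 h2) ⟨2, rfl⟩]
  rw [h.diag'] at h1 h3
  rw [show 2 * 2 * (-Q e * Q f) = -((2 * Q e) * (2 * Q f)) by ring, h1, h3, one_mul]

theorem plane_on {W : Submodule F V} (hW : NondegOn B W) (hn : finrank F W = 2)
    (hp : Pl B Q W ↔ IsSquare (-1 : F)) :
    ∃ e f, B e e = 1 ∧ B f f = 1 ∧ B e f = 0 ∧ (F ∙ e) ⊔ (F ∙ f) = W := by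
  classical
  have := Fintype.ofFinite F
  obtain ⟨e, e1, e2⟩ := exists_rep h hB h2 hW hn.ge 1
  obtain ⟨w, -, w2, w3, w4⟩ := exists_partner h hB h2 hW hn.ge e1 (by simp [e2])
  rw [← w4 hn, pl_on h h2 e2 w2 rfl w3] at hp
  obtain ⟨s, hs⟩ : IsSquare (B w w) := by
    rw [← quadraticChar_one_iff_isSquare w2]
    rw [← quadraticChar_one_iff_isSquare (neg_ne_zero.mpr w2), ← quadraticChar_one_iff_isSquare
      (neg_ne_zero.mpr one_ne_zero), ← neg_one_mul, map_mul] at hp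
    rcases quadraticChar_dichotomy w2 with a | a <;>
      rcases quadraticChar_dichotomy (neg_ne_zero.mpr (one_ne_zero (α := F))) with b | b <;>
      simp_all
  have h0 : s ≠ 0 := by rintro rfl; simp [hs] at w2
  refine ⟨e, s⁻¹ • w, e2, by simp [hs, h0], by simp [w3], ?_⟩
  rw [Submodule.span_singleton_smul_eq (Ne.isUnit (inv_ne_zero h0)), w4 hn]

theorem exists_os_cx {m : ℕ} (hm : finrank F V = 2 * m) {y : Isom B Q}
    (hy : ∀ v, y.1 (y.1 v) = -v) :
    ∃ b : Basis (Fin m ⊕ Fin m) F V, OS B b ∧ ∀ i, b (inr i) = y.1 (b (inl i)) := by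
  refine exists_os h hB hm (isom_adj y (z := -1) (by simpa using hy)) (R := fun e f => f = y.1 e)
    (I := fun _ => True) (fun W h1 h3 h4 _ => ?_) trivial
  obtain ⟨P, p1, -, -, p2, -⟩ := cx_quad_hb hy h h2 W h1 h3 h4
  obtain ⟨e, e1, e2⟩ := exists_rep h hB h2 h1 (p2 ▸ Submodule.finrank_mono p1) 1
  exact ⟨e, e1, _, h3 e e1, e2, (y.2.1 e e).trans e2, cx_quad_orth hy h h2 e, rfl,
    ⟨0, 1, by simp⟩, ⟨-1, 0, by simp [hy]⟩, fun _ _ _ _ => trivial⟩

theorem exists_os_sa {m : ℕ} (hm : finrank F V = 2 * m) {T : End F V}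
    (hT : ∀ u v, B (T u) v = B u (T v)) {c : F} (hc : ∀ a, a * a ≠ c) (hT2 : ∀ v, T (T v) = c • v)
    (H : ∀ W : Submodule F V, NondegOn B W → (∀ x ∈ W, T x ∈ W) → 2 < finrank F W → ∃ P ≤ W,
      NondegOn B P ∧ (∀ x ∈ P, T x ∈ P) ∧ finrank F P = 2 ∧ (Pl B Q P ↔ IsSquare (-1 : F)))
    (hp : Pl B Q ⊤ ↔ Even m ∨ IsSquare (-1 : F)) :
    ∃ b : Basis (Fin m ⊕ Fin m) F V, OS B b ∧ ∀ i, ∃ α β : F,
      T (b (inl i)) = α • b (inl i) + β • b (inr i) ∧
      T (b (inr i)) = β • b (inl i) - α • b (inr i) := by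
  refine exists_os h hB hm (T := T) (η := 1) (by simpa using hT)
    (R := fun e f => ∃ α β : F, T e = α • e + β • f ∧ T f = β • e - α • f)
    (I := fun W => ∃ k, finrank F W = 2 * k ∧ (Pl B Q W ↔ Even k ∨ IsSquare (-1 : F)))
    (fun W h1 h3 h4 ⟨k, k1, k2⟩ => ?_) ⟨m, by simpa, hp⟩
  obtain ⟨P, p1, p2, p3, p4, p5⟩ : ∃ P ≤ W, NondegOn B P ∧ (∀ x ∈ P, T x ∈ P) ∧ finrank F P = 2 ∧
      (Pl B Q P ↔ IsSquare (-1 : F)) := by
    by_cases e : 2 < finrank F W
    · exact H W h1 h3 e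
    · have := Submodule.finrank_eq_zero.not.mpr h4
      obtain rfl : k = 1 := by omega
      exact ⟨W, le_rfl, h1, h3, k1, by simpa using k2⟩
  obtain ⟨e, f, e1, e2, e3, rfl⟩ := plane_on h hB h2 p2 p4 p5
  have he : e ∈ (F ∙ e) ⊔ (F ∙ f) := Submodule.mem_sup_left (Submodule.mem_span_singleton_self e)
  have hf : f ∈ (F ∙ e) ⊔ (F ∙ f) := Submodule.mem_sup_right (Submodule.mem_span_singleton_self f)
  have key : ∀ x ∈ (F ∙ e) ⊔ (F ∙ f), ∃ a b : F, x = a • e + b • f := fun x hx => by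
    obtain ⟨_, a, _, b, rfl⟩ := Submodule.mem_sup.mp hx
    obtain ⟨a', rfl⟩ := Submodule.mem_span_singleton.mp a
    obtain ⟨b', rfl⟩ := Submodule.mem_span_singleton.mp b
    exact ⟨a', b', rfl⟩
  have e4 : B f e = 0 := by rw [h.comm, e3]
  refine ⟨e, p1 he, f, p1 hf, e1, e2, e3, ?_, key _ (p3 e he), key _ (p3 f hf),
    fun W' w1 w2 w3 => ?_⟩
  · obtain ⟨a, b, a1⟩ := key _ (p3 e he)
    obtain ⟨a', b', a2⟩ := key _ (p3 f hf)
    obtain rfl : b = a' := by simpa [a1, a2, e1, e2, e3, e4] using hT e f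
    have a3 := congrArg (B e) (hT2 e)
    have a4 := congrArg (B f) (hT2 e)
    simp only [a1, a2, e1, e2, e3, e4, map_add, map_smul, smul_eq_mul] at a3 a4
    have hb : b ≠ 0 := by rintro rfl; exact hc a (by linear_combination a3)
    obtain rfl : b' = -a := mul_left_cancel₀ hb (by linear_combination a4)
    exact ⟨a, b, a1, by rw [a2]; module⟩
  · have ho : ∀ a ∈ (F ∙ e) ⊔ (F ∙ f), ∀ b ∈ W', B a b = 0 := fun x hx b hb => by
      obtain ⟨a, a', rfl⟩ := key x hx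
      simp [w3 b hb]
    have h5 := finrank_sup_of_disjoint (disjoint_of_nondeg p2 ho h)
    rw [w2, p4, k1] at h5
    obtain ⟨k, rfl⟩ : ∃ k', k = k' + 1 := ⟨k - 1, by omega⟩
    refine ⟨k, by omega, ?_⟩
    have h6 := pl_sup h hB p2 w1 ho (by rw [p4]; exact even_two) ⟨k, by omega⟩
    rw [w2, k2, p5, Nat.even_add_one] at h6
    tauto

omit hB [Finite F] [FiniteDimensional F V] h2 in
theorem anti_of_planes {m : ℕ} {b : Basis (Fin m ⊕ Fin m) F V} (hb : OS B b) {T : End F V}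
    (hT : ∀ i, ∃ α β : F, T (b (inl i)) = α • b (inl i) + β • b (inr i) ∧
      T (b (inr i)) = β • b (inl i) - α • b (inr i)) (h2 : (2 : F) ≠ 0) {s : Isom B Q}
    (hs : ∀ v, s.1 (s.1 v) = -v)
    (h1 : ∀ i, s.1 (b (inl i)) ∈ Submodule.span F {b (inl i), b (inr i)}) (v : V) :
    s.1 (T v) = (-1 : F) • T (s.1 v) := by
  have : s.1.toLinearMap ∘ₗ T = (-1 : F) • T ∘ₗ s.1.toLinearMap := by
    have key : ∀ i, ∃ ε : F, s.1 (b (inl i)) = ε • b (inr i) ∧ s.1 (b (inr i)) = -ε • b (inl i) := by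
      intro i
      obtain ⟨x, ε, e⟩ := Submodule.mem_span_pair.mp (h1 i)
      have h3 := cx_quad_orth hs h h2 (b (inl i))
      have h4 := s.2.1 (b (inl i)) (b (inl i))
      simp only [← e, map_add, map_smul, hb _ _, LinearMap.add_apply, LinearMap.smul_apply] at h3 h4
      obtain rfl : x = 0 := by simpa using h3
      have h5 : ε * ε = 1 := by simpa using h4
      have h6 := hs (b (inl i))
      rw [← e, zero_smul, zero_add, map_smul] at h6
      refine ⟨ε, by simp [← e], ?_⟩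
      rw [← one_smul F (s.1 _), ← h5, mul_smul, h6]; simp
    refine b.ext fun i => ?_
    rcases i with i | i <;> obtain ⟨ε, h3, h4⟩ := key i <;> obtain ⟨α, β, h5, h6⟩ := hT i <;>
      simp only [LinearMap.comp_apply, h3, h4, h5, h6, map_add, map_sub, map_smul,
        LinearMap.smul_apply, LinearEquiv.coe_coe] <;> module
  exact LinearMap.congr_fun this v

theorem exists_conj_anti {m : ℕ} (hm : finrank F V = 2 * m) (h3 : 3 ≤ m) {T : End F V}
    (hT : ∀ u v, B (T u) v = B u (T v)) {c : F} (hc : ∀ a, a * a ≠ c) (hT2 : ∀ v, T (T v) = c • v)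
    (H : ∀ W : Submodule F V, NondegOn B W → (∀ x ∈ W, T x ∈ W) → 2 < finrank F W → ∃ P ≤ W,
      NondegOn B P ∧ (∀ x ∈ P, T x ∈ P) ∧ finrank F P = 2 ∧ (Pl B Q P ↔ IsSquare (-1 : F)))
    {y : Isom B Q} (hy : ∀ v, y.1 (y.1 v) = -v) : ∃ g ∈ commutator (Isom B Q),
      ∀ v, (g⁻¹ * y * g).1 (T v) = (-1 : F) • T ((g⁻¹ * y * g).1 v) := by
  obtain ⟨b, b1, b2⟩ := exists_os_sa h hB h2 hm hT hc hT2 H (cx_mem_iff hy h hB h2 hm).1
  obtain ⟨b', b3, b4⟩ := exists_os_cx h hB h2 hm hy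
  let g : Isom B Q := ⟨b.equiv b' (Equiv.refl _), isom_of_form h h2 (b1.isom b3)⟩
  have g1 : ∀ i, g.1 (b i) = b' i := fun i => by simp [g]
  have g2 : ∀ i, (g⁻¹ * y * g).1 (b (inl i)) = b (inr i) := fun i => g.1.injective (by
    simp [g1, b4])
  have g3 : ∀ (g : Isom B Q) v, (g⁻¹ * y * g).1 ((g⁻¹ * y * g).1 v) = -v := fun g v => by simp [hy]
  have i0 : Fin m := ⟨0, by omega⟩
  let P := Submodule.span F {b (inl i0), b (inr i0)}
  have p1 : NondegOn B P ∧ finrank F P = 1 + 1 := by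
    have := nondegOn_sup_span h (IsForm.nondegOn_span_singleton (B := B) (v := b (inl i0))
      (by simp [b1 _ _])) (v := b (inr i0)) (by simp [b1 _ _]) fun a ha => by
        obtain ⟨c, rfl⟩ := Submodule.mem_span_singleton.mp ha
        simp [b1 _ _]
    rwa [finrank_span_singleton (b.ne_zero _), ← Submodule.span_insert] at this
  obtain ⟨t, ⟨t1, t2⟩, t3⟩ := h.exists_mul_mem_of_nondeg hB (h.nonExc_of_finrank hB (by omega))
    p1.1 p1.2.ge (stabSub B Q P ⊓ fixSub B Q (perp B P)) (fun v hv _ =>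
      ⟨h.reflO_mem_stabSub (.inl hv), fun x hx => h.reflO_of_perp (hx v hv)⟩) g
  refine ⟨_, t3, anti_of_planes h b1 b2 h2 (g3 _) fun i => ?_⟩
  rw [show (g * t)⁻¹ * y * (g * t) = t⁻¹ * (g⁻¹ * y * g) * t by group]
  by_cases e : i = i0
  · subst e
    have h5 : g⁻¹ * y * g ∈ stabSub B Q P := mem_stabSub_of_le fun x hx => by
      obtain ⟨a, a', rfl⟩ := Submodule.mem_span_pair.mp hx
      rw [map_add, map_smul, map_smul, g2, ← g2, g3, g2]
      exact Submodule.mem_span_pair.mpr ⟨-a', a, by module⟩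
    exact (mem_stabSub_iff.mp (mul_mem (mul_mem (inv_mem t1) h5) t1) _).mp
      (Submodule.subset_span (.inl rfl))
  · have h5 : ∀ j, (j = inl i ∨ j = inr i) → t.1 (b j) = b j := fun j hj => t2 _
      (mem_perp_span.mpr (by rintro _ (rfl | rfl) <;> rcases hj with rfl | rfl <;>
        simp [b1 _ _, Ne.symm e]))
    have h6 : (t⁻¹ * (g⁻¹ * y * g) * t).1 (b (inl i)) = b (inr i) := t.1.injective (by
      rw [h5 _ (.inr rfl), ← g2, ← h5 _ (.inl rfl)]; simp [h5])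
    exact h6 ▸ Submodule.subset_span (.inr rfl)

end Cfsg.Agent.H18.Fe
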