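import Mathlib
import Cfsg.Agent.H18.Fe5

/-! Orthogonal groups over a quadratic extension inside orthogonal groups. -/

set_option autoImplicit false

namespace Cfsg.Agent.H18.Fe
open Module Cfsg.Agent.H11 Cfsg.Agent.H10 Cfsg.Agent.H26 Cfsg.Agent.H26.MX Sum

universe u

variable {F : Type u} [Field F] {V : Type*} [AddCommGroup V] [Module F V]
  {B : V →ₗ[F] V →ₗ[F] F} {Q : V → F} {r : ℕ}

section card
variable [Finite F] [FiniteDimensional F V] (h : IsQuad B Q) (hB : B.SeparatingLeft)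
include h hB

theorem card_O_odd {ν : ℕ} (hn : finrank F V = 2 * ν + 1) :
    Nat.card (Isom B Q) = PP (Nat.card F) ν * (2 * Nat.card F ^ (ν ^ 2)) := by
  obtain ⟨μ, hμ⟩ := h.exists_wittIdx
  have h1 := h.two_mul_wittIdx_le hB hμ
  have h2 := h.finrank_le_wittIdx' hB hμ
  obtain rfl : μ = ν := by omega
  have := IsQuad.card_isom_odd μ h hB hμ hn
  rw [← cast_prod_pow_sub_one _ _ Nat.card_pos] at this
  rw [mul_comm]
  exact_mod_cast this

open Classical in
theorem card_O_even {ν : ℕ} (hn : finrank F V = 2 * (ν + 1)) :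
    Nat.card (Isom B Q) = PP (Nat.card F) ν * (if Pl B Q ⊤ then Nat.card F ^ (ν + 1) - 1 else
      Nat.card F ^ (ν + 1) + 1) * (2 * Nat.card F ^ ((ν + 1) * ν)) := by
  rw [pl_top_iff h hB hn]
  have h0 : 1 ≤ Nat.card F ^ (ν + 1) := Nat.one_le_pow _ _ Nat.card_pos
  zify [PP]
  split_ifs with e
  · rw [IsQuad.card_isom_plus ν h hB e hn, ← cast_prod_pow_sub_one _ _ Nat.card_pos]
    push_cast [h0]; ring
  · rw [IsQuad.card_isom_minus ν h hB ((h.wittIdx_even_cases hB hn).resolve_left e) hn,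
      ← cast_prod_pow_sub_one _ _ Nat.card_pos]
    push_cast; ring

theorem exists_unip (hn : 3 ≤ finrank F V) (p : ℕ) [CharP F p] :
    ∃ y : Isom B Q, y ^ p = 1 ∧ 0 < finrank F (movS y.1) ∧ finrank F (movS y.1) ≤ 2 := by
  obtain ⟨u, u0, u1⟩ := h.exists_singular hn
  obtain ⟨w, w1, w2⟩ : ∃ w, B u w = 0 ∧ w ∉ F ∙ u := by
    by_contra H
    push Not at H
    have h1 := Submodule.finrank_mono (show LinearMap.ker (B u) ≤ F ∙ u from H)
    have h2 := (B u).finrank_range_add_finrank_ker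
    have h3 := Submodule.finrank_le (LinearMap.range (B u))
    rw [finrank_span_singleton u0] at h1
    rw [finrank_self] at h3
    omega
  have h1 : ∀ n : ℕ, h.eich u1 w1 ^ n = h.eich u1 (w := (n : F) • w) (by simp [w1]) := fun n => by
    induction n with
    | zero => rw [pow_zero, h.eich_congr _ _ u1 (map_zero _) rfl (by simp), h.eich_zero]
    | succ n ih => rw [pow_succ, ih, h.eich_mul]; exact h.eich_congr _ _ _ _ rfl (by simp [add_smul])
  refine ⟨h.eich u1 w1, ?_, Nat.pos_of_ne_zero fun e => ?_, ?_⟩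
  · rw [h1, h.eich_congr _ _ u1 (map_zero _) rfl (by simp), h.eich_zero]
  · obtain ⟨x, hx⟩ : ∃ x, B u x ≠ 0 := by
      by_contra H
      push Not at H
      exact u0 (hB u H)
    have := LinearEquiv.congr_fun (finrank_movS_eq_zero.mp e) x
    rw [h.eich_apply] at this
    refine w2 (Submodule.mem_span_singleton.mpr ⟨(B u x)⁻¹ * (B w x - Q w * B u x), ?_⟩)
    rw [mul_smul, inv_smul_eq_iff₀ hx, sub_smul]
    change _ = x at this
    linear_combination (norm := module) this
  · classical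
    refine (Submodule.finrank_mono (show movS _ ≤ Submodule.span F {u, w} from ?_)).trans
      ((finrank_span_le_card _).trans (by rw [Set.toFinset_insert, Set.toFinset_singleton]; exact
        Finset.card_le_two))
    intro v hv
    obtain ⟨x, rfl⟩ := mem_movS.mp hv
    exact Submodule.mem_span_pair.mpr ⟨B w x - Q w * B u x, -B u x, by rw [h.eich_apply]; module⟩

end card

variable {E : Type*} [Field E] [Algebra F E] [Module E V] [IsScalarTower F E V]

theorem exists_coord (hr : finrank F E = 2) {J : E} (hJ : ∀ c, algebraMap F E c ≠ J) (k : E) :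
    ∃ a b : F, a • 1 + b • J = k := by
  have : FiniteDimensional F E := Module.finite_of_finrank_pos (by omega)
  have li : LinearIndependent F ![(1 : E), J] := by
    rw [LinearIndependent.pair_iff' one_ne_zero]
    exact fun c e => hJ c (by rw [← e, Algebra.algebraMap_eq_smul_one])
  have h1 := li.span_eq_top_of_card_eq_finrank (by simp [hr])
  exact Submodule.mem_span_pair.mp (show k ∈ Submodule.span F {(1 : E), J} by
    rw [show ({1, J} : Set E) = Set.range ![(1 : E), J] by simp [Set.pair_comm], h1]; trivial)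

/-- The data of a quadratic space obtained from one over a quadratic extension. -/
structure Ex (B : V →ₗ[F] V →ₗ[F] F) (Q : V → F) (b : V →ₗ[E] V →ₗ[E] E) (J : E) (c : F) :
    Prop where
  q : IsQuad B Q
  sep : B.SeparatingLeft
  two : (2 : F) ≠ 0
  rk : finrank F E = 2
  tr : ∀ x y, Algebra.trace F E (b x y) = B x y
  symm : ∀ x y, b x y = b y x
  ne : ∀ c, algebraMap F E c ≠ J
  nsq : ∀ a, a * a ≠ c
  sq : algebraMap F E c = J * J
  ker : ∀ k, Algebra.trace F E k = 0 ↔ ∃ t, k = algebraMap F E t * J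

theorem exists_ex [Finite E] (h : IsQuad B Q) (hB : B.SeparatingLeft) (h2 : (2 : F) ≠ 0)
    (hk : finrank F E = 2) (ha : ∀ (k : E) u v, B (k • u) v = B u (k • v)) :
    ∃ (b : V →ₗ[E] V →ₗ[E] E) (J : E) (c : F), Ex B Q b J c := by
  have := finite_of_algebra F E
  have := Fintype.ofFinite E
  have := Fintype.ofFinite F
  have hE : Fintype.card E = Nat.card F ^ 2 := by
    rw [Module.card_eq_pow_finrank (K := F), hk, Nat.card_eq_fintype_card]
  have hq := qd_of hk (qConj_conjQ hE).ne_id fun c => by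
    rw [conjQ_apply, ← map_pow, Nat.card_eq_fintype_card, FiniteField.pow_card]
  obtain ⟨J, c, j0, j1, j2, -, j4⟩ := exists_anti h2 hq
  obtain ⟨b, h5⟩ := exists_lift (σ := RingHom.id E) ha
  refine ⟨b, J, c, h, hB, h2, hk, h5, fun x y => by
    simpa using lift_symm h5 (fun _ => rfl) (fun _ => rfl) h.symm y x, j2, fun a e => ?_, j4,
    fun k => ⟨fun e => ?_, ?_⟩⟩
  · rw [← e, map_mul] at j4
    rcases mul_self_eq_mul_self_iff.mp j4 with e | e
    · exact j2 _ e
    · exact j2 (-a) (by simp [e])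
  · have h3 := hq.tr k
    rw [e, map_zero] at h3
    obtain ⟨t, ht⟩ := hq.fixed (a := k / J) (by
      rw [map_div₀, j1, eq_neg_of_add_eq_zero_right h3.symm, neg_div_neg_eq])
    exact ⟨t, by rw [ht, div_mul_cancel₀ _ j0]⟩
  · rintro ⟨t, rfl⟩
    exact (algebraMap F E).injective (by rw [hq.tr, map_mul, hq.alg, j1]; simp)

namespace Ex
variable {b : V →ₗ[E] V →ₗ[E] E} {J : E} {c : F} (X : Ex B Q b J c)
include X

theorem two' : (2 : E) ≠ 0 := by
  rw [← map_ofNat (algebraMap F E)]; exact (_root_.map_ne_zero _).2 X.two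

theorem J0 : J ≠ 0 := fun e => X.ne 0 (by simp [e])

theorem qE : IsQuad b fun x => b x x / 2 := IsQuad.of_add_smul
  (fun x y => by have := X.two'; simp only [map_add, LinearMap.add_apply, X.symm y x]; field_simp; ring)
  fun c x => by simp only [map_smul, LinearMap.smul_apply, smul_eq_mul]; ring

theorem sepE : b.SeparatingLeft := lift_sep X.tr X.sep

theorem orth {x y : V} (h : b x y = 0) : B x y = 0 := by rw [← X.tr, h, map_zero]

theorem adj (k : E) (u v : V) : B (k • u) v = B u (k • v) := by simp [← X.tr]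

theorem Q_eq (x : V) : Q x = Algebra.trace F E (b x x / 2) := mul_left_cancel₀ X.two (by
  have := X.two'
  rw [← X.q.diag', ← X.tr, ← smul_eq_mul, ← map_smul, Algebra.smul_def, map_ofNat]
  congr 1; field_simp)

variable [Finite E]

theorem sq_alg (t : F) : IsSquare (algebraMap F E t) := by
  have := finite_of_algebra F E
  by_cases e : IsSquare t
  · exact e.map _
  obtain ⟨s, hs⟩ := isSquare_mul_of_not_isSquare e (b := c) fun ⟨a, ha⟩ => X.nsq a ha.symm
  have := congrArg (algebraMap F E) hs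
  rw [map_mul, map_mul, X.sq] at this
  have h0 := X.J0
  exact ⟨algebraMap F E s / J, by field_simp; linear_combination this⟩

theorem nd {W : Submodule E V} (h : NondegOn b W) : NondegOn B (W.restrictScalars F) :=
  fun x hx H => h x hx fun y hy => H26.trace_ext (F := F) fun k => by
    rw [← smul_eq_mul, ← map_smul, X.tr, H _ (W.smul_mem k hy)]; simp

variable [FiniteDimensional F V]

omit [Finite E] in
theorem rk_res (W : Submodule E V) : finrank F (W.restrictScalars F) = 2 * finrank E W := by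
  have : FiniteDimensional F E := Module.finite_of_finrank_pos (by have := X.rk; omega)
  rw [← X.rk, Module.finrank_mul_finrank]
  exact ((W.restrictScalarsEquiv F E V).restrictScalars F).finrank_eq

theorem pl_line {v : V} (hv : b v v ≠ 0) :
    Pl B Q ((E ∙ v).restrictScalars F) ↔ IsSquare (b v v * J) := by
  have h0 : v ≠ 0 := by rintro rfl; simp at hv
  have h1 := X.J0
  have key : ∀ k : E, Q (k • v) = 0 ↔ ∃ t, k * (k * b v v) = algebraMap F E t * J := fun k => by
    rw [← X.ker, ← mul_eq_zero_iff_left X.two, ← X.q.diag', ← X.tr]; simp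
  rw [pl_two X.q (by rw [X.rk_res, finrank_span_singleton h0])]
  constructor
  · rintro ⟨u, u1, u2, u3⟩
    obtain ⟨k, rfl⟩ := Submodule.mem_span_singleton.mp u1
    obtain ⟨t, ht⟩ := (key k).mp u3
    obtain ⟨s, hs⟩ := X.sq_alg t
    have hk : k ≠ 0 := by rintro rfl; simp at u2
    exact ⟨s * J / k, by field_simp; linear_combination ht + J * hs⟩
  · rintro ⟨s, hs⟩
    have h2 : s ≠ 0 := by rintro rfl; simp [hv, h1] at hs
    exact ⟨(J / s) • v, Submodule.mem_span_singleton.mpr ⟨_, rfl⟩, by simp [h0, h1, h2],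
      (key _).mpr ⟨1, by rw [map_one]; field_simp; linear_combination hs⟩⟩

omit [Finite E] in
theorem pl_res {W : Submodule E V} (h : Pl b (fun x => b x x / 2) W) :
    Pl B Q (W.restrictScalars F) := by
  obtain ⟨U, h1, h2, h3⟩ := h
  exact ⟨U.restrictScalars F, h1, X.q.totSing_iff.mpr fun x hx => by
    rw [X.Q_eq, show b x x / 2 = 0 from h2.1 x hx, map_zero], by rw [X.rk_res, X.rk_res, h3]⟩

theorem pl_sup' {U W : Submodule E V} (hU : NondegOn b U) (hW : NondegOn b W)
    (ho : ∀ x ∈ U, ∀ y ∈ W, b x y = 0) : Pl B Q ((U ⊔ W).restrictScalars F) ↔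
      (Pl B Q (U.restrictScalars F) ↔ Pl B Q (W.restrictScalars F)) := by
  have := finite_of_algebra F E
  rw [Submodule.restrictScalars_sup]
  exact pl_sup X.q X.sep (X.nd hU) (X.nd hW) (fun x hx y hy => X.orth (ho x hx y hy))
    (by simp [X.rk_res]) (by simp [X.rk_res])

theorem pl_match (he : Even (finrank E V)) : Pl B Q ⊤ ↔ Pl b (fun x => b x x / 2) ⊤ := by
  have : Module.Finite E V := Module.Finite.of_restrictScalars_finite F E V
  refine ⟨fun h => by_contra fun e => ?_, fun h => X.pl_res h⟩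
  obtain ⟨H, A, a1, a2, a3, a4, a5, a6, a7⟩ := exists_ell_split X.qE X.sepE (nondegOn_top X.sepE)
    (by simpa) e
  have h1 := X.pl_sup' a1 a2 a7
  rw [a3] at h1
  have h2 := (h1.mp h).mp (X.pl_res a4)
  obtain ⟨v, v1, v2⟩ := exists_aniso X.qE X.two' a2 (by rintro rfl; simp at a6)
  obtain ⟨w, -, w2, w3, w4⟩ := exists_partner X.qE X.sepE X.two' a2 a6.ge v1 v2
  rw [← w4 a6, pl_plane X.qE v2 w2 w3] at a5
  rw [← w4 a6, X.pl_sup' (IsForm.nondegOn_span_singleton v2) (IsForm.nondegOn_span_singleton w2)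
    (orth_span fun a ha => by
      obtain ⟨k, rfl⟩ := Submodule.mem_span_singleton.mp ha
      simp [w3]), X.pl_line v2, X.pl_line w2] at h2
  obtain ⟨s, hs⟩ : IsSquare (b v v * J * (b w w * J)) := by
    by_cases a : IsSquare (b v v * J)
    · exact a.mul (h2.mp a)
    · exact isSquare_mul_of_not_isSquare a (mt h2.mpr a)
  obtain ⟨i, hi⟩ := X.sq_alg (-1)
  have h3 := X.J0
  have h4 := X.two'
  rw [map_neg, map_one] at hi
  exact a5 ⟨i * s / (2 * J), by field_simp; linear_combination -hs + s * s * hi⟩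

theorem exists_line {W : Submodule E V} (hW : NondegOn b W) (hn : 2 ≤ finrank E W) (η : Prop) :
    ∃ v ∈ W, b v v ≠ 0 ∧ (Pl B Q ((E ∙ v).restrictScalars F) ↔ η) := by
  have : Module.Finite E V := Module.Finite.of_restrictScalars_finite F E V
  obtain ⟨n, n0, hη⟩ : ∃ n : E, n ≠ 0 ∧ (IsSquare n ↔ η) := by
    by_cases e : η
    · exact ⟨1, one_ne_zero, iff_of_true IsSquare.one e⟩
    · obtain ⟨n, hn⟩ := FiniteField.exists_nonsquare (F := E) fun a => X.two' (by
        have := ringChar.Nat.cast_ringChar (R := E)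
        rwa [a] at this)
      exact ⟨n, by rintro rfl; simp at hn, iff_of_false hn e⟩
  obtain ⟨v, v1, v2⟩ := exists_rep X.qE X.sepE X.two' hW hn (J * n)
  have h0 : b v v ≠ 0 := v2 ▸ mul_ne_zero X.J0 n0
  exact ⟨v, v1, h0, by rw [X.pl_line h0, v2, mul_right_comm,
    isSquare_mul_iff_of_isSquare (mul_ne_zero X.J0 X.J0) ⟨J, rfl⟩, hη]⟩

theorem exists_sub {a : ℕ} (ha : a + 1 < finrank E V) (η : Prop) : ∃ W : Submodule E V,
    NondegOn b W ∧ finrank E W = a + 1 ∧ (Pl B Q (W.restrictScalars F) ↔ η) := by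
  have : Module.Finite E V := Module.Finite.of_restrictScalars_finite F E V
  obtain ⟨U, -, u1, u2⟩ := quad_le X.qE X.sepE X.two' (nondegOn_top X.sepE) a (by simp; omega)
  obtain ⟨U', -, u3, -, u4, u5⟩ := exists_orth_compl X.qE X.sepE (nondegOn_top X.sepE) u1 le_top
  obtain ⟨v, v1, v2, v3⟩ := X.exists_line u3 (by simp at u5; omega)
    (Pl B Q (U.restrictScalars F) ↔ η)
  obtain ⟨h1, h2⟩ := nondegOn_sup_span X.qE u1 v2 fun x hx => u4 x hx v v1
  refine ⟨_, h1, u2 ▸ h2, ?_⟩
  rw [X.pl_sup' u1 (IsForm.nondegOn_span_singleton v2) (orth_span fun x hx => u4 x hx v v1), v3]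
  tauto

theorem exists_plane (W : Submodule F V) (h1 : NondegOn B W) (h2 : ∀ x ∈ W, J • x ∈ W)
    (h3 : 2 < finrank F W) (η : Prop) : ∃ P ≤ W, NondegOn B P ∧ (∀ x ∈ P, J • x ∈ P) ∧
      finrank F P = 2 ∧ (Pl B Q P ↔ η) := by
  let W' : Submodule E V :=
    { W.toAddSubmonoid with
      smul_mem' := fun k x hx => by
        obtain ⟨a, a', rfl⟩ := exists_coord X.rk X.ne k
        rw [add_smul, smul_assoc, smul_assoc, one_smul]
        exact W.add_mem (W.smul_mem _ hx) (W.smul_mem _ (h2 x hx)) }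
  have h4 : finrank F W = 2 * finrank E W' := X.rk_res W'
  obtain ⟨v, v1, v2, v3⟩ := X.exists_line (W := W') (fun x hx H => h1 x hx fun y hy =>
    X.orth (H y hy)) (by omega) η
  exact ⟨_, (Submodule.span_singleton_le_iff_mem v W').mpr v1,
    X.nd (IsForm.nondegOn_span_singleton v2), fun x hx => (E ∙ v).smul_mem J hx, by
      rw [X.rk_res, finrank_span_singleton (by rintro rfl; simp at v2)], v3⟩

theorem nrm_invol {s : Isom B Q} (hs : s * s = 1) {W : Submodule E V}
    (hW : movS s.1 = W.restrictScalars F) : NrmE E s.1 := by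
  refine nrm_of_comm X.rk X.ne (ε := 1) fun v => ?_
  obtain ⟨a, ha, f, hf, rfl⟩ := Submodule.mem_sup.mp
    ((invol_data X.q X.sep X.two hs).2.2.2.1 ▸ Submodule.mem_top : v ∈ movS s.1 ⊔ H11.fixS s.1)
  have h1 : J • a ∈ movS s.1 := hW ▸ W.smul_mem J (by rwa [hW] at ha)
  have h2 : J • f ∈ H11.fixS s.1 := by
    rw [← X.q.perp_movS X.sep s.2] at hf ⊢
    intro x hx
    rw [← X.adj]
    exact hf _ (hW ▸ W.smul_mem J (by rwa [hW] at hx))
  rw [smul_add, map_add, map_add, (mem_movS_invol hs X.two).mp ha, (mem_movS_invol hs X.two).mp h1,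
    H11.mem_fixS.mp hf, H11.mem_fixS.mp h2]
  simp

variable {d : ℕ} (hm : finrank F V = 2 * d) (hd : 3 ≤ d)
include hm hd

omit [Finite E] hd in
theorem rkE : finrank E V = d := by
  have : FiniteDimensional F E := Module.finite_of_finrank_pos (by have := X.rk; omega)
  have := Module.finrank_mul_finrank F E V
  rw [X.rk, hm] at this
  omega

variable {H : Subgroup (Isom B Q)} (hH : ∀ y, y ∈ H ↔ NrmE E y.1)
include hH

theorem elu_two : EluP (commutator (Isom B Q)) 2 fun y =>
    ∃ g ∈ commutator (Isom B Q), g⁻¹ * y * g ∈ H := by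
  have := finite_of_algebra F E
  have : Nontrivial V := Module.nontrivial_of_finrank_pos (R := F) (by omega)
  rintro y hy ⟨z, hz⟩ h1
  have h3 : ∀ v, y.1 (y.1 v) = z • v := fun v => by rw [← hz, pow_two]; rfl
  rcases mul_self_eq_one_iff.mp (norm_of_scalar X.sep hz) with rfl | rfl
  · have h4 : y * y = 1 := Subtype.ext (LinearEquiv.ext (by simpa using h3))
    obtain ⟨k, hk, -⟩ := (invol_mem_iff X.q X.sep X.two h4).mp hy
    obtain ⟨a1, -, -, -, a2, a3, a4⟩ := invol_data X.q X.sep X.two h4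
    have a5 := a3.mp fun e => h1 1 (by simp [e])
    have a6 := a4.mp (by simpa using h1 (-1))
    obtain ⟨k, rfl⟩ : ∃ k', k = k' + 1 := ⟨k - 1, by omega⟩
    obtain ⟨W, w1, w2, w3⟩ := X.exists_sub (a := k) (by rw [X.rkE hm]; omega) (Pl B Q (movS y.1))
    have w4 := X.rk_res W
    obtain ⟨g, hg⟩ := exists_map_of_pl X.q X.sep (X.nd w1) a1 (by simp [w4]) (by omega) w3
    have h5 : movS (g⁻¹ * y * g).1 = W.restrictScalars F := Submodule.map_injective_of_injective
      (f := g.1.toLinearMap) g.1.injective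
      ((map_movS_conj (g := g⁻¹ * y * g) (k := g) (g' := y) (by group)).trans hg.symm)
    have h6 : g⁻¹ * y * g * (g⁻¹ * y * g) = 1 := pow_two (g⁻¹ * y * g) ▸ conj_pow_eq_one (pow_two y ▸ h4) g
    obtain ⟨t, t1, t2⟩ := X.q.exists_mul_mem_of_nondeg X.sep (X.q.nonExc_of_finrank X.sep (by omega))
      (X.nd w1) (by omega) (Subgroup.centralizer {g⁻¹ * y * g}) (fun v hv _ => by
        rw [Subgroup.mem_centralizer_singleton_iff, eq_comm, ← mul_inv_eq_iff_eq_mul,
          X.q.conj_reflO, (mem_movS_invol h6 X.two).mp (h5 ▸ hv), ← neg_one_smul F v,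
          X.q.reflO_smul (by simp)]) g
    refine ⟨_, t2, (hH _).mpr ?_⟩
    rw [show (g * t)⁻¹ * y * (g * t) = t⁻¹ * (g⁻¹ * y * g * t) by group,
      ← Subgroup.mem_centralizer_singleton_iff.mp t1, inv_mul_cancel_left]
    exact X.nrm_invol h6 h5
  · obtain ⟨g, g1, g2⟩ := exists_conj_anti X.q X.sep X.two hm hd (T := DistribSMul.toLinearMap F V J)
      (X.adj J) X.nsq (fun v => by simp [smul_smul, ← X.sq])
      (fun W a1 a2 a3 => X.exists_plane W a1 a2 a3 _) (y := y) (by simpa using h3)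
    exact ⟨g, g1, (hH _).mpr (nrm_of_comm X.rk X.ne g2)⟩

theorem not_elu {p : ℕ} [hp : Fact p.Prime] [CharP F p] [hr : Fact r.Prime] (e : r ≠ 2)
    (hΩ : r ∣ H.relIndex (commutator (Isom B Q))) : ¬ EluP (commutator (Isom B Q)) r fun y =>
      ∃ g ∈ commutator (Isom B Q), g⁻¹ * y * g ∈ H := fun hE => by
  classical
  have := finite_of_algebra F E
  have : Module.Finite E V := Module.Finite.of_restrictScalars_finite F E V
  have : CharP E p := charP_of_injective_algebraMap (algebraMap F E).injective p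
  have ho := hr.out.odd_of_ne_two e
  have h6 : ∀ x y, Algebra.trace F E (1 * b x y) = B x y := by simpa using X.tr
  have key : ∀ y : Isom B Q, y ^ r = 1 → 0 < finrank F (movS y.1) →
      ∃ y' : Isom b fun x => b x x / 2, y' ^ r = 1 ∧
        finrank F (movS y.1) = 2 * finrank E (movS y'.1) := fun y h1 h2 => by
    have hy : y ∈ commutator (Isom B Q) := by
      obtain ⟨k, hk⟩ := ho
      rw [show y = y ^ (k + 1) * y ^ (k + 1) by
        rw [← pow_add, show k + 1 + (k + 1) = r + 1 by omega, pow_succ, h1, one_mul]]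
      exact X.q.mul_self_mem_commutator X.sep (X.q.nonExc_of_finrank X.sep (by omega)) _
    rcases elu_key X.sep hH hE hy h1 rfl h2 (.inl ho) with ⟨y', a1, a2, a3, -⟩ | ⟨-, a⟩
    · exact ⟨⟨y', isom_of_form X.qE X.two' (isom_lift one_ne_zero h6 a2)⟩, Subtype.ext a1,
        X.rk ▸ a3⟩
    · exact absurd (X.rk ▸ (Nat.coprime_primes hr.out Nat.prime_two).mpr e) a
  by_cases ep : r = p
  · subst ep
    obtain ⟨y, y1, y2, y3⟩ := exists_unip X.q X.sep (by omega) r
    obtain ⟨y', a1, a2⟩ := key y y1 y2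
    obtain ⟨v, -, rfl⟩ := X.qE.eq_reflO_of_finrank_movS X.sepE y' (by omega)
    obtain ⟨k, hk⟩ := ho
    rw [hk, pow_succ, pow_mul, pow_two, X.qE.reflO_mul_self, one_pow, one_mul] at a1
    rw [a1, finrank_movS_eq_zero (F := E).mpr (by rfl)] at a2
    omega
  have := finite_isom B Q
  have := finite_isom b fun x => b x x / 2
  have h7 := card_dvd_of_index h6 (R := fun x => b x x / 2)
    (fun g hg x => by rw [X.Q_eq, X.Q_eq, hg.1]) hH (hΩ.trans (relIndex_dvd_index _ _))
  have O := od_id (F := F) hr.out e ep rfl rfl rfl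
  obtain ⟨y, y1, y2⟩ := exists_min O X.q X.sep par_quad (fun a => O.adm_even X.q (by
    split_ifs with a <;> simp [a]) X.sep ⟨d, by omega⟩ (by omega) (by omega))
    ((Dvd.intro _ rfl).trans h7)
  obtain ⟨y', a1, a2⟩ := key y y1 (y2 ▸ O.pos.2.2)
  obtain ⟨j, a4⟩ := (od_id (F := E) hr.out e ep rfl rfl rfl).exists_finrank_movS X.qE X.sepE a1
  have hE2 : Nat.card E = Nat.card F ^ 2 := by rw [Module.natCard_eq_pow_finrank (K := F), X.rk]
  rw [y2, a4, hE2, Nat.cast_pow, orderOf_pow' _ two_ne_zero] at a2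
  have h8 : ∀ n, r ∣ Nat.card F ^ (2 * n) - 1 → 2 ∣ n := fun n hn =>
    arith_sp Nat.prime_two O.pos.1 a2 n ((dvd_sub_iff Nat.card_pos _).mp hn)
  have h9 : ∀ n, ¬ r ∣ 2 * Nat.card F ^ n := fun n a => (hr.out.dvd_mul.mp a).elim
    (fun a => e ((Nat.prime_dvd_prime_iff_eq hr.out Nat.prime_two).mp a)) (not_dvd_card hr.out ep n)
  refine Dv.not ?_ Nat.card_pos.ne' h7
  have hn := X.rkE hm
  obtain ⟨ν, rfl | rfl⟩ := Nat.even_or_odd' d
  · obtain ⟨ν, rfl⟩ : ∃ ν', ν = ν' + 1 := ⟨ν - 1, by omega⟩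
    rw [card_O_even X.q X.sep (ν := 2 * ν + 1) hm, card_O_even X.qE X.sepE hn, hE2,
      ← X.pl_match (by simp [hn]), ← pow_mul, PP_succ]
    refine ((((dv_PP hr.out two_pos h8 ν).mul_not hr.out fun a => ?_).mul hr.out
      (Dv.of_dvd hr.out dvd_rfl)).mul_not hr.out (h9 _)).trans_dvd (Dvd.intro _ rfl)
    have := h8 _ a
    omega
  · rw [card_O_even X.q X.sep (ν := 2 * ν) hm, card_O_odd X.qE X.sepE hn, hE2]
    refine (((dv_PP hr.out two_pos h8 ν).mul_not hr.out fun a => ?_).mul_not hr.out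
      (h9 _)).trans_dvd (Dvd.intro _ rfl)
    have := h8 (2 * ν + 1) (a.trans (by
      rw [mul_comm 2 (2 * ν + 1), pow_mul, show (Nat.card F ^ (2 * ν + 1)) ^ 2 - 1 = _ from
        Nat.sq_sub_sq _ 1]
      split_ifs
      exacts [Dvd.intro_left _ rfl, Dvd.intro _ rfl]))
    omega

end Ex

theorem o_mat {ι : Type} [Fintype ι] [DecidableEq ι] [Finite E]
    {B : (ι → F) →ₗ[F] (ι → F) →ₗ[F] F} {Q : (ι → F) → F} (h : IsQuad B Q) (hB : B.SeparatingLeft)
    (h2 : (2 : F) ≠ 0) {d : ℕ} (hm : finrank F (ι → F) = 2 * d) (hd : 3 ≤ d) (p : ℕ) [Fact p.Prime]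
    [CharP F p] [Fact r.Prime] (φ : E →ₐ[F] Matrix ι ι F) (hk : finrank F E = 2)
    (ha : Geo.IsSelfAdjointFor (QuadraticMap.polar Q) φ.range)
    (hΩ : r ∣ (Geo.subalgebraNormalizer φ.range).relIndex (Geo.omegaGL Q)) :
    (∀ x ∈ Geo.omegaGL Q, (∃ z : F, (x ^ r).1 = z • 1) → (∀ z : F, x.1 ≠ z • 1) →
      ∃ g ∈ Geo.omegaGL Q, g⁻¹ * x * g ∈ Geo.subalgebraNormalizer φ.range) ↔ r = 2 := by
  obtain ⟨e1, e2⟩ := eluP_gl (r := r) (H := Geo.subalgebraNormalizer φ.range) (K := Geo.omegaGL Q)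
    (B := B) (Q := Q) (G := commutator _) fun g => ⟨by
      rintro ⟨x, hx, rfl⟩
      exact ⟨(oEquiv h x).2, (mem_Omega_iff h x).mp hx⟩, fun ⟨a, b⟩ =>
        ⟨(oEquiv h).symm ⟨_, a⟩, (mem_Omega_iff h _).mpr (by simpa using b), (glEquiv ι F).injective
          (by rw [Subgroup.coe_subtype, ← oEquiv_coe h, MulEquiv.apply_symm_apply])⟩⟩
  rw [e2]
  rw [e1] at hΩ
  letI : Module E (ι → F) := EV.instModE φ
  have : IsScalarTower F E (ι → F) := EV.instTower φ
  simp only [Geo.IsSelfAdjointFor, h.polar_eq] at ha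
  obtain ⟨b, J, c, X⟩ := exists_ex (E := E) h hB h2 hk fun k => ha _ ⟨k, rfl⟩
  exact ⟨fun H => by_contra fun e => X.not_elu hm hd (mem_comap_iff φ) (p := p) e hΩ H, by
    rintro rfl; exact X.elu_two hm hd (mem_comap_iff φ)⟩

end Cfsg.Agent.H18.Fe
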