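import Mathlib
import Cfsg.Agent.H10.SubfieldGroups
import Cfsg.Agent.H18.Li3

/-! Elements of prime order and subfield subgroups. -/

set_option autoImplicit false

namespace Cfsg.Agent.H18.El

open Module Polynomial H11 L0 H10 Geo

universe u

variable {F : Type u} [Field F] {ι : Type} [Fintype ι] [DecidableEq ι] {r : ℕ} {K : Subfield F}

theorem rank_map' {K F m : Type*} [Field K] [Field F] [Fintype m] [DecidableEq m]
    (f : K →+* F) (A : Matrix m m K) : (A.map f).rank = A.rank := by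
  classical
  obtain ⟨L, L', D, h⟩ := Matrix.Pivot.exists_list_transvec_mul_diagonal_mul_list_transvec A
  have h1 := Matrix.TransvectionStruct.det_toMatrix_prod L
  have h2 := Matrix.TransvectionStruct.det_toMatrix_prod L'
  have h3 : ∀ {X : Matrix m m K}, X.det = 1 → (X.map f).det ≠ 0 := fun {X} hX => by
    have := f.map_det X
    rw [hX, map_one, RingHom.mapMatrix_apply] at this
    rw [← this]; exact one_ne_zero
  rw [h, Matrix.map_mul, Matrix.map_mul, Matrix.rank_mul_eq_left_of_det_ne_zero _ _ (h3 h2),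
    Matrix.rank_mul_eq_right_of_det_ne_zero _ _ (h3 h1),
    Matrix.rank_mul_eq_left_of_det_ne_zero _ _ (h2 ▸ one_ne_zero),
    Matrix.rank_mul_eq_right_of_det_ne_zero _ _ (h1 ▸ one_ne_zero),
    Matrix.diagonal_map (map_zero f), Matrix.rank_diagonal, Matrix.rank_diagonal]
  simp

theorem mem_iff_pow [Finite F] {x : F} : x ∈ K ↔ x ^ Nat.card K = x := by
  have := Fintype.ofFinite K
  have h1 := FiniteField.roots_X_pow_card_sub_X K
  have h2 : (X ^ Fintype.card K - X : K[X]).Splits := by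
    rw [splits_iff_card_roots, h1, FiniteField.X_pow_card_sub_X_natDegree_eq _ Fintype.one_lt_card]
    rfl
  have := h1 ▸ h2.roots_map K.subtype ▸ Multiset.mem_map (b := x)
  simpa [sub_eq_zero, iff_comm, FiniteField.X_pow_card_sub_X_ne_zero F Fintype.one_lt_card]

/-- Extension of scalars. -/
abbrev ex (K : Subfield F) : Matrix ι ι K →+* Matrix ι ι F := K.subtype.mapMatrix

theorem ex_inj : Function.Injective (ex K : Matrix ι ι K → _) :=
  Matrix.map_injective K.subtype.injective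

theorem ex_smul (c : K) (y : Matrix ι ι K) : ex K (c • y) = (c : F) • ex K y := by
  ext; simp

theorem mem_sub {h : GL ι F} : h ∈ subfieldSubgroup K 1 ↔
    ∃ (c : F) (y : GL ι K), c ≠ 0 ∧ h.1 = c • ex K y.1 := by
  refine ⟨?_, fun ⟨c, y, h1, h2⟩ => ⟨h, Subgroup.mem_sup_of_normal_right.mpr ⟨_, ⟨y, rfl⟩,
    Units.map (Matrix.scalar ι : F →+* _).toMonoidHom (Units.mk0 c h1), ⟨_, rfl⟩,
      Units.ext ?_⟩, by simp⟩⟩
  · rintro ⟨g, hg, rfl⟩
    obtain ⟨_, ⟨y, rfl⟩, z, hz, rfl⟩ := Subgroup.mem_sup_of_normal_right.mp hg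
    obtain ⟨c, hc⟩ := (mem_scalars_iff z).mp hz
    exact ⟨c, y, c.ne_zero, by simp [hc]⟩
  · simp [h2, Matrix.scalar_apply, ← Matrix.smul_one_eq_diagonal]

theorem scalars_le_sub : scalars ι F ≤ subfieldSubgroup K 1 := fun h hh => by
  obtain ⟨c, hc⟩ := (mem_scalars_iff h).mp hh
  exact mem_sub.mpr ⟨c, 1, c.ne_zero, by simpa using hc⟩

theorem map_mem_sub (y : GL ι K) :
    Matrix.GeneralLinearGroup.map K.subtype y ∈ subfieldSubgroup K 1 :=
  mem_sub.mpr ⟨1, y, one_ne_zero, (one_smul ..).symm⟩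

theorem ti_ex {g : End F (ι → F)} (y : Matrix ι ι K) (hy : IsUnit y) (h : ty (ex K y) = tyE g) :
    TI (subfieldSubgroup K 1) g := by
  obtain ⟨y, rfl⟩ := hy
  exact ⟨_, map_mem_sub y, h⟩

theorem TI.exists_ex [Nonempty ι] {g : End F (ι → F)} (h : TI (subfieldSubgroup K 1) g) {z : F}
    (hg : g ^ r = z • 1) : ∃ (c : F) (w : K) (y : GL ι K), c ≠ 0 ∧ w ≠ 0 ∧ c ^ r * z = w ∧
      y.1 ^ r = w • 1 ∧ ty (ex K y.1) = tyE (c • g) := by
  obtain ⟨h, h1, h2⟩ := h
  obtain ⟨c, y, h3, h4⟩ := mem_sub.mp h1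
  have h5 : ty (ex K y.1) = tyE (c⁻¹ • g) := by
    rw [← tyE_smul_congr h2, ← map_smul, h4, inv_smul_smul₀ h3, ty]
  have h6 : ex K (y.1 ^ r) = (c⁻¹ ^ r * z) • 1 := by
    have := pow_congr h5 (k := r) (z := c⁻¹ ^ r * z) (by rw [_root_.smul_pow, hg, smul_smul])
    rw [← Matrix.toLin'_pow, ← map_pow] at this
    exact Matrix.toLin'.injective (this.trans (by rw [map_smul, Matrix.toLin'_one]; rfl))
  obtain ⟨i⟩ := ‹Nonempty ι›
  have h7 : c⁻¹ ^ r * z = (y.1 ^ r) i i := by simpa using (congrFun₂ h6 i i).symm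
  have h8 : y.1 ^ r = (y.1 ^ r) i i • 1 := ex_inj (by rw [h6, ex_smul, map_one, h7])
  refine ⟨c⁻¹, _, y, inv_ne_zero h3, fun e => ?_, h7, h8, h5⟩
  rw [e, zero_smul, ← Units.val_pow_eq_pow_val] at h8
  exact (y ^ r).ne_zero h8

theorem exists_pow_of [Finite F] [Fact r.Prime] (h : ¬ r ∣ Nat.card F - 1) (w : F) :
    ∃ d, d ^ r = w := by
  by_cases e : w = 0
  · exact ⟨0, by simp [e, (Fact.out : r.Prime).ne_zero]⟩
  · by_contra h1
    exact h (dvd_of_nonpow e fun d e => h1 ⟨d, e⟩)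

theorem TI.norm [Nonempty ι] {g : End F (ι → F)} (h : TI (subfieldSubgroup K 1) g)
    (hg : g ^ r = 1) (hr : ∀ w : K, ∃ d, d ^ r = w) (h0 : r ≠ 0) :
    ∃ (d : F) (y : Matrix ι ι K), d ^ r = 1 ∧ y ^ r = 1 ∧ ty (ex K y) = tyE (d • g) := by
  obtain ⟨c, w, y, h1, h2, h3, h4, h5⟩ := h.exists_ex (r := r) (z := 1) (by simpa using hg)
  obtain ⟨d, rfl⟩ := hr w
  have h6 : d ≠ 0 := fun e => h2 (by simp [e, h0])
  refine ⟨d⁻¹ * c, d⁻¹ • y.1, ?_, ?_, ?_⟩
  · rw [mul_pow, ← mul_one (c ^ r), h3]; simp [h6]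
  · rw [_root_.smul_pow, h4, smul_smul]; simp [h6]
  · rw [ex_smul, ty, map_smul, mul_smul]; exact tyE_smul_congr h5 _

theorem not_ti_ns [Nonempty ι] (hr : ∀ w : K, ∃ d : F, d ^ r = w) (g : End F (ι → F)) (z : F)
    (_ : z ≠ 0) (hg : g ^ r = z • 1) (h : ∀ w, w ^ r ≠ z) : ¬ TI (subfieldSubgroup K 1) g := by
  intro H
  obtain ⟨c, w, -, h1, -, h2, -⟩ := H.exists_ex hg
  obtain ⟨d, hd⟩ := hr w
  exact h (d / c) (by rw [div_pow, hd, ← h2, mul_div_cancel_left₀ _ (pow_ne_zero _ h1)])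

theorem ti_of_lifts [Finite F] {g : End F (ι → F)} (h1 : ∀ u ∈ tyE g, Irreducible u)
    (h2 : LinearMap.det g ≠ 0) (h3 : (tyE g).prod ∈ lifts K.subtype) :
    TI (subfieldSubgroup K 1) g := by
  obtain ⟨p, hp⟩ := CharP.exists F
  have := Fact.mk (CharP.char_is_prime F p)
  obtain ⟨A, rfl⟩ := Matrix.toLin'.surjective g
  rw [← ty, ← charpoly_eq_prod_ty] at h3
  obtain ⟨f, h4, h5, h6⟩ := lifts_and_natDegree_eq_and_monic h3 A.charpoly_monic
  obtain ⟨y, h7, rfl⟩ := exists_semis_of_monic (n := ι) h6 (by simp [h5])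
  rw [← Matrix.charpoly_map] at h4
  obtain ⟨y, rfl⟩ : IsUnit y := (Matrix.isUnit_iff_isUnit_det y).mpr (Ne.isUnit fun e => h2 (by
    rw [LinearMap.det_toLin', Matrix.det_eq_sign_charpoly_coeff, ← h4,
      ← Matrix.det_eq_sign_charpoly_coeff, ← RingHom.mapMatrix_apply, ← RingHom.map_det, e,
      map_zero]))
  exact ti_ex _ y.isUnit (ty_eq_of_charpoly (fun u => irreducible_of_pow_eq_one
    (g := Matrix.GeneralLinearGroup.map K.subtype y) ((coprime_orderOf_iff p y).mpr h7)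
    (by rw [← map_pow, pow_orderOf_eq_one, map_one])) h1 h4)

theorem rank_unip {A : Matrix ι ι F} {μ : Multiset ℕ} (h : ty A = μ.map fun j => (X - 1) ^ j)
    (k : ℕ) : ((A - 1) ^ k).rank + (μ.map (min k)).sum = Fintype.card ι := by
  rw [← rank_aeval_add A ((X - 1) ^ k), aeval_X_sub_one_pow, h, Multiset.map_map]
  simp [gd_pow_pow irr_X_sub_one.ne_zero, natDegree_X_sub_one]

theorem ty_ex_unip {A : Matrix ι ι F} {y : Matrix ι ι K} {μ : Multiset ℕ} (h0 : ∀ j ∈ μ, 0 < j)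
    (h : ty A = μ.map fun j => (X - 1) ^ j) (h' : ty y = μ.map fun j => (X - 1) ^ j) :
    ty (ex K y) = ty A := by
  have : ∀ {F : Type u} [Field F] {A : Matrix ι ι F}, (ty A = μ.map fun j => (X - 1) ^ j) →
      IsNilpotent (A - 1) := fun h => (isNilpotent_sub_one_iff _).mpr fun u hu => by
    obtain ⟨j, h1, rfl⟩ := Multiset.mem_map.mp (h ▸ hu)
    exact ⟨j, h0 j h1, rfl⟩
  refine ty_eq_of_unip_rank (by rw [← map_one (ex K), ← map_sub]; exact (this h').map _) (this h) fun k => ?_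
  have h1 := rank_unip h k
  have h2 := rank_unip h' k
  rw [← rank_map' K.subtype, ← RingHom.mapMatrix_apply, map_pow, map_sub, map_one] at h2
  exact Nat.add_right_cancel (h2.trans h1.symm)

theorem exists_unip_ex (p : ℕ) [hp : Fact p.Prime] [CharP F p] {g : End F (ι → F)}
    (hg : g ^ p = 1) : ∃ y : GL ι K, ty (ex K y.1) = tyE g ∧
      ty y.1 = (dm g).map fun j => (X - 1) ^ j := by
  obtain ⟨h1, h2⟩ := ty_unip p hg
  obtain ⟨y, hy⟩ := exists_gl_ty_eq (n := ι) (F := K) (exists_unip (V := ι → K) p h1).1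
    (fun u hu => by
      obtain ⟨j, -, rfl⟩ := Multiset.mem_map.mp hu
      exact not_X_dvd_X_sub_one_pow j)
    (by simpa [Multiset.map_map, natDegree_X_sub_one] using sum_dm g)
  obtain ⟨A, rfl⟩ := Matrix.toLin'.surjective g
  exact ⟨y, ty_ex_unip (fun j hj => (h1 j hj).1) h2 hy, hy⟩

theorem ti_char [Finite F] [Nonempty ι] (p : ℕ) [hp : Fact p.Prime] [CharP F p]
    (g : End F (ι → F)) (hd : LinearMap.det g = 1) (hg : PE p g) :
    TI (subfieldSubgroup K 1) g := by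
  obtain ⟨c, h1, h2, -⟩ := pe_char p (by simp [Fintype.card_pos]) (by simp [hd]) hg
  obtain ⟨y, hy, -⟩ := exists_unip_ex (K := K) p h2
  exact .smul scalars_le_sub g c h1 (ti_ex _ y.isUnit hy)

theorem ti_of_ord [Finite F] [hr : Fact r.Prime] (h0 : (r : F) ≠ 0)
    (h : orderOf ((Nat.card F : ℕ) : ZMod r) = orderOf ((Nat.card K : ℕ) : ZMod r))
    {g : End F (ι → F)} (hg : g ^ r = 1) : TI (subfieldSubgroup K 1) g := by
  refine ti_of_lifts (fun u hu => (irrD_of_mem h0 hg hu).1) (fun e => ?_)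
    (multiset_prod_mem _ fun u hu => ?_)
  · have := congrArg LinearMap.det hg
    simp [e, hr.out.ne_zero] at this
  have h1 := irrD_of_mem h0 hg hu
  by_cases e : u = X - 1
  · exact ⟨X - 1, by simp [e]⟩
  obtain ⟨s, h2, h3⟩ := exists_multiset_prod_eq (monic_X_pow_sub_C (1 : K) hr.out.ne_zero)
  obtain ⟨_, h4, h5⟩ := h1.1.prime.exists_mem_multiset_dvd (s := s.map (Polynomial.map K.subtype))
    (by rw [← Polynomial.map_multiset_prod, h3]; simpa using h1.2.2)
  obtain ⟨v, h6, rfl⟩ := Multiset.mem_map.mp h4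
  have h7 : IrrD r v := ⟨(h2 v h6).1, (h2 v h6).2, by simpa [h3] using Multiset.dvd_prod h6⟩
  refine ⟨v, eq_of_monic_of_dvd_of_natDegree_le h1.2.1 (h7.2.1.map _) h5 ?_⟩
  rw [coe_mapRingHom, natDegree_map, IrrD.deg hr.out h1 e, IrrD.deg hr.out h7, h]
  rintro rfl
  exact e (eq_X_sub_one_of_dvd h1.1 h1.2.1 (by simpa using h5))

theorem prod_lin_lifts [Finite F] {m : Multiset F} :
    (lin m).prod ∈ lifts K.subtype ↔ m.map (· ^ Nat.card K) = m := by
  have := Fintype.ofFinite K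
  have h1 : (lin m).prod.map (FiniteField.frobeniusAlgHom K F : F →+* F) =
      (lin (m.map (· ^ Nat.card K))).prod := by
    simp [lin, Polynomial.map_multiset_prod, Multiset.map_map]
  have h2 : (lin m).prod ∈ lifts K.subtype ↔
      (lin m).prod.map (FiniteField.frobeniusAlgHom K F : F →+* F) = (lin m).prod := by
    rw [lifts_iff_coeff_lifts, Polynomial.ext_iff]
    refine forall_congr' fun i => ?_
    rw [coeff_map, Subfield.coe_subtype, Subtype.range_coe, SetLike.mem_coe, mem_iff_pow,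
      Nat.card_eq_fintype_card]; rfl
  rw [h2, h1]
  refine ⟨fun h => ?_, fun h => by rw [h]⟩
  have := congrArg roots h
  rwa [lin, lin, roots_multiset_prod_X_sub_C, roots_multiset_prod_X_sub_C] at this

theorem TI.frob [Finite F] [Nonempty ι] [hr : Fact r.Prime] (hK : ¬ r ∣ Nat.card K - 1)
    {g : End F (ι → F)} {m : Multiset F} (hg : g ^ r = 1) (hm : tyE g = lin m)
    (h : TI (subfieldSubgroup K 1) g) :
    ∃ d : F, d ^ r = 1 ∧ (m.map (d * ·)).map (· ^ Nat.card K) = m.map (d * ·) := by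
  obtain ⟨d, y, h1, -, h2⟩ := h.norm hg (exists_pow_of hK) hr.out.ne_zero
  refine ⟨d, h1, (prod_lin_lifts (K := K)).mp ⟨y.charpoly, ?_⟩⟩
  rw [← lin_smul hm, ← h2, ← charpoly_eq_prod_ty]
  exact (Matrix.charpoly_map ..).symm

theorem not_dvd_sub [Finite F] [hr : Fact r.Prime] (h0 : (r : F) ≠ 0) {k n : ℕ}
    (hk : Nat.card F = Nat.card K ^ k) (h1 : (k : ZMod r) ≠ 0)
    (h2 : ∀ i, ((Nat.card K : ℕ) : ZMod r) ^ (i * k) = 1 → ((Nat.card K : ℕ) : ZMod r) ^ i = 1) :
    ¬ r ∣ (subfieldSubgroup K 1).relIndex (specialLinear (Fin n) F) := by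
  obtain ⟨e, he⟩ := card_GL_int (F := F) n
  obtain ⟨e', he'⟩ := card_GL_int (F := K) n
  refine not_dvd_rel (Matrix.GeneralLinearGroup.map K.subtype) (fun a b e => Units.ext
    (ex_inj (congrArg Units.val e))) map_mem_sub (t := (Nat.card K : ℤ) ^ e')
    (s := (Nat.card F : ℤ) ^ e * ∏ i ∈ Finset.range n,
      ∑ j ∈ Finset.range k, ((Nat.card K : ℤ) ^ (i + 1)) ^ j) ?_ ?_
  · rw [he, he', mul_mul_mul_comm, ← Finset.prod_mul_distrib, mul_right_comm, mul_comm (_ ^ e)]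
    congr 1
    exact Finset.prod_congr rfl fun i _ => by
      rw [mul_geom_sum, hk, Nat.cast_pow, ← pow_mul, ← pow_mul, mul_comm]
  push_cast
  refine mul_ne_zero (pow_ne_zero _ (card_ne_zero h0)) (Finset.prod_ne_zero_iff.mpr fun i _ e => ?_)
  have h3 := h2 (i + 1) (by rw [pow_mul, ← sub_eq_zero, ← mul_geom_sum, e, mul_zero])
  simp [h3, h1] at e

theorem not_dvd_sub_two [Finite F] [hr : Fact r.Prime] (h2 : r ≠ 2)
    (hk : Nat.card F = Nat.card K ^ 2) (h1 : ((Nat.card K : ℕ) : ZMod r) = -1) :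
    ¬ r ∣ (subfieldSubgroup K 1).relIndex (specialLinear (Fin 2) F) := by
  have := Fintype.ofFinite F
  have := Fintype.ofFinite K
  rw [← idx_sl]
  refine not_dvd_idx (Matrix.SpecialLinearGroup.map K.subtype) (fun a b e => Subtype.ext
    (ex_inj (congrArg Subtype.val e))) (fun y => mem_sub.mpr ⟨1, y.toGL, one_ne_zero,
      (one_smul ..).symm⟩) (t := 1) (s := Nat.card K * (Nat.card K ^ 2 + 1)) ?_ ?_
  · rw [card_SL_two, card_SL_two, ← Nat.card_eq_fintype_card, ← Nat.card_eq_fintype_card, hk]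
    push_cast [Nat.cast_sub (Nat.one_le_pow 2 _ (Nat.card_pos (α := K))),
      Nat.cast_sub (Nat.card_pos (α := K))]
    ring
  · have : (2 : ZMod r) ≠ 0 := cast_ne_zero (F := ZMod r) (r := 2) h2.symm
    push_cast
    rw [h1]; norm_num; exact this

theorem rank_of_ty {A : Matrix ι ι F} {a : ℕ} {B : Multiset F[X]}
    (h : ty A = Multiset.replicate a (X - 1) + B) (hB : ∀ u ∈ B, IrrD r u ∧ u ≠ X - 1) :
    (A - 1).rank = dg B := by
  have h1 := rank_aeval_add A (X - 1)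
  have h2 := sum_natDegree_ty A
  rw [h, Multiset.map_add, Multiset.sum_add, Multiset.map_replicate, Multiset.sum_replicate] at h1 h2
  rw [gd_of_dvd_left irr_X_sub_one.ne_zero dvd_rfl, Multiset.sum_eq_zero (s := B.map _)
    fun x hx => ?_] at h1
  · simp only [map_sub, aeval_X, map_one] at h1; unfold dg; omega
  · obtain ⟨u, hu, rfl⟩ := Multiset.mem_map.mp hx
    exact gd_of_isCoprime (hB u hu).1.1.ne_zero (isCoprime_of_ne irr_X_sub_one monic_X_sub_one
      (hB u hu).1.1 (hB u hu).1.2.1 (hB u hu).2.symm)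

theorem ord_dvd_rank [Finite F] (hr : r.Prime) (h0 : (r : F) ≠ 0) {A : Matrix ι ι F}
    (h : A ^ r = 1) : orderOf ((Nat.card F : ℕ) : ZMod r) ∣ (A - 1).rank := by
  obtain ⟨a, B, h1, h2⟩ := ty_split h0 (g := Matrix.toLin' A) (by simp [← Matrix.toLin'_pow, h]; rfl)
  rw [rank_of_ty h1 h2, dg_const fun u hu => IrrD.deg hr (h2 u hu).1 (h2 u hu).2]
  exact Dvd.intro _ rfl

theorem exists_small [Finite F] [hr : Fact r.Prime] (h0 : (r : F) ≠ 0) (h1 : ¬ r ∣ Nat.card F - 1)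
    {V : Type*} [AddCommGroup V] [Module F V] [FiniteDimensional F V]
    (h : orderOf ((Nat.card F : ℕ) : ZMod r) ≤ finrank F V) : ∃ (g : End F V) (a : ℕ) (u : F[X]),
      LinearMap.det g = 1 ∧ g ^ r = 1 ∧ PE r g ∧ IrrD r u ∧ u ≠ X - 1 ∧
      u.natDegree = orderOf ((Nat.card F : ℕ) : ZMod r) ∧ a + u.natDegree = finrank F V ∧
      tyE g = Multiset.replicate a (X - 1) + {u} := by
  obtain ⟨u, h2, h3⟩ := exists_irrD hr.out h0
  have h4 := IrrD.deg hr.out h2 h3
  obtain ⟨g, h5, h6, h7, h8⟩ := exists_sl_of_ty (V := V) h1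
    (s := Multiset.replicate (finrank F V - u.natDegree) (X - 1) + {u}) (fun v hv => by
      rcases Multiset.mem_add.mp hv with h | h
      exacts [Multiset.eq_of_mem_replicate h ▸ irrD_X_sub_one, Multiset.mem_singleton.mp h ▸ h2])
    ⟨u, by simp, h3⟩ (by simp [dg, natDegree_X_sub_one]; omega)
  exact ⟨g, _, u, h5, h6, h7, h2, h3, h4, by omega, h8⟩

theorem card_sub_dvd {k : ℕ} (hk : Nat.card F = Nat.card K ^ k) :
    Nat.card K - 1 ∣ Nat.card F - 1 := by
  simpa [hk] using Nat.sub_dvd_pow_sub_pow (Nat.card K) 1 k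

theorem TI.ord_dvd [Finite F] [Nonempty ι] [hr : Fact r.Prime] (h0 : (r : F) ≠ 0)
    (h1 : ¬ r ∣ Nat.card F - 1) {k : ℕ} (hk : Nat.card F = Nat.card K ^ k) {g : End F (ι → F)}
    (hg : g ^ r = 1) {a : ℕ} {u : F[X]} (h2 : IrrD r u) (h3 : u ≠ X - 1)
    (h4 : tyE g = Multiset.replicate a (X - 1) + {u}) (h : TI (subfieldSubgroup K 1) g) :
    orderOf ((Nat.card K : ℕ) : ZMod r) ∣ u.natDegree := by
  obtain ⟨d, y, h5, h6, h7⟩ := h.norm hg (exists_pow_of fun e => h1 (e.trans (card_sub_dvd hk)))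
    hr.out.ne_zero
  rw [pow_eq_one_unit h1 h5, one_smul, h4] at h7
  have h8 := rank_of_ty (r := r) h7 (by simp [h2, h3])
  have := ord_dvd_rank hr.out (fun e => h0 (by simpa using congrArg K.subtype e)) h6
  rwa [← rank_map' K.subtype, ← RingHom.mapMatrix_apply, map_sub, map_one, h8, dg,
    Multiset.map_singleton, Multiset.sum_singleton] at this

theorem frob_three [hr : Fact r.Prime] (h2 : r ≠ 2) {ζ d : F} (hζ : IsPrimitiveRoot ζ r)
    (hd : d ^ r = 1) {k e : ℕ} (he : (e : ZMod r) ≠ 1)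
    (h : ((Multiset.replicate k 1 + {ζ, ζ⁻¹}).map (d * ·)).map (· ^ e) =
      (Multiset.replicate k 1 + {ζ, ζ⁻¹}).map (d * ·)) : (e : ZMod r) ^ 2 = 1 := by
  have : NeZero r := ⟨hr.out.ne_zero⟩
  let χ := AddChar.zmodChar r hζ.pow_eq_one
  obtain ⟨s, -, rfl⟩ := hζ.eq_pow_of_pow_eq_one hd
  have h1 : χ 1 = ζ := by simpa using AddChar.zmodChar_apply' hζ.pow_eq_one 1
  have h3 : Function.Injective χ := AddChar.injective_iff.mpr fun x hx =>
    ((AddChar.zmodChar_primitive_of_primitive_root r hζ).zmod_char_eq_one_iff r _).mp hx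
  have h4 : (Multiset.replicate k 1 + {ζ, ζ⁻¹}).map (ζ ^ s * ·) =
      (Multiset.replicate k (s : ZMod r) + {(s : ZMod r) + 1, (s : ZMod r) - 1}).map χ := by
    have : χ s = ζ ^ s := AddChar.zmodChar_apply' hζ.pow_eq_one s
    simp [this, AddChar.map_add_eq_mul, h1, AddChar.map_sub_eq_div, div_eq_mul_inv]
  rw [h4, Multiset.map_map, show (· ^ e) ∘ χ = χ ∘ ((e : ZMod r) * ·) from funext fun x => by
    simp [← nsmul_eq_mul, AddChar.map_nsmul_eq_pow], ← Multiset.map_map] at h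
  have h5 := Multiset.map_injective h3 h
  have h6 := congrArg Multiset.sum h5
  have h7 := congrArg (fun m => (m.map (· ^ 2)).sum) h5
  simp at h6 h7
  have h8 : (2 : ZMod r) ≠ 0 := cast_ne_zero (F := ZMod r) (r := 2) h2.symm
  have h9 : ((k : ZMod r) + 2) * s = 0 := mul_left_cancel₀ (sub_ne_zero.mpr he)
    (by linear_combination h6)
  exact mul_left_cancel₀ h8 (by linear_combination h7 - s * (e ^ 2 - 1) * h9)

theorem pow_eq_inv {a : F} (h : a ^ r = 1) {e : ℕ} (he : (e : ZMod r) = -1) : a ^ e = a⁻¹ := by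
  obtain ⟨k, hk⟩ := (ZMod.natCast_eq_zero_iff (e + 1) r).mp (by simp [he])
  exact eq_inv_of_mul_eq_one_left (by rw [← pow_succ, hk, pow_mul, h, one_pow])

theorem Sy.norm (h2 : Odd r) {m : Multiset F} (h : Sy m) (hm : ∀ a ∈ m, a ^ r = 1) :
    ∃ d : F, d ^ r = 1 ∧ (m.map (d * ·)).map (·⁻¹) = m.map (d * ·) := by
  rcases m.empty_or_exists_mem with rfl | ⟨a, ha⟩
  · exact ⟨1, by simp⟩
  obtain ⟨b, h0, h⟩ := h
  have h1 : b ^ r = 1 := by
    have := Multiset.mem_map_of_mem (fun a => b * a⁻¹) ha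
    rw [h] at this
    simpa [mul_pow, hm a ha] using hm _ this
  obtain ⟨k, rfl⟩ := h2
  refine ⟨b ^ k, by rw [← pow_mul, mul_comm, pow_mul, h1, one_pow], ?_⟩
  conv_rhs => rw [← h]
  rw [Multiset.map_map, Multiset.map_map]
  refine Multiset.map_congr rfl fun a _ => ?_
  have : (b ^ k)⁻¹ = b ^ k * b := inv_eq_of_mul_eq_one_right (by rw [← h1]; ring)
  simp only [Function.comp_apply, mul_inv, this]; ring

theorem sy_of {m : Multiset F} {d : F} (h0 : d ≠ 0)
    (h : (m.map (d * ·)).map (·⁻¹) = m.map (d * ·)) : Sy m := by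
  refine ⟨d⁻¹ * d⁻¹, by simp [h0], ?_⟩
  have := congrArg (Multiset.map (d⁻¹ * ·)) h
  simp only [Multiset.map_map, Function.comp_def, inv_mul_cancel_left₀ h0, Multiset.map_id'] at this
  rw [← this]
  conv_lhs => rw [this]
  exact Multiset.map_congr rfl fun a _ => by ring

theorem ns_main [Finite F] [hr : Fact r.Prime] (hq : r ∣ Nat.card F - 1) {V : Type*}
    [AddCommGroup V] [Module F V] [FiniteDimensional F V] (h0 : 0 < finrank F V)
    {P : End F V → Prop} (hs : ∀ g (c : F), c ≠ 0 → P (c • g) → P g)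
    (H1 : ∀ g (z : F), z ≠ 0 → g ^ r = z • 1 → (∀ w, w ^ r ≠ z) → ¬ P g)
    (H2 : ∀ g, g ^ r = 1 → P g) :
    (∀ g, LinearMap.det g = 1 → PE r g → P g) ↔ Cond r (finrank F V) (Nat.card F) := by
  refine ⟨fun H => by_contra fun e => ?_, fun h g hd hg => ?_⟩
  · obtain ⟨g, z, a1, a2, a3, a4, a5⟩ := exists_ns hq h0 e
    exact H1 g z a3 a4 a5 (H g a1 a2)
  · rcases pe_cases hr.out.ne_zero h0 (by simp [hd]) hg with ⟨c, e1, e2, -⟩ | ⟨z, e1, e2, e3⟩
    exacts [hs g c e1 (H2 _ e2), absurd h (not_cond h0 hd e1 e2 e3)]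

theorem isSquare_det {V : Type*} [AddCommGroup V] [Module F V] [FiniteDimensional F V]
    {g B : End F V} {m : ℕ} (h : tyE g = Multiset.replicate m ((X - 1) ^ 2)) (hB : Commute g B) :
    IsSquare (LinearMap.det B) := by
  have h1 : Commute (g - 1) B := hB.sub_left (Commute.one_left B)
  have h2 : LinearMap.range (g - 1) = LinearMap.ker (g - 1) := by
    have h3 := kdE_eq_sum g ((X - 1) ^ 1)
    have h4 := finrank_dg g
    have h5 := (g - 1).finrank_range_add_finrank_ker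
    rw [h, Multiset.map_replicate, gd_pow_pow irr_X_sub_one.ne_zero, kdE, aeval_sub_one_pow,
      pow_one, natDegree_X_sub_one] at h3
    rw [h, dg_replicate, natDegree_X_sub_one_pow] at h4
    refine Submodule.eq_of_le_of_finrank_eq (LinearMap.range_le_ker_iff.mpr ?_) (by
      simp at h3; omega)
    have := (aeval_eq_zero_iff_tyE g ((X - 1) ^ 2)).mpr fun u hu => by
      rw [h] at hu; rw [Multiset.eq_of_mem_replicate hu]
    rwa [aeval_sub_one_pow, sq] at this
  have h3 : LinearMap.ker (g - 1) ≤ (LinearMap.ker (g - 1)).comap B := fun x hx => by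
    have := LinearMap.congr_fun h1 x
    rw [End.mul_apply, End.mul_apply, LinearMap.mem_ker.mp hx, map_zero] at this
    exact this
  rw [LinearMap.det_eq_det_mul_det _ B h3, ← LinearMap.det_conj (Submodule.mapQ _ _ B h3)
    ((g - 1).quotKerEquivRange.trans (.ofEq _ _ h2))]
  refine ⟨_, congrArg₂ _ rfl (congrArg _ (LinearMap.ext fun x => ?_))⟩
  obtain ⟨y, rfl⟩ := ((g - 1).quotKerEquivRange.trans (.ofEq _ _ h2)).surjective x
  obtain ⟨y, rfl⟩ := Submodule.Quotient.mk_surjective _ y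
  simp only [LinearMap.comp_apply, LinearEquiv.coe_coe, LinearEquiv.symm_apply_apply]
  exact Subtype.ext (LinearMap.congr_fun h1 y)

theorem mem_sub_unip [Finite F] [Nonempty ι] (p : ℕ) [hp : Fact p.Prime] [CharP F p] {h : GL ι F}
    (h1 : h ∈ subfieldSubgroup K 1) (h2 : h.1 ^ p = 1) :
    ∃ y : GL ι K, h = Matrix.GeneralLinearGroup.map K.subtype y := by
  obtain ⟨c, y, h3, h4⟩ := mem_sub.mp h1
  obtain ⟨i⟩ := ‹Nonempty ι›
  obtain ⟨d, hd⟩ := exists_pow_char p ((y.1 ^ p) i i)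
  have h5 : c * d = 1 := frobenius_inj F p (by
    have := congrFun₂ h2 i i
    rw [h4, _root_.smul_pow, ← map_pow] at this
    simpa [frobenius_def, mul_pow, ← hd] using this)
  have h6 : d ≠ 0 := by rintro rfl; simp at h5
  refine ⟨Units.map (Matrix.scalar ι : K →+* _).toMonoidHom (Units.mk0 d⁻¹ (inv_ne_zero h6)) * y,
    Units.ext ?_⟩
  rw [h4, eq_inv_of_mul_eq_one_left h5, ← Subfield.coe_inv, ← ex_smul]
  exact congrArg (ex K) (by simp [Matrix.scalar_apply, ← Matrix.smul_one_eq_diagonal])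

theorem ty_of_ex (p : ℕ) [hp : Fact p.Prime] [CharP F p] {y y' : Matrix ι ι K}
    (h : ex K y ^ p = 1) (h' : ex K y' ^ p = 1) (e : ty (ex K y) = ty (ex K y')) :
    ty y = ty y' := by
  have : ∀ {y : Matrix ι ι K}, ex K y ^ p = 1 → IsNilpotent (y - 1) := fun h =>
    ⟨p ^ 1, (mat_pow_char_pow_eq_one_iff p _ 1).mp (ex_inj (by rwa [pow_one, map_pow, map_one]))⟩
  refine ty_eq_of_unip_rank (this h) (this h') fun k => ?_
  have := rank_aeval_eq_of_ty e ((X - 1) ^ k)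
  rwa [aeval_X_sub_one_pow, aeval_X_sub_one_pow, ← map_one (ex K), ← map_sub, ← map_sub, ← map_pow,
    ← map_pow, RingHom.mapMatrix_apply, RingHom.mapMatrix_apply, rank_map', rank_map'] at this

theorem exists_det_eq [Nonempty ι] {d : F} (hd : d ≠ 0) : ∃ P : GL ι F, P.1.det = d := by
  obtain ⟨i⟩ := ‹Nonempty ι›
  have : (Matrix.diagonal (Function.update 1 i d)).det = d := by simp [Finset.prod_update_of_mem]
  exact ⟨Matrix.GeneralLinearGroup.mkOfDetNeZero _ (this.symm ▸ hd), this⟩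

theorem det_map (y : GL ι K) : (Matrix.GeneralLinearGroup.map K.subtype y).1.det = y.1.det :=
  (K.subtype.map_det y.1).symm

end Cfsg.Agent.H18.El
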