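import Mathlib
import Cfsg.Agent.H18.Fe5
import Cfsg.Agent.H18.Li4
import Cfsg.Agent.H19.TA5
import Cfsg.Agent.H26.Ex7

/-! Elements of prime order of symplectic groups and tensor decompositions. -/

set_option autoImplicit false

namespace Cfsg.Agent.H18.Fe
open Module Cfsg.Agent.H11 Cfsg.Agent.H10 Sum

universe u

variable {F : Type u} [Field F] {V U W : Type*} [AddCommGroup V] [Module F V] [AddCommGroup U]
  [Module F U] [AddCommGroup W] [Module F W] {B : V →ₗ[F] V →ₗ[F] F} {B₁ : U →ₗ[F] U →ₗ[F] F}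
  {B₂ : W →ₗ[F] W →ₗ[F] F} {t : U →ₗ[F] W →ₗ[F] V} {r : ℕ}

theorem not_scalar [FiniteDimensional F V] {y : V ≃ₗ[F] V} (h1 : 0 < finrank F (movS y))
    (h2 : finrank F (movS y) < finrank F V) (z : F) : ¬ ∀ v, y v = z • v := fun hz => by
  have h4 : z ≠ 1 := by
    rintro rfl
    rw [finrank_movS_eq_zero.mpr (LinearEquiv.ext (by simpa using hz))] at h1
    omega
  have : movS y = ⊤ := eq_top_iff.mpr fun v _ => mem_movS.mpr ⟨(z - 1)⁻¹ • v, by
    rw [hz, smul_smul, ← sub_smul, ← sub_one_mul, mul_inv_cancel₀ (sub_ne_zero.mpr h4), one_smul]⟩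
  rw [this, finrank_top] at h2
  omega

theorem exists_two_free [Finite F] [FiniteDimensional F U] (hn : 4 ≤ finrank F U) {A : End F U}
    (hA : ∀ (c : F) u, A u = c • u → u = 0) : ∃ u : Fin 2 → U, ∀ x z : Fin 2 → F,
      ∑ i, x i • A (u i) = ∑ i, z i • u i → z = 0 := by
  classical
  have := Fintype.ofFinite F
  have := Module.finite_of_finite F (M := U)
  have := Fintype.ofFinite U
  have : Nontrivial U := Module.nontrivial_of_finrank_pos (R := F) (by omega)
  obtain ⟨v, hv⟩ := exists_ne (0 : U)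
  let P := Submodule.span F {v, A v}
  have hP : finrank F P ≤ 2 := (finrank_span_le_card _).trans (by
    rw [Set.toFinset_insert, Set.toFinset_singleton]; exact Finset.card_le_two)
  let S : Option F → Submodule F U := fun o => o.elim P fun c => P.comap (A - c • 1)
  have hS : ∀ o, Nat.card (S o) ≤ Fintype.card F ^ 2 := fun o => by
    rw [Module.natCard_eq_pow_finrank (K := F), Nat.card_eq_fintype_card]
    refine Nat.pow_le_pow_right Fintype.card_pos (le_trans ?_ hP)
    rcases o with _ | c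
    · rfl
    · exact LinearMap.finrank_le_finrank_of_injective (f := (A - c • 1).restrict fun x hx => hx)
        ((injective_iff_map_eq_zero _).mpr fun x hx => Subtype.ext (hA c _
          (sub_eq_zero.mp (congrArg Subtype.val hx))))
  obtain ⟨w, hw⟩ : ∃ w, ∀ o, w ∉ S o := by
    by_contra H
    push Not at H
    have h1 : (Finset.univ : Finset U) ⊆ Finset.univ.biUnion fun o => (S o : Set U).toFinset :=
      fun w _ => by simpa using H w
    have h2 := (Finset.card_le_card h1).trans (Finset.card_biUnion_le_card_mul _ _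
      (Fintype.card F ^ 2) fun o _ => by
        rw [Set.toFinset_card, ← Nat.card_eq_fintype_card]; exact hS o)
    rw [Finset.card_univ, Finset.card_univ, Module.card_eq_pow_finrank (K := F),
      Fintype.card_option] at h2
    have h3 := Nat.pow_le_pow_right (Fintype.card_pos (α := F)) hn
    have h4 := Fintype.one_lt_card (α := F)
    generalize Fintype.card F = q at h2 h3 h4
    have : (q + 1) * q ^ 2 < q ^ 2 * q ^ 2 := Nat.mul_lt_mul_of_pos_right (by nlinarith) (by positivity)
    rw [← pow_add] at this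
    exact absurd (h3.trans h2) this.not_ge
  refine ⟨![v, w], fun x z h => ?_⟩
  simp only [Fin.sum_univ_two, Matrix.cons_val_zero, Matrix.cons_val_one] at h
  have h1 : x 1 = 0 := by_contra fun e => hw (some (z 1 / x 1)) (Submodule.mem_span_pair.mpr
    ⟨z 0 / x 1, -x 0 / x 1, smul_right_injective U e (by
      simp only [LinearMap.sub_apply, LinearMap.smul_apply, End.one_apply, smul_add, smul_sub,
        smul_smul, mul_div_cancel₀ _ e]
      linear_combination (norm := module) -h)⟩)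
  have h2 : z 1 = 0 := by_contra fun e => hw none (Submodule.mem_span_pair.mpr
    ⟨-z 0 / z 1, x 0 / z 1, smul_right_injective U e (by
      simp only [smul_add, smul_smul, mul_div_cancel₀ _ e]
      rw [h1] at h
      linear_combination (norm := module) h)⟩)
  rw [h1, h2, zero_smul, zero_smul, add_zero, add_zero] at h
  have h3 : x 0 = 0 := by_contra fun e => hv (hA (z 0 / x 0) v (smul_right_injective U e (by
    simp only [smul_smul, mul_div_cancel₀ _ e, h])))
  rw [h3, zero_smul, eq_comm, smul_eq_zero] at h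
  funext i
  fin_cases i
  exacts [h.resolve_right hv, h2]

theorem eq_one_of_pow [Finite F] [hp : Fact r.Prime] (hr : ¬ r ∣ Nat.card F - 1) {μ : F}
    (h : μ ^ r = 1) : μ = 1 := by
  have := Fintype.ofFinite F
  have h0 : μ ≠ 0 := by rintro rfl; simp [hp.out.ne_zero] at h
  have h1 := pow_gcd_eq_one.mpr ⟨h, FiniteField.pow_card_sub_one_eq_one μ h0⟩
  rwa [← Nat.card_eq_fintype_card, (hp.out.coprime_iff_not_dvd).mpr hr, pow_one] at h1

/-- A formed space as the tensor product of two formed spaces. -/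
structure TS (B : V →ₗ[F] V →ₗ[F] F) (B₁ : U →ₗ[F] U →ₗ[F] F) (B₂ : W →ₗ[F] W →ₗ[F] F)
    (t : U →ₗ[F] W →ₗ[F] V) : Prop where
  form : ∀ u w u' w', B (t u w) (t u' w') = B₁ u u' * B₂ w w'
  ext : ∀ f g : V →ₗ[F] V, (∀ u w, f (t u w) = g (t u w)) → f = g
  lift : ∀ (A : U ≃ₗ[F] U) (C : W ≃ₗ[F] W), ∃ y : V ≃ₗ[F] V, ∀ u w, y (t u w) = t (A u) (C w)
  sep₁ : B₁.SeparatingLeft
  sep₂ : B₂.SeparatingLeft

/-- `y` is the tensor product of `A` and `C`. -/
def Tn (t : U →ₗ[F] W →ₗ[F] V) (y : V ≃ₗ[F] V) (A : U ≃ₗ[F] U) (C : W ≃ₗ[F] W) : Prop :=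
  ∀ u w, y (t u w) = t (A u) (C w)

variable {y : V ≃ₗ[F] V} {A : U ≃ₗ[F] U} {C : W ≃ₗ[F] W}

theorem Tn.flip (h : Tn t y A C) : Tn t.flip y C A := fun w u => h u w

theorem Tn.pow (h : Tn t y A C) (n : ℕ) : Tn t (y ^ n) (A ^ n) (C ^ n) := by
  induction n with
  | zero => exact fun _ _ => rfl
  | succ n ih => intro u w; simp only [pow_succ, LinearEquiv.mul_apply, h u w, ih _ _]

theorem Tn.scale (h : Tn t y A C) {c : F} (hc : c ≠ 0) :
    Tn t y (LinearEquiv.smulOfNeZero F U c hc * A)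
      (LinearEquiv.smulOfNeZero F W c⁻¹ (inv_ne_zero hc) * C) := fun u w => by
  simp [h u w, LinearEquiv.smulOfNeZero, LinearEquiv.smulOfUnit, Units.smul_def, smul_smul, hc]

namespace TS
variable (X : TS B B₁ B₂ t)
include X

theorem flip : TS B B₂ B₁ t.flip :=
  ⟨fun w u w' u' => (X.form u w u' w').trans (mul_comm _ _), fun f g h => X.ext f g fun u w => h w u,
    fun C A => (X.lift A C).imp fun _ h w u => h u w, X.sep₂, X.sep₁⟩

theorem indep {ι : Type*} [Fintype ι] {u : ι → U} {w : ι → W} (h : ∑ i, t (u i) (w i) = 0)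
    (w' : W) : ∑ i, B₂ (w i) w' • u i = 0 := X.sep₁ _ fun u' => by
  simpa [map_sum, X.form, mul_comm] using congrArg (fun v => B v (t u' w')) h

theorem eq_zero {u : U} {w : W} (h : t u w = 0) (hu : u ≠ 0) : w = 0 := X.sep₂ _ fun w' => by
  simpa [hu] using X.indep (ι := Unit) (u := fun _ => u) (w := fun _ => w) (by simpa) w'

variable [FiniteDimensional F V] [FiniteDimensional F U] [FiniteDimensional F W]

omit [FiniteDimensional F U] in
theorem rank_ge (h : Tn t y A C) {s : ℕ} {u : Fin s → U}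
    (hu : ∀ x z : Fin s → F, ∑ i, x i • A (u i) = ∑ i, z i • u i → z = 0) :
    s * finrank F W ≤ finrank F (movS y) := by
  let L : (Fin s → W) →ₗ[F] V := ∑ i, t (u i) ∘ₗ LinearMap.proj i
  have := LinearMap.finrank_le_finrank_of_injective
    (f := ((y.toLinearMap - LinearMap.id) ∘ₗ L).codRestrict (movS y) fun x => ⟨L x, rfl⟩)
    ((injective_iff_map_eq_zero _).mpr fun w hw => funext fun i => X.sep₂ _ fun w' => by
      have h1 := X.indep (u := Sum.elim (fun i => A (u i)) u)
        (w := Sum.elim (fun i => C (w i)) fun i => -w i) (by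
          simpa [L, map_sum, h _ _, sub_eq_add_neg, Finset.sum_add_distrib] using
            congrArg Subtype.val hw) w'
      exact congrFun (hu (fun i => B₂ (C (w i)) w') (fun i => B₂ (w i) w') (by
        simpa [add_neg_eq_zero] using h1)) i)
  simpa [Module.finrank_pi_fintype] using this

omit [FiniteDimensional F U] in
theorem scalar (h : Tn t y A C) (h1 : finrank F (movS y) < finrank F W) :
    ∃ c : F, ∀ u, A u = c • u := by
  obtain ⟨c, hc⟩ := A.toLinearMap.exists_eq_smul_id_of_forall_notLinearIndependent fun u hu => by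
    have := X.rank_ge h (u := ![u]) fun x z e => by
      have := (LinearIndependent.pair_iff.mp hu (z 0) (-x 0) (by
        simp only [Fin.sum_univ_one, Matrix.cons_val_zero] at e
        simp [← e])).1
      exact funext fun i => Subsingleton.elim 0 i ▸ this
    omega
  exact ⟨c, LinearMap.congr_fun hc⟩

omit [FiniteDimensional F V] [FiniteDimensional F U] [FiniteDimensional F W] in
theorem of_scalar (h : Tn t y A C) {c : F} (hc : ∀ u, A u = c • u) [Nontrivial U] :
    ∃ C', Tn t y 1 C' := by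
  obtain ⟨u, hu⟩ := exists_ne (0 : U)
  have h0 : c ≠ 0 := by rintro rfl; exact hu (A.injective (by simp [hc]))
  have := h.scale (inv_ne_zero h0)
  rw [show LinearEquiv.smulOfNeZero F U c⁻¹ _ * A = 1 from LinearEquiv.ext fun u => by
    simp [hc, LinearEquiv.smulOfNeZero, LinearEquiv.smulOfUnit, Units.smul_def, smul_smul, h0]]
    at this
  exact ⟨_, this⟩

theorem rank_one (h : Tn t y 1 C) : finrank F U * finrank F (movS C) ≤ finrank F (movS y) := by
  let b := finBasis F U
  let L : (Fin (finrank F U) → movS C) →ₗ[F] V :=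
    ∑ i, t (b i) ∘ₗ (movS C).subtype ∘ₗ LinearMap.proj i
  have := LinearMap.finrank_le_finrank_of_injective (f := L.codRestrict (movS y) fun x => by
      simp only [L, LinearMap.sum_apply]
      refine Submodule.sum_mem _ fun i _ => ?_
      obtain ⟨w, hw⟩ := mem_movS.mp (x i).2
      exact mem_movS.mpr ⟨t (b i) w, by simp [h _ _, ← hw]⟩)
    ((injective_iff_map_eq_zero _).mpr fun w hw => funext fun i => Subtype.ext
      (X.sep₂ _ fun w' => Fintype.linearIndependent_iff.mp b.linearIndependent _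
        (X.indep (u := b) (w := fun i => w i) (by simpa [L] using congrArg Subtype.val hw) w') i))
  simpa [Module.finrank_pi_fintype] using this

omit [FiniteDimensional F V] [FiniteDimensional F U] [FiniteDimensional F W] in
theorem one_data [Nontrivial U] (h : Tn t y 1 C) (hy : ∀ a b, B (y a) (y b) = B a b)
    (h1 : y ^ r = 1) : (∀ a b, B₂ (C a) (C b) = B₂ a b) ∧ C ^ r = 1 ∧ (C = 1 → y = 1) := by
  obtain ⟨u, hu⟩ := exists_ne (0 : U)
  obtain ⟨u', hu'⟩ : ∃ u', B₁ u u' ≠ 0 := by
    by_contra H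
    push Not at H
    exact hu (X.sep₁ u H)
  refine ⟨fun a b => mul_left_cancel₀ hu' ?_, LinearEquiv.ext fun w => sub_eq_zero.mp
    (X.eq_zero ?_ hu), ?_⟩
  · rw [← X.form, ← X.form, ← hy (t u a), h, h]; rfl
  · have := h.pow r u w
    rw [h1, one_pow] at this
    exact (map_sub _ _ _).trans (sub_eq_zero.mpr this.symm)
  · rintro rfl
    exact LinearEquiv.toLinearMap_injective (X.ext _ _ h)

omit [FiniteDimensional F U] in
theorem not_left [Finite F] {ε κ : F} {τ : F →+ F} {R : W → F} {d D s : ℕ}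
    (O : OD (RingHom.id F) r d D s) (h₂ : IsForm (σ := RingHom.id F) ε κ τ B₂ R)
    (hR : ∀ C : W ≃ₗ[F] W, (∀ a b, B₂ (C a) (C b) = B₂ a b) → ∀ x, R (C x) = R x)
    (hU : 2 ≤ finrank F U) (h : Tn t y A C) (hy : ∀ a b, B (y a) (y b) = B a b) (h1 : y ^ r = 1)
    (h2 : finrank F (movS y) = D) (c : F) : ¬ ∀ u, A u = c • u := fun hc => by
  have : FiniteDimensional F U := Module.finite_of_finrank_pos (by omega)
  have : Nontrivial U := Module.nontrivial_of_finrank_pos (R := F) (by omega)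
  obtain ⟨C, h⟩ := X.of_scalar h hc
  obtain ⟨a1, a2, a3⟩ := X.one_data h hy h1
  obtain ⟨k, hk⟩ := O.exists_finrank_movS h₂ X.sep₂ (y := ⟨C, a1, hR C a1⟩) (Subtype.ext a2)
  have a4 := X.rank_one h
  have a5 := O.pos.2.2
  rw [hk, h2] at a4
  rcases k with _ | k
  · rw [a3 (finrank_movS_eq_zero.mp (by simpa using hk)), finrank_movS_eq_zero.mpr rfl] at h2
    omega
  · nlinarith [Nat.mul_le_mul hU (Nat.mul_le_mul_right D (show 1 ≤ k + 1 by omega))]

omit [FiniteDimensional F U] [FiniteDimensional F W] in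
theorem normalize [Finite F] [Fact r.Prime] (hr : ¬ r ∣ Nat.card F - 1) [Nontrivial U]
    (hW : 0 < finrank F W) (h : Tn t y A C) (hy : ∀ a b, B (y a) (y b) = B a b) (h1 : y ^ r = 1) :
    ∃ A' C', Tn t y A' C' ∧ A' ^ r = 1 ∧ ∀ a b, B₁ (A' a) (A' b) = B₁ a b := by
  have : FiniteDimensional F W := Module.finite_of_finrank_pos hW
  have : Nontrivial W := Module.nontrivial_of_finrank_pos hW
  obtain ⟨u, hu⟩ := exists_ne (0 : U)
  obtain ⟨c, hc⟩ := X.scalar (h.pow r) (by rwa [h1, finrank_movS_eq_zero.mpr rfl])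
  have h0 : c ≠ 0 := by rintro rfl; exact hu ((A ^ r).injective (by simp [hc]))
  obtain ⟨d, hd⟩ := El.exists_pow_of hr c⁻¹
  have h2 : d ≠ 0 := by
    rintro rfl; exact inv_ne_zero h0 (by simp [← hd, (Fact.out : r.Prime).ne_zero])
  have h3 := h.scale h2
  have h4 : (LinearEquiv.smulOfNeZero F U d h2 * A) ^ r = 1 := by
    have : ∀ n u, ((LinearEquiv.smulOfNeZero F U d h2 * A) ^ n) u = d ^ n • (A ^ n) u := fun n => by
      induction n with
      | zero => simp
      | succ n ih =>
        intro u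
        simp only [pow_succ, LinearEquiv.mul_apply, ih]
        simp [LinearEquiv.smulOfNeZero, LinearEquiv.smulOfUnit, Units.smul_def, smul_smul]
    exact LinearEquiv.ext fun u => by rw [this, hd, hc, inv_smul_smul₀ h0]; rfl
  generalize LinearEquiv.smulOfNeZero F U d h2 * A = A' at h3 h4
  generalize LinearEquiv.smulOfNeZero F W d⁻¹ _ * C = C' at h3
  refine ⟨A', C', h3, h4, ?_⟩
  obtain ⟨w, hw⟩ := exists_ne (0 : W)
  obtain ⟨w', hw'⟩ : ∃ w', B₂ (C' w) (C' w') ≠ 0 := by
    by_contra H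
    push Not at H
    exact hw (C'.injective ((X.sep₂ _ fun x => by simpa using H (C'.symm x)).trans (map_zero _).symm))
  have h5 : ∀ a b, B₁ (A' a) (A' b) = B₂ w w' / B₂ (C' w) (C' w') * B₁ a b := fun a b => by
    have := hy (t a w) (t b w')
    rw [h3, h3, X.form, X.form] at this
    field_simp
    linear_combination this
  generalize B₂ w w' / B₂ (C' w) (C' w') = μ at h5
  have h6 : ∀ n a b, B₁ ((A' ^ n) a) ((A' ^ n) b) = μ ^ n * B₁ a b := fun n => by
    induction n with
    | zero => simp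
    | succ n ih => intro a b; simp only [pow_succ', LinearEquiv.mul_apply, h5, ih, mul_assoc]
  obtain ⟨u', hu'⟩ : ∃ u', B₁ u u' ≠ 0 := by
    by_contra H
    push Not at H
    exact hu (X.sep₁ u H)
  have h7 : μ ^ r = 1 := mul_right_cancel₀ hu' (by rw [← h6, h4, one_mul]; rfl)
  obtain rfl : μ = 1 := eq_one_of_pow hr h7
  simpa using h5

omit [FiniteDimensional F U] in
theorem not_small (h : Tn t y A C) (h0 : 0 < finrank F (movS y))
    (h1 : finrank F (movS y) < finrank F U) (h2 : finrank F (movS y) < finrank F W)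
    (h3 : finrank F (movS y) < finrank F V) : False := by
  have : FiniteDimensional F U := Module.finite_of_finrank_pos (by omega)
  obtain ⟨c, hc⟩ := X.scalar h h2
  obtain ⟨d, hd⟩ := X.flip.scalar h.flip h1
  exact not_scalar h0 h3 (c * d) (LinearMap.congr_fun (X.ext y.toLinearMap ((c * d) • LinearMap.id)
    fun u w => by simp [h u w, hc, hd, smul_smul, mul_comm]))

omit [FiniteDimensional F V] [FiniteDimensional F U] [FiniteDimensional F W] in
theorem form_ext {f g : V →ₗ[F] V →ₗ[F] F} (hB : ∃ v, B v ≠ 0)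
    (h : ∀ u w u' w', f (t u w) (t u' w') = g (t u w) (t u' w')) (x y : V) : f x y = g x y := by
  obtain ⟨v, hv⟩ := hB
  have h0 : v ≠ 0 := by rintro rfl; simp at hv
  have key : ∀ f g : V →ₗ[F] F, (∀ u w, f (t u w) = g (t u w)) → ∀ x, f x = g x :=
    fun f g h x => smul_left_injective F h0 (LinearMap.congr_fun (X.ext (f.smulRight v)
      (g.smulRight v) fun u w => by simp [h]) x)
  exact key (f x) (g x) (fun u w => key (f.flip (t u w)) (g.flip (t u w)) (fun _ _ => h _ _ _ _) x) y

end TS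

section main
variable {B : LinearMap.BilinForm F V} {B₁ : LinearMap.BilinForm F U} {R : W → F}
  [Finite F] [FiniteDimensional F V] [FiniteDimensional F U] [FiniteDimensional F W]
  (X : TS B B₁ B₂ t) (hA : B.IsAlt) (hB : B.SeparatingLeft) (hA₁ : B₁.IsAlt) (hQ : IsQuad B₂ R)
  (h2 : (2 : F) ≠ 0) {d : ℕ} (hm : finrank F V = 2 * d) (hb : 3 ≤ finrank F W)
  {H : Subgroup (Isom (σ := RingHom.id F) B fun _ => 0)} (hH : ∀ y, y ∈ H ↔ ∃ A C, Tn t y.1 A C)
include X hA hB hA₁ hQ h2 hm hb hH

theorem ten_two (ha : finrank F U = 2 * 1) (hd : finrank F W = d) :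
    EluP ⊤ 2 fun y => ∃ g ∈ (⊤ : Subgroup _), g⁻¹ * y * g ∈ H := by
  rintro y - ⟨z, hz⟩ -
  have : Nontrivial V := Module.nontrivial_of_finrank_pos (R := F) (by omega)
  have hB0 : ∃ v, B v ≠ 0 := (exists_ne (0 : V)).imp fun v hv e => hv (hB v fun x => by simp [e])
  obtain ⟨e, e1, -⟩ := exists_ss_invol hA₁ X.sep₁ ha h2 (T := 1) (by simp) (by simp)
  obtain ⟨b, b1, b2 | b2⟩ := exists_ss_two hA hB hm h2 y hz (by omega)
  · obtain ⟨T, t1, t2, -⟩ := exists_skew e1 0 1 (-1)
    obtain ⟨y', hy'⟩ := X.lift (LinearEquiv.ofLinearMap T (-T) (LinearMap.ext fun v => by simp [t2])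
      (LinearMap.ext fun v => by simp [t2])) 1
    have h3 : ∀ u w, y' (t u w) = t (T u) w := hy'
    have h4 : ∀ v, y.1 (y.1 v) = (-1 : F) • v := LinearMap.congr_fun
      (f := y.1.toLinearMap ∘ₗ y.1.toLinearMap) (g := (-1 : F) • LinearMap.id) (b.ext fun i => by
        rcases i with i | i <;> simp [b2])
    obtain ⟨g, hg⟩ := skew_conj hA hB hm h2 (T := y'.toLinearMap) (T' := y.1.toLinearMap)
      (X.form_ext (f := B ∘ₗ y'.toLinearMap) (g := (-1 : F) • B.compl₂ y'.toLinearMap) hB0
        fun u w u' w' => by simp [h3, X.form, t1]) (isom_adj y h4) (c := -1) (by simp)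
      (LinearMap.congr_fun (X.ext (y'.toLinearMap ∘ₗ y'.toLinearMap) ((-1 : F) • LinearMap.id)
        fun u w => by simp [h3, t2])) h4
    refine ⟨g, trivial, (hH _).mpr ⟨_, _, fun u w => (g.1.injective ?_).trans (hy' u w)⟩⟩
    simpa using (hg _).symm
  · subst hd
    have := invertibleOfNonzero h2
    obtain ⟨w, hw⟩ := LinearMap.BilinForm.exists_orthogonal_basis (B := B₂) ⟨fun x y => hQ.comm x y⟩
    have h3 : ∀ i j, i ≠ j → B₂ (w i) (w j) = 0 := hw
    have h4 : ∀ i, B₂ (w i) (w i) ≠ 0 := fun i a => w.ne_zero i (X.sep₂ _ (LinearMap.congr_fun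
      (g := 0) (w.ext fun j => by by_cases e : i = j <;> simp_all)))
    have h5 : SS B (Sum.elim (fun i => t (e (inl 0)) (w i))
        fun i => t (e (inr 0)) ((B₂ (w i) (w i))⁻¹ • w i)) := by
      constructor <;> intro i j <;> by_cases a : i = j <;>
        simp [X.form, e1.ee, e1.ff, e1.ef, e1.fe, a, h3, h4]
    let b' := basisOfLinearIndependentOfCardEqFinrank' _ h5.li (by simp [hm, two_mul])
    have h6 : SS B b' := by simpa [b'] using h5
    choose ε h7 h8 h9 using b2
    let D : End F W := w.constr F fun i => ε i • w i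
    have h10 : ∀ i, D (w i) = ε i • w i := fun i => w.constr_basis F _ _
    have h11 : D ∘ₗ D = LinearMap.id := w.ext fun i => by simp [h10, smul_smul, h7]
    obtain ⟨y', hy'⟩ := X.lift 1 (LinearEquiv.ofLinearMap D D h11 h11)
    have h12 : ∀ u w, y' (t u w) = t u (D w) := hy'
    let g : Isom (σ := RingHom.id F) B fun _ => 0 :=
      ⟨b'.equiv b (Equiv.refl _), h6.isom b1, fun _ => rfl⟩
    have h13 : ∀ i, g.1 (b' i) = b i := fun i => by simp [g]
    have h14 : y.1.toLinearMap ∘ₗ g.1.toLinearMap = g.1.toLinearMap ∘ₗ y'.toLinearMap :=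
      b'.ext fun i => by
        have : y' (b' i) = ε (i.elim id id) • b' i := by
          rcases i with i | i <;> simp [b', h12, h10, smul_comm (ε i)]
        rcases i with i | i <;> simp [this, h13, h8, h9]
    refine ⟨g, trivial, (hH _).mpr ⟨_, _, fun u w => (g.1.injective ?_).trans (hy' u w)⟩⟩
    simpa using LinearMap.congr_fun h14 _

theorem ten_main {p : ℕ} [hp : Fact p.Prime] [CharP F p] [hr : Fact r.Prime]
    (ha : 2 ≤ finrank F U) (hn : 2 * d = finrank F U * finrank F W) (hΩ : r ∣ H.index) :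
    (EluP ⊤ r fun y => ∃ g ∈ (⊤ : Subgroup _), g⁻¹ * y * g ∈ H) ↔ r = 2 ∧ finrank F U = 2 := by
  refine ⟨fun hE => ?_, by
    rintro ⟨rfl, e⟩
    exact ten_two X hA hB hA₁ hQ h2 hm hb hH e (by rw [e] at hn; omega)⟩
  have hd : 3 ≤ d := by nlinarith
  have : Nontrivial V := Module.nontrivial_of_finrank_pos (R := F) (by omega)
  have key : ∀ y : Isom (σ := RingHom.id F) B fun _ => 0, y ^ r = 1 → 0 < finrank F (movS y.1) →
      (Odd r ∨ finrank F (movS y.1) < finrank F V) → ∃ (y' : V ≃ₗ[F] V) (A : _) (C : _),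
        Tn t y' A C ∧ (∀ a b, B (y' a) (y' b) = B a b) ∧ y' ^ r = 1 ∧
        finrank F (movS y') = finrank F (movS y.1) := fun y a1 a2 a3 => by
    obtain ⟨g, -, hg⟩ := elu_apply hB hE trivial a1 a2 a3
    obtain ⟨A, C, a4⟩ := (hH _).mp hg
    exact ⟨_, A, C, a4, (g⁻¹ * y * g).2.1, congrArg Subtype.val (conj_pow_eq_one a1 g),
      finrank_movS_conj y g⟩
  by_cases ep : r = p
  · subst ep
    obtain ⟨y, y1, y2⟩ := exists_transv hA hB r
    obtain ⟨y', A, C, a1, -, -, a2⟩ := key y y1 (by omega) (.inr (by omega))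
    exact (X.not_small a1 (by omega) (by omega) (by omega) (by omega)).elim
  by_cases e : r = 2
  · subst e
    refine ⟨rfl, by_contra fun a => ?_⟩
    obtain ⟨b0, h7, -⟩ := exists_ss_invol hA hB hm h2 (T := 1) (by simp) (by simp)
    have i0 : Fin d := ⟨0, by omega⟩
    have h8 : NondegOn B (Submodule.span F {b0 (inl i0), b0 (inr i0)}) := fun x hx H => by
      obtain ⟨s, t, rfl⟩ := Submodule.mem_span_pair.mp hx
      have a1 := H _ (Submodule.subset_span (Or.inl rfl))
      have a2 := H _ (Submodule.subset_span (Or.inr rfl))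
      simp [h7.ee, h7.ff, h7.ef, h7.fe] at a1 a2
      simp [a1, a2]
    have h9 : finrank F (Submodule.span F {b0 (inl i0), b0 (inr i0)}) = 2 := by
      have := finrank_span_eq_card (b0.linearIndependent.comp ![inl i0, inr i0] (by
        intro i j; fin_cases i <;> fin_cases j <;> simp))
      rwa [show Set.range (b0 ∘ ![inl i0, inr i0]) = {b0 (inl i0), b0 (inr i0)} by
        simp [Set.range_comp, Set.image_pair, Set.pair_comm]] at this
    obtain ⟨y, y1, y2⟩ := exists_invol_neg (isForm_alt hA) hB h2 h8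
    rw [← y2] at h9
    obtain ⟨y', A, C, a1, -, -, a2⟩ := key y (sq y ▸ y1) (by omega) (.inr (by omega))
    exact X.not_small a1 (by omega) (by omega) (by omega) (by omega)
  exfalso
  have := finite_isom (σ := RingHom.id F) B fun _ => 0
  obtain ⟨i0, -, y, y1, y2⟩ := exists_min_alt hA hB hr.out e ep (hΩ.trans H.index_dvd_card) rfl
  have O := od_id (F := F) hr.out e ep rfl rfl rfl
  obtain ⟨y', A, C, a1, a2, a3, a4⟩ := key y y1 (y2 ▸ O.pos.2.2) (.inl (hr.out.odd_of_ne_two e))
  rw [y2] at a4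
  have a5 := X.not_left O hQ (fun C hC => (isom_of_form hQ h2 hC).2) ha a1 a2 a3 a4
  have a6 := X.flip.not_left O (isForm_alt hA₁) (fun _ _ _ => rfl) (by omega) a1.flip a2 a3 a4
  have a7 : finrank F W ≤ finrank F (movS y') := not_lt.mp fun a =>
    (X.scalar a1 a).elim fun c hc => a5 c hc
  have a8 : finrank F U ≤ finrank F (movS y') := not_lt.mp fun a =>
    (X.flip.scalar a1.flip a).elim fun c hc => a6 c hc
  have a9 : ¬ r ∣ Nat.card F - 1 := fun a => by
    have := (dvd_sub_iff (r := r) (Nat.card_pos (α := F)) 1).mp (by simpa)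
    rw [Nat.dvd_one.mp this] at a4
    simp at a4
    omega
  have : Nontrivial U := Module.nontrivial_of_finrank_pos (R := F) (by omega)
  obtain ⟨A, C, a1, c1, c2⟩ := X.normalize a9 (by omega) a1 a2 a3
  have a5 := X.not_left O hQ (fun C hC => (isom_of_form hQ h2 hC).2) ha a1 a2 a3 a4
  obtain ⟨k, hk⟩ := O.exists_finrank_movS (isForm_alt hA₁) X.sep₁ (y := ⟨A, c2, fun _ => rfl⟩)
    (Subtype.ext c1)
  have c3 : Even (finrank F (movS y')) := by rw [a4]; split_ifs with a <;> simp [a]
  rw [← a4] at hk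
  have c4 := Submodule.finrank_le (movS A)
  have c5 := finrank_movS_add A
  have c6 : finrank F (movS y') ≤ finrank F (movS A) := by
    rcases k with _ | k
    · exact (a5 1 (by simp [show A = 1 from finrank_movS_eq_zero.mp (hk.trans (zero_mul _))])).elim
    · exact hk ▸ Nat.le_mul_of_pos_left _ k.succ_pos
  obtain ⟨u, hu⟩ := exists_two_free (A := A.toLinearMap) (by obtain ⟨s, hs⟩ := c3; omega)
    fun c u hc => by_contra fun a => by
      have h3 : ∀ n, (A ^ n) u = c ^ n • u := fun n => by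
        induction n with
        | zero => simp
        | succ n ih => rw [pow_succ', LinearEquiv.mul_apply, ih, map_smul, pow_succ, mul_smul]; congr
      obtain rfl : c = 1 := eq_one_of_pow a9 (smul_left_injective F a (by simp [← h3, c1]))
      have : u ∈ H11.fixS A := H11.mem_fixS.mpr (by simpa using hc)
      rw [Submodule.finrank_eq_zero.mp (by omega : finrank F (H11.fixS A) = 0)] at this
      exact a this
  have := X.rank_ge a1 hu
  have : Nontrivial W := Module.nontrivial_of_finrank_pos (R := F) (by omega)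
  obtain ⟨C, A, a1, c1, c2⟩ := X.flip.normalize a9 (by omega) a1.flip a2 a3
  obtain ⟨k, hk⟩ := O.exists_finrank_movS hQ X.sep₂ (y := ⟨C, isom_of_form hQ h2 c2⟩)
    (Subtype.ext c1)
  have a6 := X.flip.not_left O (isForm_alt hA₁) (fun _ _ _ => rfl) (by omega) a1 a2 a3 a4
  rw [← a4] at hk
  have c7 := Submodule.finrank_le (movS C)
  have c8 : finrank F (movS y') ≤ finrank F (movS C) := by
    rcases k with _ | k
    · exact (a6 1 (by simp [show C = 1 from finrank_movS_eq_zero.mp (hk.trans (zero_mul _))])).elim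
    · exact hk ▸ Nat.le_mul_of_pos_left _ k.succ_pos
  omega

end main

open Matrix Kronecker H26 in
theorem ten_mat {ι : Type} [Fintype ι] [DecidableEq ι] {a b : ℕ} (e : ι ≃ Fin a × Fin b)
    (P : GL ι F) {B : (ι → F) →ₗ[F] (ι → F) →ₗ[F] F} {f₁ : (Fin a → F) → (Fin a → F) → F}
    {f₂ : (Fin b → F) → (Fin b → F) → F} (h₁ : Geo.IsBilinearForm f₁) (h₂ : Geo.IsBilinearForm f₂)
    (s₁ : Geo.IsNondegenerateForm f₁) (s₂ : Geo.IsNondegenerateForm f₂) {c : F} (hc : c ≠ 0)
    (hT : ∀ x y : Fin a × Fin b → F, B (P.val *ᵥ (x ∘ e)) (P.val *ᵥ (y ∘ e)) =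
      c * Geo.formOfGram id (Geo.gramMatrix f₁ ⊗ₖ Geo.gramMatrix f₂) x y) {Q : (ι → F) → F} :
    ∃ t, TS B (c • bilinOf h₁) (bilinOf h₂) t ∧ ∀ y : Isom (σ := RingHom.id F) B Q,
      y ∈ (Geo.tensorProductSubgroup a b e P).comap (isoGL B Q) ↔ ∃ A C, Tn t y.1 A C := by
  let t : (Fin a → F) →ₗ[F] (Fin b → F) →ₗ[F] (ι → F) := LinearMap.mk₂ F
    (fun u w => P.val *ᵥ ((fun p => u p.1 * w p.2) ∘ e))
    (fun _ _ _ => by rw [← mulVec_add]; congr 1; ext; simp [add_mul])
    (fun _ _ _ => by rw [← mulVec_smul]; congr 1; ext; simp [mul_assoc])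
    (fun _ _ _ => by rw [← mulVec_add]; congr 1; ext; simp [mul_add])
    (fun _ _ _ => by rw [← mulVec_smul]; congr 1; ext; simp [mul_left_comm])
  have ht : ∀ u w, t u w = P.val *ᵥ ((fun p => u p.1 * w p.2) ∘ e) := fun _ _ => rfl
  have h1 : ∀ (A : Matrix (Fin a) (Fin a) F) (C : Matrix (Fin b) (Fin b) F) u w,
      trA e P (A ⊗ₖ C) *ᵥ t u w = t (A *ᵥ u) (C *ᵥ w) := fun A C u w => by
    rw [ht, ht, trA_mulVec, kron_mulVec_pure]
  have h2 : ∀ f g : (ι → F) →ₗ[F] (ι → F), (∀ u w, f (t u w) = g (t u w)) → f = g := fun f g h => by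
    refine LinearMap.ext fun v => ?_
    obtain ⟨x, rfl⟩ := exists_crd e P v
    have : P.val *ᵥ (x ∘ e) = ∑ p, x p • t (Pi.single p.1 1) (Pi.single p.2 1) := by
      simp only [ht, ← mulVec_smul, ← mulVec_sum]
      congr 1
      ext i
      simp [Finset.sum_apply, Pi.single_apply, Fintype.sum_prod_type, ite_and]
    simp only [this, map_sum, map_smul, h]
  refine ⟨t, ⟨fun u w u' w' => ?_, h2, fun A C => ⟨glEquiv ι F (trG e P
    (kronG ((glEquiv _ F).symm A) ((glEquiv _ F).symm C))), fun u w => ?_⟩, fun x hx =>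
    H19.TA.sep_of h₁ s₁ x fun y => by simpa [hc] using hx y, H19.TA.sep_of h₂ s₂⟩, fun y => ⟨?_, ?_⟩⟩
  · rw [ht, ht, hT]
    erw [formOfGram_eq (RingHom.id F)]
    rw [fm_kronecker, fm_eq_sum, fm_eq_sum]
    simp [H19.TA.gram_eq h₁ u u', H19.TA.gram_eq h₂ w w', mul_assoc]
  · rw [glEquiv_apply, coe_trG, coe_kronG, h1, ← glEquiv_apply, ← glEquiv_apply]; simp
  · intro hy
    obtain ⟨A, C, h⟩ := (mem_tensorProductSubgroup e P _).mp hy
    exact ⟨glEquiv _ F A, glEquiv _ F C, fun u w => by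
      rw [← isoGL_apply, h, h1, glEquiv_apply, glEquiv_apply]⟩
  · rintro ⟨A, C, h⟩
    refine (mem_tensorProductSubgroup e P _).mpr ⟨(glEquiv _ F).symm A, (glEquiv _ F).symm C,
      toLin'.injective (h2 _ _ fun u w => ?_)⟩
    rw [toLin'_apply, toLin'_apply, isoGL_apply, h1, h, ← glEquiv_apply, ← glEquiv_apply]; simp


end Cfsg.Agent.H18.Fe
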