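import Mathlib
import Cfsg.Agent.H25.CoX
import Cfsg.Agent.H25.Co2
import Cfsg.Agent.H28.PCM

/-! Isomorphisms between two tabulated actions linked by an invariant incidence relation. -/

set_option autoImplicit false
set_option linter.all false

namespace Cfsg.Agent.H18.Inc
open Cfsg.Agent.H25 Cfsg.Agent.H28

noncomputable def bt (m i : ℕ) : Bool := Nat.beq (Nat.land (Nat.shiftRight m i) 1) 1

theorem bt_iff (m i : ℕ) : bt m i = true ↔ m.testBit i = true := by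
  show Nat.beq ((m >>> i) &&& 1) 1 = true ↔ _
  rw [Nat.beq_eq, Nat.and_one_is_mod, Nat.testBit_eq_decide_div_mod_eq, Nat.shiftRight_eq_div_pow]
  simp

noncomputable def incOK (T T' : PT) (inc : ℕ → ℕ) (lo hi : ℕ) : Bool :=
  allRange (fun j => force (inc j) fun m => allRange (fun i => Bool.rec true
    (allLin (fun a => bt (inc (T'.tgt j a)) (T.tgt i a)) 0 T.G) (bt m i)) 0 T.N) lo hi

def IncP (T T' : PT) (inc : ℕ → ℕ) (j : ℕ) : Prop :=
  ∀ i < T.N, (inc j).testBit i = true → ∀ a < T.G, (inc (T'.tgt j a)).testBit (T.tgt i a) = true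

theorem incOK_sound {T T' : PT} {inc : ℕ → ℕ} {lo hi : ℕ} (h : incOK T T' inc lo hi = true) :
    ∀ j, lo ≤ j → j < hi → IncP T T' inc j := fun j h1 h2 i hi hb a ha => by
  have h3 := allRange_sound h j h1 h2
  rw [force_eq] at h3
  have h4 := allRange_sound h3 i (Nat.zero_le _) hi
  beta_reduce at h4
  rw [(bt_iff _ _).2 hb] at h4
  exact (bt_iff _ _).1 (allLin_sound h4 a (Nat.zero_le _) (by omega))

noncomputable def cutOK (inc : ℕ → ℕ) (N : ℕ) (C : List (ℕ × ℕ × ℕ)) : Bool :=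
  allL (fun t => band (Nat.ble (Nat.succ t.2.1) N) (band (Nat.ble (Nat.succ t.2.2) N)
    (Nat.beq (Nat.land (inc t.2.1) (inc t.2.2)) (Nat.shiftLeft 1 t.1)))) C

theorem iso_of_inc {G H : Type*} [Group G] [Group H] [Finite G] [Finite H] {Ω Ω' : Type*}
    [MulAction G Ω] [MulAction H Ω'] {T T' : PT} {g : ℕ → G} {g' : ℕ → H} {pt : ℕ → Ω}
    {pt' : ℕ → Ω'} (h : AM T g pt) (hj : ∀ i < T.N, ∀ j < T.N, pt i = pt j → i = j)
    (h' : AM T' g' pt') (hi : ∀ i < T'.N, ∀ j < T'.N, pt' i = pt' j → i = j)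
    {X : ℕ} (hG : T'.G = T.G ∧ X < 2 ^ T.G) (hX : Lc X g = ⊤) {C : List (ℕ × ℕ × ℕ)}
    (hB : IsBase G T.N pt (C.map Prod.fst)) {inc : ℕ → ℕ} (h1 : ∀ j < T'.N, IncP T T' inc j)
    (h2 : cutOK inc T'.N C = true) (hN : Nat.card H ≤ Nat.card G) : Nonempty (H ≃* G) := by
  let D : Subgroup (G × H) := Lc X fun a => (g a, g' a)
  have key : ∀ y ∈ D, ∀ j < T'.N, ∃ j' < T'.N, y.2⁻¹ • pt' j = pt' j' ∧ ∀ i < T.N,
      (inc j).testBit i = true → ∃ i' < T.N, y.1⁻¹ • pt i = pt i' ∧ (inc j').testBit i' = true := by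
    refine mem_of_closed (fun j hj => ⟨j, hj, by simp, fun i hi hb => ⟨i, hi, by simp, hb⟩⟩) ?_
    rintro k hk _ ⟨a, ha, rfl⟩ j hj
    have ha' : a < T.G := by
      by_contra hc
      rw [Nat.testBit_lt_two_pow (hG.2.trans_le (Nat.pow_le_pow_right (by norm_num) (by omega)))] at ha
      cases ha
    obtain ⟨j', a1, a2, a3⟩ := hk j hj
    obtain ⟨b1, b2⟩ := h' j' a1 a (hG.1 ▸ ha')
    refine ⟨_, b1, by rw [Prod.snd_mul, mul_inv_rev, mul_smul, a2, b2], fun i hi hb => ?_⟩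
    obtain ⟨i', c1, c2, c3⟩ := a3 i hi hb
    obtain ⟨d1, d2⟩ := h i' c1 a ha'
    exact ⟨_, d1, by rw [Prod.fst_mul, mul_inv_rev, mul_smul, c2, d2], h1 j' a1 i' c1 c3 a ha'⟩
  let σ : D →* G := (MonoidHom.fst G H).comp D.subtype
  let τ : D →* H := (MonoidHom.snd G H).comp D.subtype
  have hσ : Function.Surjective σ := by
    rw [← MonoidHom.range_eq_top, eq_top_iff, ← hX, Lc_le]
    intro a ha
    exact ⟨⟨_, mem_Lc (fun a => (g a, g' a)) ha⟩, rfl⟩
  have hτ : Function.Injective τ := by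
    rw [injective_iff_map_eq_one]
    rintro ⟨⟨y1, y2⟩, hy⟩ e
    have e' : y2 = 1 := e
    subst e'
    have : y1⁻¹ = 1 := hB.2 _ fun b hb => by
      obtain ⟨t, ht, rfl⟩ := List.mem_map.1 hb
      have c := allL_sound h2 t ht
      simp only [band_eq, Bool.and_eq_true, Nat.ble_eq, Nat.beq_eq] at c
      obtain ⟨c1, c2, c3⟩ := c
      have c4 : ∀ i, ((inc t.2.1).testBit i = true ∧ (inc t.2.2).testBit i = true) ↔ t.1 = i := fun i => by
        have := congrArg (·.testBit i) (show inc t.2.1 &&& inc t.2.2 = 1 <<< t.1 from c3)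
        simp only [Nat.testBit_and, Nat.one_shiftLeft, Nat.testBit_two_pow] at this
        rw [← Bool.and_eq_true, this, decide_eq_true_iff]
      have hb' := hB.1 _ hb
      obtain ⟨j1, a1, a2, a3⟩ := key _ hy _ c1
      obtain ⟨j2, b1, b2, b3⟩ := key _ hy _ c2
      rw [inv_one, one_smul] at a2 b2
      obtain rfl := hi _ c1 _ a1 a2
      obtain rfl := hi _ c2 _ b1 b2
      obtain ⟨i1, d1, d2, d3⟩ := a3 _ hb' ((c4 _).2 rfl).1
      obtain ⟨i2, e1, e2, e3⟩ := b3 _ hb' ((c4 _).2 rfl).2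
      obtain rfl := hj _ d1 _ e1 (d2.symm.trans e2)
      rw [d2, ← (c4 _).1 ⟨d3, e3⟩]
    obtain rfl := inv_eq_one.1 this
    rfl
  have k1 := Nat.card_le_card_of_surjective σ hσ
  have k2 := Nat.card_le_card_of_injective τ hτ
  exact ⟨(MulEquiv.ofBijective τ ((Nat.bijective_iff_injective_and_card τ).2 ⟨hτ, by omega⟩)).symm.trans
    (MulEquiv.ofBijective σ ((Nat.bijective_iff_surjective_and_card σ).2 ⟨hσ, by omega⟩))⟩

open Leech

theorem pts32 {v : ℕ → ℕ} {n : ℕ} (h1 : allRange (fun i => vcb 32 (v i)) 0 (n + 1) = true)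
    (h2 : mono v 0 n = true) : (∀ i < n + 1, VC (v i)) ∧
      ∀ i < n + 1, ∀ j < n + 1, pt (v i) = pt (v j) → i = j := by
  have h3 : ∀ i < n + 1, VC (v i) := fun i hi => (vcb_sound (allRange_sound h1 i (Nat.zero_le _) hi)).1
  exact ⟨h3, fun i hi j hj e => inj_of_mono (rng_all (mono_rng h2)) i (by omega) j (by omega)
    ((h3 i hi).inj (h3 j hj) e)⟩

/-- a subgroup of `Co0` is isomorphic to a tabulated group -/
theorem iso_co {G : Type*} [Group G] [Finite G] {Ω : Type*} [MulAction G Ω] {T T' : PT} {g : ℕ → G}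
    {p : ℕ → Ω} (h : AM T g p) (hj : ∀ i < T.N, ∀ j < T.N, p i = p j → i = j)
    {K : Subgroup Co0} {Ms : List ℕ} (hM : ∀ M ∈ Ms, ok M = true ∧ el M ∈ K) {vec : ℕ → ℕ} {n : ℕ}
    (hv : (∀ i < n, VC (vec i)) ∧ ∀ i < n, ∀ j < n, pt (vec i) = pt (vec j) → i = j)
    (ha : ∀ i < n, ∀ a < T'.G, T'.tgt i a < T'.N ∧
      (gd ⟨0, 0, 0⟩ (Ms.map prep) a).act (vec i) = vec (T'.tgt i a))
    {X : ℕ} (hG : (T'.G = T.G ∧ X < 2 ^ T.G) ∧ T'.N = n ∧ T'.G ≤ Ms.length) (hX : Lc X g = ⊤)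
    {C : List (ℕ × ℕ × ℕ)} (hB : IsBase G T.N p (C.map Prod.fst)) {inc : ℕ → ℕ}
    (h1 : ∀ j < n, IncP T T' inc j) (h2 : cutOK inc T'.N C = true)
    (hN : Nat.card K ≤ Nat.card G) : Nonempty (K ≃* G) := by
  obtain ⟨hG, rfl, hl⟩ := hG
  haveI : Finite Co0 := Nat.finite_of_card_ne_zero (by rw [card_Co0]; norm_num)
  have h3 := am_l0 hl (fun M h => (hM M h).1) hv.1 ha
  let g' : ℕ → K := fun a => ⟨l0 Ms a, by simpa using ev_l0_mem (fun M h => (hM M h).2) [a]⟩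
  exact iso_of_inc (g' := g') (pt' := fun i => pt (vec i)) h hj (fun i hi a ha => h3 i hi a ha) hv.2 hG hX
    hB h1 h2 hN

end Cfsg.Agent.H18.Inc
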