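import Mathlib
import Cfsg.Agent.H18.Jc1
import Cfsg.Agent.H28.HJk

/-! The centraliser in `Co0` of a fixed-point-free element of order five: the Hall–Janko quotient. -/

set_option maxRecDepth 100000
set_option linter.all false
set_option autoImplicit false

namespace Cfsg.Agent.H18.Jc
open Cfsg.Agent.H25 Cfsg.Agent.H25.Leech Subgroup
open Cfsg.Agent.H15 (lprod gp invT map_lprod invT_of_le)
open Cfsg.Agent.H28 (sgl Sat)
open Cfsg.Agent.H28.HJ (BA1 isoK)
open Cfsg.Agent.H28.J2P (KJ card_K)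

def rep (w : List ℕ) : ℕ → List ℕ
  | 0 => []
  | n + 1 => w ++ rep w n

theorem ev_rep {Γ : Type*} [Group Γ] (x : ℕ → Γ) (w : List ℕ) (n : ℕ) : ev x (rep w n) = ev x w ^ n := by
  induction n with
  | zero => simp [rep]
  | succ n ih => rw [rep, pow_succ', ← ih, ev, ev, ev, List.map_append, List.prod_append]

noncomputable def pm (ts : List TR) (w : List ℕ) : Bool :=
  band (smallW 7 w) (Bool.rec (eqW ts 9 w [8]) true (eqW ts 9 w []))

theorem chk : prepL Ns (fun ts => band (band (allLin (fun l => eqW ts 9 [l, 7] [7, l]) 0 7) (eqW ts 9 [7, 7, 7, 7, 7] []))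
    (band (allL (fun p => pm ts (rep p.1 p.2)) BA1) (band (allLin (fun l => pm ts [invT 417736958016 7 l, l]) 0 7)
      (Bool.rec true false (Nat.beq (actW ts [0, 1] (bs 0)) (actW ts [1, 0] (bs 0))))))) = true := by decide +kernel

theorem chk' : (allLin (fun l => eqW (Ns.map prep) Ns.length [l, 7] [7, l]) 0 7 = true ∧
    eqW (Ns.map prep) Ns.length [7, 7, 7, 7, 7] [] = true) ∧ allL (fun p => pm (Ns.map prep) (rep p.1 p.2)) BA1 = true ∧
    allLin (fun l => pm (Ns.map prep) [invT 417736958016 7 l, l]) 0 7 = true ∧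
    (Bool.rec true false (Nat.beq (actW (Ns.map prep) [0, 1] (bs 0)) (actW (Ns.map prep) [1, 0] (bs 0))) : Bool) = true := by
  have := chk
  rw [prepL_eq] at this
  simp only [band_eq, Bool.and_eq_true] at this
  exact this

theorem l7 : l0 Ns 7 = a5⁻¹ := by rw [l0, if_pos (by decide)]; rfl
theorem l8 : l0 Ns 8 = neg1⁻¹ := by rw [l0, if_pos (by decide), ← el_mneg]; rfl

theorem ord5 : orderOf a5 = 5 := by
  haveI : Fact (Nat.Prime 5) := ⟨by norm_num⟩
  refine orderOf_eq_prime ?_ fun e => ?_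
  · have := eqW_sound okNs chk'.1.2
    simp only [ev_cons, ev_nil, l7] at this
    rw [← inv_eq_one, ← inv_pow, ← this]; simp [pow_succ, mul_assoc]
  · have := a5_b (j := 0) (by norm_num) (by norm_num)
    rw [e, one_smul] at this
    exact absurd ((hB (by norm_num)).1.inj (hB (by norm_num)).1 this) (by decide +kernel)

noncomputable abbrev A5 : Subgroup Co0 := zpowers a5
noncomputable abbrev CC : Subgroup Co0 := centralizer (A5 : Set Co0)
noncomputable abbrev NC : Subgroup CC := (A5 ⊔ center Co0).subgroupOf CC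

theorem memCC {g : Co0} : g ∈ CC ↔ g * a5 = a5 * g :=
  ⟨fun h => (h a5 (mem_zpowers _)).symm, fun h x ⟨k, hk⟩ => hk ▸ ((Commute.zpow_right h k).symm : _)⟩

theorem NC_cen {n : CC} (hn : n ∈ NC) (g : CC) : g * n = n * g := by
  have : A5 ⊔ center Co0 ≤ centralizer {g.1} := sup_le
    (fun x hx => mem_centralizer_singleton_iff.2 (g.2 x hx))
    (fun x hx => mem_centralizer_singleton_iff.2 (mem_center_iff.1 hx g.1).symm)
  exact Subtype.ext (mem_centralizer_singleton_iff.1 (this hn)).symm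

instance NC_normal : NC.Normal := ⟨fun n hn g => by rw [NC_cen hn g, mul_inv_cancel_right]; exact hn⟩

theorem mem_l {l : ℕ} (h : l < 7) : l0 Ns l ∈ CC := by
  have := eqW_sound okNs (allLin_sound chk'.1.1 l (Nat.zero_le _) (by omega))
  simp only [ev_cons, ev_nil, l7, mul_one] at this
  exact memCC.2 (Commute.inv_right_iff.1 this)

noncomputable def gC (l : ℕ) : CC := if h : l < 7 then ⟨l0 Ns l, mem_l h⟩ else 1
noncomputable def EE (l : ℕ) : CC ⧸ NC := QuotientGroup.mk' NC (gC l)

theorem ev_gC {w : List ℕ} (h : ∀ a ∈ w, a < 7) : (ev gC w).1 = ev (l0 Ns) w := by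
  rw [show (ev gC w).1 = CC.subtype (ev gC w) from rfl, map_ev, ev, ev]
  exact congrArg List.prod (List.map_congr_left fun a ha => by simp [gC, h a ha])

theorem pm_sound {w : List ℕ} (h : pm (Ns.map prep) w = true) : ev EE w = 1 := by
  rw [pm, band_eq, Bool.and_eq_true] at h
  have e := ev_gC (w := w) fun a ha => Nat.le_of_ble_eq_true (allL_sound h.1 a ha)
  refine (map_ev (QuotientGroup.mk' NC) gC w).symm.trans ((QuotientGroup.eq_one_iff _).2 ?_)
  rw [mem_subgroupOf, e]
  have h2 := h.2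
  cases e1 : eqW (Ns.map prep) 9 w [] with
  | true => rw [eqW_sound okNs e1]; exact one_mem _
  | false =>
    rw [e1] at h2
    rw [eqW_sound okNs h2, ev_cons, ev_nil, mul_one, l8]
    exact mem_sup_right (inv_mem neg1_central)

theorem sat : Sat EE (invT 417736958016 7) BA1 := ⟨fun l => by
  by_cases h : l < 7
  · have := pm_sound (allLin_sound chk'.2.2.1 l (Nat.zero_le _) (by omega))
    simp only [ev_cons, ev_nil, mul_one, Nat.zero_add] at this
    exact eq_inv_of_mul_eq_one_left this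
  · rw [invT_of_le (by omega), EE, gC, dif_neg h, map_one, inv_one], fun p hp => by
  have := pm_sound (allL_sound chk'.2.1 p hp)
  rwa [ev_rep] at this⟩

theorem E0_ne : EE 0 ≠ 1 := fun e => by
  have h := congrArg Subtype.val (NC_cen ((QuotientGroup.eq_one_iff _).1 e) (gC 1))
  have h2 : ev (l0 Ns) [0, 1] = ev (l0 Ns) [1, 0] := by
    rw [← ev_gC (by decide), ← ev_gC (by decide)]
    simpa using h.symm
  have v := (hB (j := 0) (by norm_num)).1
  obtain ⟨a1, a2⟩ := actW_spec okNs (w := [0, 1]) (by decide +kernel) v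
  obtain ⟨b1, b2⟩ := actW_spec okNs (w := [1, 0]) (by decide +kernel) v
  have h3 := chk'.2.2.2
  rw [a1.inj b1 (by rw [← a2, ← b2, h2]), Nat.beq_refl] at h3
  exact absurd h3 (by decide)

theorem card_NC : 10 ≤ Nat.card NC := by
  have h5 : 5 ∣ Nat.card NC := by
    have := orderOf_dvd_natCard (⟨⟨a5, memCC.2 rfl⟩, mem_subgroupOf.2 (mem_sup_left (mem_zpowers _))⟩ : NC)
    rwa [orderOf_mk, orderOf_mk, ord5] at this
  have h2 : 2 ∣ Nat.card NC := by
    have := orderOf_dvd_natCard (⟨⟨neg1, memCC.2 (mem_center_iff.1 neg1_central _).symm⟩,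
      mem_subgroupOf.2 (mem_sup_right neg1_central)⟩ : NC)
    rwa [orderOf_mk, orderOf_mk, orderOf_eq_prime (p := 2) (by rw [pow_two, neg1_sq]) neg1_ne] at this
  have := Nat.card_pos (α := NC)
  omega

theorem iso : Nonempty (KJ.K ≃* CC ⧸ NC) := by
  obtain ⟨e⟩ := isoK sat E0_ne
  have h1 : Nat.card (gp EE (sgl 7)) = 604800 := (Nat.card_congr e.toEquiv).trans card_K
  have h2 := card_le CC fun g hg => memCC.1 hg
  have h3 := card_eq_card_quotient_mul_card_subgroup NC
  have h4 := (gp EE (sgl 7)).card_mul_index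
  have h5 := Nat.mul_le_mul_left (Nat.card (CC ⧸ NC)) card_NC
  have h6 := Nat.card_pos (α := CC ⧸ NC)
  have h7 : gp EE (sgl 7) = ⊤ := index_eq_one.1 (by rw [h1] at h4; omega)
  exact ⟨e.symm.trans ((MulEquiv.subgroupCongr h7).trans topEquiv)⟩

end Cfsg.Agent.H18.Jc
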