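import Mathlib
import Cfsg.Agent.H10.Elus1
import Cfsg.Agent.H10.MxB
import Cfsg.Agent.H11.OrthOrder
import Cfsg.Agent.H18.Li4

/-! Elements of prime order and similarity groups. -/

set_option autoImplicit false

namespace Cfsg.Agent.H18.El

open Module Polynomial H11 L0 H10 Geo

universe u

variable {F : Type u} [Field F] {σ : F →+* F} {ε κ : F} {τ : F →+ F} {r : ℕ}
  {V : Type*} [AddCommGroup V] [Module F V] [FiniteDimensional F V]
  {B : V →ₛₗ[σ] V →ₗ[F] F} {Q : V → F}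

/-- A similarity with multiplier `c`. -/
def Sm (B : V →ₛₗ[σ] V →ₗ[F] F) (g : End F V) (c : F) : Prop :=
  ∀ x y, B (g x) (g y) = c * B x y

/-- Similar to a similarity. -/
def TS (B : V →ₛₗ[σ] V →ₗ[F] F) (g : End F V) : Prop :=
  ∃ (g' : End F V) (c : F), c ≠ 0 ∧ Sm B g' c ∧ tyE g' = tyE g

section mat
variable {ι : Type} [Fintype ι] [DecidableEq ι] {B : (ι → F) →ₛₗ[σ] (ι → F) →ₗ[F] F}
  {H : Subgroup (GL ι F)} {Q : (ι → F) → F}
  (hH : ∀ h : GL ι F, h ∈ H ↔ ∃ c, c ≠ 0 ∧ Sm B (Matrix.toLin' h.1) c)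
include hH

theorem ti_iff_ts (hB : B.SeparatingLeft) (g : End F (ι → F)) : TI H g ↔ TS B g := by
  refine ⟨fun ⟨h, h1, h2⟩ => ((hH h).mp h1).elim fun c hc => ⟨_, c, hc.1, hc.2, h2⟩,
    fun ⟨g', c, h1, h2, h3⟩ => ?_⟩
  obtain ⟨A, rfl⟩ := Matrix.toLin'.surjective g'
  obtain ⟨A, rfl⟩ : IsUnit A := Matrix.isUnit_toLin'_iff.mp ((LinearMap.isUnit_iff_ker_eq_bot _).mpr
    (LinearMap.ker_eq_bot'.mpr fun x hx => hB x fun y => by simpa [hx, h1] using h2 x y))
  exact ⟨A, (hH A).mpr ⟨c, h1, h2⟩, h3⟩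

theorem not_dvd_isom [Finite F] {s t : ℤ} (h : Nat.card (GL ι F) * t = Nat.card (Isom B Q) * s)
    (hs : (s : ZMod r) ≠ 0) : ¬ r ∣ H.relIndex (specialLinear ι F) :=
  not_dvd_rel ((glEquiv ι F).symm.toMonoidHom.comp (Isom B Q).subtype)
    ((glEquiv ι F).symm.injective.comp Subtype.val_injective) (fun k => (hH _).mpr ⟨1, one_ne_zero,
      fun x y => by
        simpa [← glEquiv_apply] using k.2.1 x y⟩) h hs

omit hH

theorem mem_sim {f : (ι → F) → (ι → F) → F} (hf : (∀ x y, B x y = f x y) ∨ ∀ x y, B x y = f y x)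
    (h : GL ι F) : h ∈ similarityGroup f ↔ ∃ c, c ≠ 0 ∧ Sm B (Matrix.toLin' h.1) c := by
  rcases hf with hf | hf <;> simp only [Sm, hf]
  exacts [⟨fun ⟨c, hc⟩ => ⟨c, c.ne_zero, hc⟩, fun ⟨c, h0, hc⟩ => ⟨.mk0 c h0, hc⟩⟩,
    ⟨fun ⟨c, hc⟩ => ⟨c, c.ne_zero, fun x y => hc y x⟩, fun ⟨c, h0, hc⟩ =>
      ⟨.mk0 c h0, fun x y => hc y x⟩⟩]

theorem mem_qsim {B : (ι → F) →ₗ[F] (ι → F) →ₗ[F] F} (hQ : IsQuad B Q) (h2 : (2 : F) ≠ 0)
    (h : GL ι F) : h ∈ quadSimilarityGroup Q ↔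
      ∃ c, c ≠ 0 ∧ Sm (σ := .id F) B (Matrix.toLin' h.1) c := by
  refine ⟨fun ⟨c, hc⟩ => ⟨c, c.ne_zero, fun x y => ?_⟩, fun ⟨c, h0, hc⟩ => ⟨.mk0 c h0, fun x =>
    mul_left_cancel₀ h2 (by simpa [hQ.diag', mul_left_comm] using hc x x)⟩⟩
  have := hc (x + y)
  rw [Matrix.mulVec_add, hQ.add', hQ.add', hc, hc] at this
  simp only [Matrix.toLin'_apply]
  linear_combination this

end mat

omit [FiniteDimensional F V] in
theorem Sm.smul {g : End F V} {c : F} (h : Sm B g c) (a : F) : Sm B (a • g) (σ a * a * c) :=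
  fun x y => by simp [h x y]; ring

omit [FiniteDimensional F V] in
theorem Sm.pow {g : End F V} {c : F} (h : Sm B g c) (k : ℕ) : Sm B (g ^ k) (c ^ k) := by
  induction k with
  | zero => intro x y; simp
  | succ k ih => intro x y; rw [pow_succ, End.mul_apply, End.mul_apply, ih, h]; ring

theorem Sm.uniq (hB : B.SeparatingLeft) (h0 : 0 < finrank F V) {g : End F V} {c d : F}
    (h : Sm B g c) (h' : Sm B g d) : c = d := by
  have := Module.finrank_pos_iff.mp h0
  obtain ⟨x, hx⟩ := exists_ne (0 : V)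
  by_contra e
  exact hx (hB x fun y => (mul_eq_zero.mp (by rw [sub_mul, ← h, ← h', sub_self])).resolve_left
    (sub_ne_zero.mpr e))

theorem Sm.pow_eq (hB : B.SeparatingLeft) (h0 : 0 < finrank F V) {g : End F V} {c z : F}
    (h : Sm B g c) (hg : g ^ r = z • 1) : c ^ r = σ z * z :=
  (hg ▸ h.pow r).uniq hB h0 fun x y => by simp; ring

theorem Sm.fix (hf : IsForm ε κ τ B Q) (hB : B.SeparatingLeft) (h0 : 0 < finrank F V)
    {g : End F V} {c : F} (h : Sm B g c) : σ c = c :=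
  Sm.uniq hB h0 (fun x y => by rw [hf.symm, h, hf.symm y x, map_mul]; ring) h

theorem TS.smul (g : End F V) (c : F) (hc : c ≠ 0) (h : TS B (c • g)) : TS B g := by
  obtain ⟨g', d, h1, h2, h3⟩ := h
  exact ⟨_, _, by simp [hc, h1], h2.smul c⁻¹, by rw [tyE_smul_congr h3, inv_smul_smul₀ hc]⟩

theorem RealIn.ts {g : End F V} (h : RealIn B Q (tyE g)) : TS B g :=
  h.elim fun k hk => ⟨_, 1, one_ne_zero, fun x y => by simpa using k.2.1 x y, hk⟩

theorem TS.isom (hB : B.SeparatingLeft) (h0 : 0 < finrank F V) (hr : ∀ c : F, c ^ r = 1 → c = 1)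
    {g : End F V} (hg : g ^ r = 1) (h : TS B g) :
    ∃ g' : End F V, (∀ x y, B (g' x) (g' y) = B x y) ∧ tyE g' = tyE g := by
  obtain ⟨g', c, -, h1, h2⟩ := h
  obtain rfl := hr c (by
    simpa using h1.pow_eq hB h0 (pow_congr h2 (k := r) (z := 1) (by simpa using hg)))
  exact ⟨g', fun x y => by simpa using h1 x y, h2⟩

theorem pow_eq_one_char (p : ℕ) [Fact p.Prime] [CharP F p] (c : F) (h : c ^ p = 1) : c = 1 :=
  frobenius_inj F p (by simpa [frobenius_def] using h)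

theorem ty_self_dual (hf : IsForm ε κ τ B Q) (hB : B.SeparatingLeft) (h0 : (r : F) ≠ 0)
    {g g' : End F V} (hg : g ^ r = 1) (h : ∀ x y, B (g' x) (g' y) = B x y) (e : tyE g' = tyE g) :
    tyE g = (tyE g).map (du σ r) :=
  e ▸ tyE_dual hf.invol h0 hB (fun _ => hf.separatingRight hB) h
    (by simpa using pow_congr e (k := r) (z := 1) (by simpa using hg))

theorem irrD_lin {a : F} (h : a ^ r = 1) : IrrD r (X - C a) :=
  ⟨irreducible_X_sub_C a, monic_X_sub_C a, by simp [dvd_iff_isRoot, h]⟩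

theorem du_lin (hr : 0 < r) {a : F} (h : a ^ r = 1) (ha : σ a = a) :
    du σ r (X - C a) = X - C a⁻¹ := by
  refine ((irrD_lin h).du hr).eq_of_dvd (irrD_lin (by simp [h])) (((irrD_lin h).dvd_Th hr).mp ?_)
  rw [dvd_iff_isRoot, IsRoot, ← coe_aeval_eq_eval, aeval_Th]
  simp [ha, eq_inv_of_mul_eq_one_left (show a ^ (r - 1) * a = 1 by
    rw [← pow_succ, Nat.sub_add_cancel hr, h])]

theorem map_du_lin (hr : 0 < r) {m : Multiset F} (h : ∀ a ∈ m, a ^ r = 1)
    (hσ : ∀ a, a ^ r = 1 → σ a = a) : (lin m).map (du σ r) = lin (m.map (·⁻¹)) := by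
  rw [lin, lin, Multiset.map_map, Multiset.map_map]
  exact Multiset.map_congr rfl fun a ha => du_lin hr (h a ha) (hσ a (h a ha))

theorem TS.sy (hf : IsForm ε κ τ B Q) (hB : B.SeparatingLeft) (h0 : 0 < finrank F V)
    (hr : (r : F) ≠ 0) (ho : Odd r) (hσ : ∀ a, a ^ r = 1 → σ a = a) (g : End F V) (m : Multiset F)
    (hg : g ^ r = 1) (hm : tyE g = lin m) (h : TS B g) : Sy m := by
  obtain ⟨g', c, h1, h2, h3⟩ := h
  have h4 : c ^ r = 1 := by
    simpa using h2.pow_eq hB h0 (pow_congr h3 (k := r) (z := 1) (by simpa using hg))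
  obtain ⟨k, hk⟩ := ho
  have h5 : (c ^ k) ^ r = 1 := by rw [← pow_mul, mul_comm, pow_mul, h4, one_pow]
  have h6 : (c ^ k • g) ^ r = 1 := by rw [_root_.smul_pow, h5, hg, one_smul]
  have := ty_self_dual hf hB hr h6 (fun x y => by
    rw [h2.smul, hσ _ h5, ← pow_add, ← pow_succ, ← two_mul, ← hk, h4, one_mul])
    (tyE_smul_congr h3 _)
  rw [lin_smul hm, map_du_lin (by omega) ((lin_pow (lin_smul hm _) r 1).mp (by simpa using h6))
    hσ] at this
  exact sy_of (pow_ne_zero k h1) (lin_inj this).symm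

theorem ts_of_inv [Finite F] (P : Par σ ε κ τ) (hG : ∃ a, a + ε * σ a ≠ 0)
    (H : ∀ s, Real σ ε κ τ s → dg s = finrank F V → RealIn B Q s) (hr : (r : F) ≠ 0)
    (hσ : ∀ a, a ^ r = 1 → σ a = a) {g : End F V} {m : Multiset F}
    (hg : g ^ r = 1) (hm : tyE g = lin m) (h : m.map (·⁻¹) = m) : TS B g := by
  classical
  have h0 : 0 < r := Nat.pos_of_ne_zero (by rintro rfl; simp at hr)
  refine RealIn.ts (H _ (P.real_inv hr ⟨fun u => irrD_of_mem hr hg, fun u hu => ?_⟩ (.inl hG))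
    (finrank_dg _).symm)
  rw [← count_map_du P.invol h0 (fun u => irrD_of_mem hr hg) hu, hm, map_du_lin h0
    ((lin_pow hm r 1).mp (by simpa using hg)) hσ, h]

theorem ts_of_sy [Finite F] (P : Par σ ε κ τ) (hG : ∃ a, a + ε * σ a ≠ 0)
    (H : ∀ s, Real σ ε κ τ s → dg s = finrank F V → RealIn B Q s)
    (hr : (r : F) ≠ 0) (ho : Odd r) (hσ : ∀ a, a ^ r = 1 → σ a = a) (g : End F V) (m : Multiset F)
    (hg : g ^ r = 1) (hm : tyE g = lin m) (h : Sy m) : TS B g := by
  obtain ⟨d, e1, e2⟩ := h.norm ho ((lin_pow hm r 1).mp (by simpa using hg))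
  exact .smul g d (by rintro rfl; simp [ho.pos.ne'] at e1) (ts_of_inv P hG H hr hσ
    (by rw [_root_.smul_pow, e1, hg, one_smul]) (lin_smul hm d) e2)

theorem not_ts_ns (hf : IsForm ε κ τ B Q) (hB : B.SeparatingLeft) (h0 : 0 < finrank F V)
    (H : ∀ c z : F, z ≠ 0 → σ c = c → c ^ r = σ z * z → ∃ w, w ^ r = z) (g : End F V) (z : F)
    (hz : z ≠ 0) (hg : g ^ r = z • 1) (h : ∀ w, w ^ r ≠ z) : ¬ TS B g := fun ⟨_, c, _, h1, h2⟩ =>
  (H c z hz (h1.fix hf hB h0) (h1.pow_eq hB h0 (pow_congr h2 hg))).elim h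

theorem root_id (ho : Odd r) (c z : F) (hz : z ≠ 0) (_ : RingHom.id F c = c)
    (h : c ^ r = RingHom.id F z * z) : ∃ w, w ^ r = z := by
  obtain ⟨k, rfl⟩ := ho
  have hc : c ≠ 0 := by rintro rfl; simp [hz] at h
  refine ⟨z / c ^ k, ?_⟩
  rw [div_pow, ← pow_mul, mul_comm k, pow_mul c, h, RingHom.id_apply]
  field_simp; ring

theorem not_ts_small [Finite F] [hr : Fact r.Prime] (hf : IsForm ε κ τ B Q) (hB : B.SeparatingLeft)
    (h0 : (r : F) ≠ 0) (h1 : ¬ r ∣ Nat.card F - 1)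
    (h : orderOf ((Nat.card F : ℕ) : ZMod r) ≤ finrank F V) (hd : ∀ u : PF F r, du σ r u.1 ≠ u.1) :
    ¬ ∀ g, LinearMap.det g = 1 → PE r g → TS B g := fun H => by
  obtain ⟨g, a, u, e1, e2, e3, e4, e5, -, -, e7⟩ := exists_small h0 h1 h
  obtain ⟨g', e8, e9⟩ := (H g e1 e3).isom hB ((ord_pos hr.out h0).trans_le h)
    (fun c => pow_eq_one_unit h1) e2
  have : du σ r u ∈ tyE g :=
    ty_self_dual hf hB h0 e2 e8 e9 ▸ Multiset.mem_map_of_mem _ (by simp [e7])
  rw [e7] at this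
  rcases Multiset.mem_add.mp this with h | h
  exacts [e4.du_ne hf.invol hr.out.pos e5 (Multiset.eq_of_mem_replicate h),
    hd ⟨u, e4, e5⟩ (Multiset.mem_singleton.mp h)]

open Classical in
theorem exists_unip_one (p : ℕ) [hp : Fact p.Prime] [CharP F p] {j : ℕ} (h1 : 1 < j) (h2 : j ≤ p)
    (h : j ≤ finrank F V) : ∃ g : End F V, LinearMap.det g = 1 ∧ g ^ p = 1 ∧ PE p g ∧
      tyE g = Multiset.replicate (finrank F V - j) (X - 1) + {(X - 1) ^ j} ∧
      (tyE g).count ((X - 1) ^ j) = 1 := by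
  obtain ⟨h3, h4⟩ := exists_unip (F := F) (V := V) p
    (μ := Multiset.replicate (finrank F V - j) 1 + {j}) fun a ha => by
      rcases Multiset.mem_add.mp ha with h | h
      · rw [Multiset.eq_of_mem_replicate h]; omega
      · rw [Multiset.mem_singleton.mp h]; omega
  obtain ⟨g, hg⟩ := exists_tyE_eq (V := V) h3 (by simp [natDegree_X_sub_one]; omega)
  obtain ⟨h5, -, h6, h7⟩ := h4 g hg
  have : (X - 1 : F[X]) ≠ (X - 1) ^ j := fun e => by
    have := congrArg natDegree e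
    rw [natDegree_X_sub_one_pow, natDegree_X_sub_one] at this; omega
  exact ⟨g, h6, h5, h7 ⟨j, by simp, by omega⟩, by simpa using hg, by
    simp [hg, Multiset.count_replicate, this]⟩

theorem ts_ns (hr : r.Prime) {g g' : End F V} {c z : F} (hc : c ≠ 0) (h : Sm B g' c)
    (h1 : g' ^ r = z • 1) (hg : g ^ r = z • 1) (hz : ∀ w, w ^ r ≠ z) : TS B g :=
  ⟨g', c, hc, h, (ty_nonsplit hr h1 hz).2.1.trans (ty_nonsplit hr hg hz).2.1.symm⟩

theorem two_dvd_pred [Finite F] (h2 : (2 : F) ≠ 0) : 2 ∣ Nat.card F - 1 := by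
  have := not_dvd_card (F := F) Nat.prime_two (by simpa using h2)
  omega

theorem lin_two {g : End F V} {m : Multiset F} (hg : g ^ 2 = 1) (hm : tyE g = lin m) :
    ∃ a b, m = Multiset.replicate a 1 + Multiset.replicate b (-1) :=
  two_val fun u hu => mul_self_eq_one_iff.mp (by
    rw [← sq]; exact (lin_pow hm 2 1).mp (by simpa using hg) u hu)

theorem ev_main [Finite F] (h2 : (2 : F) ≠ 0) {n : ℕ} (hn : finrank F V = n) (he : Even n)
    (h3 : 2 ≤ n) {P : End F V → Prop} (hs : ∀ g (c : F), c ≠ 0 → P (c • g) → P g)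
    (H1 : ∀ g (z : F), z ≠ 0 → g ^ 2 = z • 1 → (∀ w, w ^ 2 ≠ z) → P g)
    (H2 : ∀ g a b, g ^ 2 = 1 →
      tyE g = lin (Multiset.replicate (2 * a) 1 + Multiset.replicate (2 * b) (-1)) → P g)
    (H3 : ∀ g, g ^ 2 = 1 → tyE g = lin (Multiset.replicate (n - 1) 1 + {-1}) → ¬ P g) :
    (∀ g, LinearMap.det g = 1 → PE 2 g → P g) ↔
      padicValNat 2 (Nat.card F - 1) ≤ padicValNat 2 n := by
  subst hn
  have hζ : IsPrimitiveRoot (-1 : F) 2 := IsPrimitiveRoot.neg_one (ringChar F) fun e =>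
    h2 (by simpa [e] using ringChar.Nat.cast_ringChar (R := F))
  rw [← not_lt, ← root_pow_iff hζ (by omega)]
  refine ⟨fun H ⟨c, hc⟩ => ?_, fun h g hd hg => ?_⟩
  · obtain ⟨y, hy⟩ := exists_diag (V := V) (m := Multiset.replicate (finrank F V - 1) (1 : F) + {-1})
      (by simp; omega)
    have e1 : ∀ a ∈ Multiset.replicate (finrank F V - 1) (1 : F) + {-1}, a ^ 2 = 1 := fun a ha => by
      rcases Multiset.mem_add.mp ha with h | h
      · simp [Multiset.eq_of_mem_replicate h]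
      · simp [Multiset.mem_singleton.mp h]
    have e2 : c ≠ 0 := by rintro rfl; simp [show finrank F V ≠ 0 by omega] at hc
    exact H3 y (by simpa using (lin_pow hy 2 1).mpr e1) hy (hs y c e2 (H _ (by simp [lin_det hy, hc])
      ((lin_pe hy (a := -1) (b := 1) (by simp) (by simp [Multiset.mem_replicate]; omega)
        (hζ.ne_one one_lt_two) e1).smul e2)))
  rcases pe_cases two_ne_zero (by omega) (by simp [hd]) hg with ⟨c, e1, e2, -⟩ | ⟨z, e1, e2, e3⟩
  swap
  · exact H1 g z e1 e2 e3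
  obtain ⟨m, hm⟩ := exists_lin (two_dvd_pred h2) e2
  obtain ⟨a, b, rfl⟩ := lin_two e2 hm
  have e4 := lin_card hm
  have e5 := lin_det hm
  obtain ⟨b, rfl⟩ : Even b := Nat.not_odd_iff_even.mp fun e => h ⟨c, by simpa [hd, e.neg_one_pow] using e5⟩
  obtain ⟨a, rfl⟩ : Even a := by
    obtain ⟨k, hk⟩ := he
    simp at e4
    exact ⟨k - b, by omega⟩
  exact hs g c e1 (H2 _ a b e2 (by rwa [two_mul, two_mul]))

section bil
variable {B : V →ₗ[F] V →ₗ[F] F}

omit [FiniteDimensional F V] in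
theorem sm_of_basis {ι : Type*} (b : Basis ι F V) {g : End F V} {c : F}
    (h : ∀ i j, B (g (b i)) (g (b j)) = c * B (b i) (b j)) : Sm (σ := .id F) B g c := fun x y =>
  LinearMap.congr_fun₂ (LinearMap.ext_basis b b (B := B.compl₁₂ g g) (B' := c • B) h) x y

theorem exists_ob (h : IsQuad B Q) (hB : B.SeparatingLeft) (h2 : (2 : F) ≠ 0) {ι : Type*}
    [Fintype ι] (hn : Fintype.card ι = finrank F V) :
    ∃ b : Basis ι F V, (∀ i j, i ≠ j → B (b i) (b j) = 0) ∧ ∀ i, B (b i) (b i) ≠ 0 := by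
  have := invertibleOfNonzero h2
  obtain ⟨b, hb⟩ := LinearMap.BilinForm.exists_orthogonal_basis (B := B) ⟨h.comm⟩
  exact ⟨b.reindex (Fintype.equivFinOfCardEq hn).symm, fun i j e => by
    simpa using hb (by simpa), fun i => by
    simpa using hb.not_isOrtho_basis_self_of_separatingLeft hB _⟩

theorem ts_quad_two [Finite F] (h : IsQuad B Q) (hB : B.SeparatingLeft) (h2 : (2 : F) ≠ 0)
    (h0 : 0 < finrank F V) (g : End F V) (hd : LinearMap.det g = 1) (hg : PE 2 g) :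
    TS (σ := .id F) B g := by
  classical
  rcases pe_cases two_ne_zero h0 (by simp [hd]) hg with ⟨c, e1, e2, -⟩ | ⟨z, e1, e2, e3⟩
  · obtain ⟨m, hm⟩ := exists_lin (two_dvd_pred h2) e2
    induction m using Quotient.inductionOn with | _ l => ?_
    obtain ⟨b, h3, -⟩ := exists_ob h hB h2 (ι := Fin l.length) (by simpa using lin_card hm)
    have h4 : ∀ i, l.get i * l.get i = 1 := fun i => by
      rw [← sq]; exact (lin_pow hm 2 1).mp (by simpa using e2) _ (by simp)
    refine .smul g c e1 ⟨b.constr F fun i => l.get i • b i, 1, one_ne_zero,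
      sm_of_basis b fun i j => ?_, multiset_eq_of_prod_eq (fun u hu => ?_) (fun u hu => ?_) ?_⟩
    · by_cases e : i = j
      · simp only [e, Basis.constr_basis, map_smul, LinearMap.smul_apply, smul_eq_mul,
          ← mul_assoc, h4]
      · simp [h3 i j e]
    · have := irrD_of_mem (r := 2) (by simpa using h2) (b.ext fun i => by
        simp only [sq, End.mul_apply, Basis.constr_basis, map_smul, smul_smul, h4, one_smul,
          End.one_apply]) hu
      exact ⟨this.1, this.2.1⟩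
    · have := irrD_of_mem (r := 2) (by simpa using h2) e2 hu
      exact ⟨this.1, this.2.1⟩
    · rw [← charpoly_eq_prod_tyE, ← LinearMap.charpoly_toMatrix _ b, hm, show LinearMap.toMatrix b b
        (b.constr F fun i => l.get i • b i) = Matrix.diagonal l.get from by
          ext i j; simp [LinearMap.toMatrix_apply, Matrix.diagonal_apply, Finsupp.single_apply]
          split_ifs with e1 e2 <;> simp_all, Matrix.charpoly_diagonal]
      simp [lin, Fin.prod_univ_fun_getElem l fun a => X - C a]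
  obtain ⟨m, hm⟩ := (ty_nonsplit Nat.prime_two e2 e3).1
  obtain ⟨b, h3, h4⟩ := exists_ob h hB h2 (ι := Fin m ⊕ Fin m) (by simp [hm, two_mul])
  have h5 : ∀ i, ∃ s w : F, s * s + B (b (.inl i)) (b (.inl i)) * B (b (.inr i)) (b (.inr i)) *
      (w * w) = z := fun i => by
    have := Fintype.ofFinite F
    obtain ⟨s, w, h⟩ := FiniteField.exists_root_sum_quadratic (R := F) (f := X ^ 2 - C z)
      (g := C (B (b (.inl i)) (b (.inl i)) * B (b (.inr i)) (b (.inr i))) * X ^ 2)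
      (degree_X_pow_sub_C two_pos z) (degree_C_mul_X_pow 2 (mul_ne_zero (h4 _) (h4 _))) (by
        have := two_dvd_pred h2
        have := Nat.card_pos (α := F)
        rw [← Nat.card_eq_fintype_card]; omega)
    exact ⟨s, w, by simp at h; linear_combination h⟩
  choose s w h5 using h5
  let g' : End F V := b.constr F (Sum.elim
    (fun i => s i • b (.inl i) + (B (b (.inl i)) (b (.inl i)) * w i) • b (.inr i))
    fun i => (B (b (.inr i)) (b (.inr i)) * w i) • b (.inl i) - s i • b (.inr i))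
  refine ts_ns Nat.prime_two e1 (g' := g') (sm_of_basis b ?_) (b.ext ?_) e2 e3
  · rintro (i | i) (j | j) <;> by_cases e : i = j <;> simp [g', h3, e]
    · linear_combination B (b (.inl j)) (b (.inl j)) * h5 j
    · ring
    · ring
    · linear_combination B (b (.inr j)) (b (.inr j)) * h5 j
  · rintro (i | i) <;> simp only [sq, End.mul_apply, g', Basis.constr_basis, Sum.elim_inl,
      Sum.elim_inr, map_add, map_sub, map_smul, LinearMap.smul_apply, End.one_apply] <;>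
      rw [← h5 i] <;> module

theorem ts_alt_ns (hA : B.IsAlt) (hB : B.SeparatingLeft) (g : End F V) (z : F) (hz : z ≠ 0)
    (hg : g ^ 2 = z • 1) (h : ∀ w, w ^ 2 ≠ z) : TS (σ := .id F) B g := by
  obtain ⟨m, hm⟩ := (ty_nonsplit Nat.prime_two hg h).1
  let B' : LinearMap.BilinForm F ((Fin m → F) × (Fin m → F)) := LinearMap.mk₂ F
    (fun x y => x.1 ⬝ᵥ y.2 - y.1 ⬝ᵥ x.2) (fun _ _ _ => by simp; ring) (fun _ _ _ => by simp; ring)
    (fun _ _ _ => by simp; ring) fun _ _ _ => by simp; ring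
  have h1 : B'.IsAlt := fun x => by simp [B']
  obtain ⟨e, he⟩ := alt_isometric (hA.isRefl.nondegenerate_iff_separatingLeft.mpr hB) hA
    (h1.isRefl.nondegenerate_iff_separatingLeft.mpr fun x hx => Prod.ext
      (funext fun i => by simpa [B'] using hx (0, Pi.single i 1))
      (funext fun i => by simpa [B'] using hx (Pi.single i 1, 0))) h1 (by simp [hm, two_mul])
  refine ts_ns Nat.prime_two (neg_ne_zero.mpr hz) (g' := e.symm.conj
    ((z • LinearMap.snd F _ _).prod (LinearMap.fst F _ _))) (fun x y => ?_)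
    (LinearMap.ext fun x => ?_) hg h
  · simp [← he, B', LinearEquiv.conj_apply, dotProduct_comm]; ring
  · simp [sq, LinearEquiv.conj_apply, LinearEquiv.symm_apply_eq, Prod.ext_iff]

theorem not_ts_alt (hA : B.IsAlt) (hB : B.SeparatingLeft) (h2 : (2 : F) ≠ 0)
    (h3 : 3 ≤ finrank F V) (g : End F V) (hg : g ^ 2 = 1)
    (hm : tyE g = lin (Multiset.replicate (finrank F V - 1) 1 + {-1})) :
    ¬ TS (σ := .id F) B g := by
  classical
  rintro ⟨g', c, -, h4, h5⟩
  have h6 := pow_congr h5 (k := 2) (z := 1) (by simpa using hg)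
  have h7 := lin_smul (h5.trans hm) (-1)
  have h8 : (1 : F) ≠ -1 := fun e => h2 (by linear_combination e)
  rcases mul_self_eq_one_iff.mp (show c * c = 1 by simpa [sq] using h4.pow_eq hB (by omega) h6)
    with rfl | rfl
  · have := even_count_alt (g := (-1 : F) • g') hB hA (fun x y => by simpa using h4 x y) odd_one
    have h9 : (X + 1 : F[X]) ≠ X - 1 := fun e => h8 (by simpa using congrArg (eval 0) e)
    rw [h7] at this
    simp [lin, Multiset.count_replicate, h9] at this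
  · have := tyE_dual (σ := .id F) (N := 2) (a := g') (b := (-1 : F) • g') (fun _ => rfl)
      (by simpa using h2) hB (fun _ => (isForm_alt hA).separatingRight hB)
      (fun x y => by simp [h4 x y]) (by simpa using h6)
    rw [h7, h5, hm, map_du_lin two_pos ((lin_pow hm 2 1).mp (by simpa using hg)) fun _ _ => rfl]
      at this
    have := congrArg (Multiset.count 1) (lin_inj this)
    simp [Multiset.count_replicate, h8, h8.symm] at this
    omega

end bil

theorem prod_even (q : ℤ) (m : ℕ) : ∏ i ∈ Finset.range (2 * m), (q ^ (i + 1) - 1) =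
    (∏ i ∈ Finset.range m, (q ^ (2 * i + 1) - 1)) *
      ∏ i ∈ Finset.range m, (q ^ (2 * (i + 1)) - 1) := by
  induction m with
  | zero => simp
  | succ m ih => rw [mul_add, mul_one, Finset.prod_range_succ, Finset.prod_range_succ, ih,
      Finset.prod_range_succ, Finset.prod_range_succ]; ring

theorem odd_ne [Finite F] [Fact r.Prime] (h0 : (r : F) ≠ 0)
    (h : Even (orderOf ((Nat.card F : ℕ) : ZMod r))) (e m : ℕ) : (((Nat.card F : ℤ) ^ e *
      ∏ i ∈ Finset.range m, ((Nat.card F : ℤ) ^ (2 * i + 1) - 1) : ℤ) : ZMod r) ≠ 0 := by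
  push_cast
  refine mul_ne_zero (pow_ne_zero _ (card_ne_zero h0)) (Finset.prod_ne_zero_iff.mpr fun i _ e => ?_)
  have := h.two_dvd.trans (orderOf_dvd_of_pow_eq_one (sub_eq_zero.mp e))
  omega

theorem du_ne_odd [Finite F] [hr : Fact r.Prime] (h0 : (r : F) ≠ 0) (h2 : r ≠ 2)
    (h : ¬ Even (orderOf ((Nat.card F : ℕ) : ZMod r))) (u : PF F r) :
    du (.id F) r u.1 ≠ u.1 := fun e => by
  obtain ⟨p, hp⟩ := CharP.exists F
  have := Fact.mk (CharP.char_is_prime F p)
  exact h ((exists_pow_eq_neg_one_iff h2 (ord_pos hr.out h0)).1.mp (by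
    simpa using (du_eq_iff (p := p) (k := 0) (fun _ => rfl) (by simp) hr.out u).mp e))

theorem ts_fpf [Finite F] [hr : Fact r.Prime] {B : V →ₗ[F] V →ₗ[F] F} (hQ : IsQuad B Q)
    (hB : B.SeparatingLeft) (h2 : (2 : F) ≠ 0) (h0 : (r : F) ≠ 0) (h1 : ¬ r ∣ Nat.card F - 1) {m : ℕ}
    (hn : finrank F V = 2 * (m + 1)) (hc : ((Nat.card F : ℕ) : ZMod r) ^ (2 * (m + 1)) = 1)
    (H : ∀ g, LinearMap.det g = 1 → PE r g → TS (σ := .id F) B g) :
    (WittIdx B Q (m + 1) → ((Nat.card F : ℕ) : ZMod r) ^ (m + 1) = 1) ∧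
      (WittIdx B Q m → ((Nat.card F : ℕ) : ZMod r) ^ (m + 1) = -1) := by
  obtain ⟨k, hk⟩ := orderOf_dvd_of_pow_eq_one hc
  obtain ⟨u, e1, e2⟩ := exists_irrD hr.out h0
  obtain ⟨g, e3, e4, e5, e6⟩ := exists_sl_of_ty (V := V) h1 (s := Multiset.replicate k u)
    (fun v hv => Multiset.eq_of_mem_replicate hv ▸ e1)
    ⟨u, Multiset.mem_replicate.mpr ⟨by rintro rfl; omega, rfl⟩, e2⟩
    (by rw [dg_replicate, IrrD.deg hr.out e1 e2, hn, hk, mul_comm])
  obtain ⟨g', e7, e8⟩ := (H g e3 e5).isom hB (by omega) (fun c => pow_eq_one_unit h1) e4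
  have e9 : g' ^ r = 1 := by simpa using pow_congr e8 (k := r) (z := 1) (by simpa using e4)
  obtain ⟨g', rfl⟩ := exists_equiv_of_pow hr.out.ne_zero e9
  exact fpf_congr hQ hB hr.out h0 ⟨g', hQ.mem_isom.mpr fun x => mul_left_cancel₀ h2 (by
    simpa [hQ.diag'] using e7 x x)⟩ e9 (fun e => e2 (Multiset.eq_of_mem_replicate
      (e8.trans e6 ▸ e)).symm) hn

theorem root_herm [Finite F] {q : ℕ} (hq : QConj σ q) (h : r ∣ q - 1) (c z : F) (hz : z ≠ 0)
    (hc : σ c = c) (e : c ^ r = σ z * z) : ∃ w, w ^ r = z := by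
  obtain ⟨k, hk⟩ := h
  have h1 := hq.two_le
  obtain ⟨a, ha⟩ := IsCyclic.exists_monoid_generator (α := Fˣ)
  obtain ⟨i, hi⟩ := ha (.mk0 z hz)
  obtain rfl : (a ^ i : F) = z := by simpa using congrArg Units.val hi
  have h2 : c ^ (q - 1) = 1 := mul_right_cancel₀ (b := c) (by
    rintro rfl
    have : r ≠ 0 := by rintro rfl; omega
    simp [this] at e) (by rw [← pow_succ, Nat.sub_add_cancel (by omega), ← hq.eq, hc, one_mul])
  have h3 : a ^ (i * ((q + 1) * k)) = 1 := Units.ext (by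
    simp only [pow_mul, Units.val_pow_eq_pow_val]
    rw [pow_succ, ← hq.eq, ← e, ← pow_mul, ← hk, h2, Units.val_one])
  have h4 := orderOf_dvd_of_pow_eq_one h3
  rw [orderOf_eq_card_of_forall_mem_powers ha, hq.card_units, hk, mul_left_comm] at h4
  obtain ⟨j, rfl⟩ := Nat.dvd_of_mul_dvd_mul_right (Nat.pos_of_ne_zero fun e => by
    simp at e; simp [e] at hk; omega) h4
  exact ⟨a ^ j, by rw [← pow_mul, mul_comm]⟩

end Cfsg.Agent.H18.El
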