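import Mathlib
import Cfsg.Agent.H26.Proper
import Cfsg.Agent.H18.Li5

/-! Elements of prime order, tensor product subgroups and extension field subgroups. -/

set_option autoImplicit false

namespace Cfsg.Agent.H18.El

open Module Polynomial H11 L0 H10 Geo Kronecker

universe u

variable {F : Type u} [Field F] {ι κ β : Type} [Fintype ι] [DecidableEq ι] [Fintype κ]
  [DecidableEq κ] [Fintype β] [DecidableEq β] {r : ℕ}
  {V W : Type*} [AddCommGroup V] [Module F V] [FiniteDimensional F V] [AddCommGroup W] [Module F W]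
  [FiniteDimensional F W]

theorem ty_trA (e : ι ≃ κ) (P : GL ι F) (x : Matrix κ κ F) : ty (H26.trA e P x) = ty x := by
  rw [H26.trA_apply, H26.cj_apply, ty_conj]; exact ty_reindex e.symm x

theorem ty_one_kron (B : Matrix β β F) :
    ty ((1 : Matrix κ κ F) ⊗ₖ B) = Fintype.card κ • ty B := by
  obtain ⟨m, g, h1, ⟨e, he⟩, h3⟩ := exists_mdl_ty B
  refine (IsMdl.tyE_eq (g := fun x : Σ _ : κ, Fin m => g x.2) ⟨((LinearEquiv.curry F F κ β).trans
    (LinearEquiv.piCongrRight fun _ => e)).trans (LinearEquiv.piCurry F _).symm, fun v k => ?_⟩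
    fun x => h1 _).trans ?_
  · refine Eq.trans (congrArg (fun x => e x k.2) (funext fun i => ?_)) (he _ k.2)
    simp [Matrix.mulVec, dotProduct, Fintype.sum_prod_type, Matrix.one_apply]
  · rw [h3, ← Multiset.sum_map_singleton (Multiset.map _ _), ← Multiset.sum_map_singleton
      (Multiset.map g _), Multiset.map_map, Multiset.map_map]
    exact (Fintype.sum_sigma fun x : Σ _ : κ, Fin m => ({g x.2} : Multiset F[X])).trans
      (Finset.sum_const (∑ y, ({g y} : Multiset F[X])))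

theorem rank_lin {A : Matrix ι ι F} {k : ℕ} {m : Multiset F}
    (h : ty A = lin (Multiset.replicate k 1 + m)) : (A - 1).rank ≤ m.card := by
  classical
  have h1 := rank_aeval_add A (X - C 1)
  have h2 := lin_card h
  rw [ty, ← kdE_eq_sum, lin_kd h] at h1
  simp at h1 h2
  omega

theorem exists_tv (p : ℕ) [hp : Fact p.Prime] [CharP F p] (h : 2 ≤ finrank F V) :
    ∃ g : End F V, LinearMap.det g = 1 ∧ g ≠ 1 ∧ PE p g ∧
      ∀ A : Matrix ι ι F, ty A = tyE g → (A - 1).rank ≤ 1 := by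
  obtain ⟨g, e1, -, e2, e3, -⟩ := exists_unip_one (F := F) p one_lt_two hp.out.two_le h
  refine ⟨g, e1, fun e => e2.2 1 (by simpa), e2, fun A hA => ?_⟩
  have h1 := rank_unip (A := A) (μ := Multiset.replicate (finrank F V - 2) 1 + {2})
    (by simpa [e3] using hA) 1
  have h2 := sum_natDegree_ty A
  rw [hA, ← finrank_eq_sum_tyE] at h2
  simp at h1
  omega

theorem exists_half {g : End F V} {a b m : ℕ} (hn : finrank F V = 2 * m)
    (h : tyE g = lin (Multiset.replicate (2 * a) 1 + Multiset.replicate (2 * b) (-1))) :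
    ∃ D : GL (Fin m) F, ty ((1 : Matrix (Fin 2) (Fin 2) F) ⊗ₖ D.1) = tyE g := by
  have := lin_card h
  obtain ⟨y, hy⟩ := exists_diag (V := Fin m → F)
    (m := Multiset.replicate a (1 : F) + Multiset.replicate b (-1)) (by simp at this ⊢; omega)
  obtain ⟨D, rfl⟩ := Matrix.toLin'.surjective y
  obtain ⟨D, rfl⟩ : IsUnit D := (Matrix.isUnit_iff_isUnit_det D).mpr (by
    simp [← LinearMap.det_toLin', lin_det hy])
  refine ⟨D, ?_⟩
  rw [ty_one_kron, h, ty, hy]
  simp [lin, Multiset.nsmul_replicate]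

theorem exists_sq_mat {z : F} (hz : ∀ w, w ^ 2 ≠ z) : ∃ C : GL (Fin 2) F,
    (C.1 ⊗ₖ (1 : Matrix β β F)) ^ 2 = z • 1 := by
  obtain ⟨y, hy⟩ := exists_nonsplit (V := Fin 2 → F) Nat.prime_two hz (by simp)
  obtain ⟨C, rfl⟩ := Matrix.toLin'.surjective y
  have h : C * C = z • 1 := Matrix.toLin'.injective (by simpa [sq] using! hy)
  obtain ⟨C, rfl⟩ : IsUnit C := isUnit_of_mul_isUnit_left (y := C) (by
    simpa [h, Matrix.isUnit_iff_isUnit_det] using fun e : z = 0 => hz 0 (by simp [e]))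
  exact ⟨C, by rw [sq, ← Matrix.mul_kronecker_mul, h]; simp [Matrix.smul_kronecker]⟩

theorem ty_ns (hr : r.Prime) {A : Matrix ι ι F} {g : End F V} {z : F} (h : A ^ r = z • 1)
    (hg : g ^ r = z • 1) (hz : ∀ w, w ^ r ≠ z) (hn : Fintype.card ι = finrank F V) :
    ty A = tyE g := by
  rw [ty, (ty_nonsplit hr hg hz).2.1, (ty_nonsplit hr (by
    rw [← Matrix.toLin'_pow, h]; simp; rfl) hz).2.1, finrank_fintype_fun_eq_card, hn]

theorem eq_one_of_ty_one {g : End F V} (h : ty (1 : Matrix ι ι F) = tyE g) : g = 1 := by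
  simpa using pow_congr h.symm (k := 1) (z := 1) (by simp; rfl)

/-- Similar to a Kronecker product. -/
def TK (a b : ℕ) (g : End F V) : Prop :=
  ∃ (A : GL (Fin a) F) (B : GL (Fin b) F), ty (A.1 ⊗ₖ B.1) = tyE g

variable {a b : ℕ}

theorem ti_iff_tk (e : ι ≃ Fin a × Fin b) (P : GL ι F) (g : End F (ι → F)) :
    TI (tensorProductSubgroup a b e P) g ↔ TK a b g := by
  refine ⟨fun ⟨h, h1, h2⟩ => ?_, fun ⟨A, B, h⟩ => ⟨H26.trG e P (A.kronecker B),
    (H26.mem_tensorProductSubgroup ..).mpr ⟨A, B, rfl⟩, (ty_trA e P _).trans h⟩⟩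
  obtain ⟨A, B, h3⟩ := (H26.mem_tensorProductSubgroup ..).mp h1
  exact ⟨A, B, by rw [← ty_trA e P, ← h3, ← h2, ty]⟩

theorem TK.smul (g : End F V) (c : F) (hc : c ≠ 0) (h : TK a b (c • g)) : TK a b g := by
  obtain ⟨A, B, h⟩ := h
  refine ⟨Units.mk0 c⁻¹ (inv_ne_zero hc) • A, B, ?_⟩
  have := tyE_smul_congr h c⁻¹
  rwa [inv_smul_smul₀ hc, ← map_smul, ← Matrix.smul_kronecker] at this

open Classical in
theorem TK.dvd {g : End F V} (h : TK a b g) (H : ∀ (A : GL (Fin a) F) (B : GL (Fin b) F),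
    ty (A.1 ⊗ₖ B.1) = tyE g → ∃ c : F, A.1 = c • 1) (u : F[X]) : a ∣ (tyE g).count u := by
  obtain ⟨A, B, h⟩ := h
  obtain ⟨c, hc⟩ := H A B h
  rw [← h, hc, Matrix.smul_kronecker, ← Matrix.kronecker_smul, ty_one_kron]
  simp

open Classical in
theorem TK.dvd_of_rank {g : End F V} (h : TK a b g)
    (H : ∀ A : Matrix (Fin a × Fin b) _ F, ty A = tyE g → (A - 1).rank < b) (u : F[X]) :
    a ∣ (tyE g).count u :=
  h.dvd (fun _ B e => H26.scalar_left_of_kronecker_rank (b := B.1) (by simpa using H _ e)) u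

theorem TK.eq_one {g : End F V} (h : TK a b g) (hab : a ≤ b)
    (H : ∀ A : Matrix (Fin a × Fin b) _ F, ty A = tyE g → (A - 1).rank < a) : g = 1 := by
  obtain ⟨A, B, h⟩ := h
  have := H _ h
  exact eq_one_of_ty_one (H26.eq_one_of_kronecker_rank (.refl _) 1 (g := A.1 ⊗ₖ B.1) (a := A.1)
    (b := B.1) (by simp [H26.trA_apply]) (by simpa) (by simp; omega) ▸ h)

theorem not_tk_small [Finite F] [hr : Fact r.Prime] (h0 : (r : F) ≠ 0)
    (h1 : ¬ r ∣ Nat.card F - 1) (h : orderOf ((Nat.card F : ℕ) : ZMod r) ≤ finrank F V)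
    (ha : 2 ≤ a) (hab : a < b) : ¬ ∀ g : End F V, LinearMap.det g = 1 → PE r g → TK a b g := by
  classical
  intro H
  obtain ⟨g, k, u, e1, e2, e3, e4, e5, e6, -, e7⟩ := exists_small h0 h1 h
  have : a ∣ (tyE g).count u := (H g e1 e3).dvd (fun A B e => ?_) u
  · simp [e7, Multiset.count_replicate, e5.symm] at this; omega
  by_cases h2 : u.natDegree < b
  · exact H26.scalar_left_of_kronecker_rank (by
      rw [rank_of_ty (e.trans e7) (r := r) (by simp [e4, e5])]; simpa [dg])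
  have h3 : (A.1 ^ r) ⊗ₖ (B.1 ^ r) = 1 := by
    have := pow_congr e (k := r) (z := 1) (by simpa using e2)
    rw [← Matrix.toLin'_pow, one_smul] at this
    rw [← show ∀ k, (A.1 ⊗ₖ B.1) ^ k = (A.1 ^ k) ⊗ₖ (B.1 ^ k) from fun k => by
      induction k <;> simp [pow_succ, Matrix.mul_kronecker_mul, *]]
    exact Matrix.toLin'.injective (this.trans Matrix.toLin'_one.symm)
  obtain ⟨c, hc⟩ := H26.scalar_left_of_kronecker_rank (a := A.1 ^ r) (b := B.1 ^ r)
    (by simp [h3]; omega)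
  obtain ⟨d, hd⟩ := exists_pow_of h1 c⁻¹
  have h4 : c ≠ 0 := by
    rintro rfl
    have : Nonempty (Fin a) := ⟨⟨0, by omega⟩⟩
    exact (A ^ r).ne_zero (by simpa using hc)
  have h5 := Nat.eq_zero_of_dvd_of_lt (ord_dvd_rank hr.out h0 (A := d • A.1) (by
    rw [_root_.smul_pow, hd, hc, inv_smul_smul₀ h4]))
    (((d • A.1 - 1).rank_le_width.trans_lt hab).trans_le (by omega))
  have h6 : d ≠ 0 := by rintro rfl; exact inv_ne_zero h4 (by simp [← hd, hr.out.ne_zero])
  exact ⟨d⁻¹, by rw [← sub_eq_zero.mp (Matrix.toLin'.map_eq_zero_iff.mp (LinearMap.range_eq_bot.mp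
    (Submodule.finrank_eq_zero.mp h5))), inv_smul_smul₀ h6]⟩

section fld
variable {K : Subalgebra F (Matrix ι ι F)} {k : ℕ} {E : Type u} [Field E] [Algebra F E]
  {φ : E →ₐ[F] Matrix ι ι F}

theorem exists_phi [Nonempty ι] (hK : IsFieldSubalgebra k K) : ∃ (E : Type u) (_ : Field E)
    (_ : Algebra F E) (φ : E →ₐ[F] Matrix ι ι F), K = φ.range ∧ finrank F E = k :=
  letI := (H26.isField_of_isFieldSubalgebra hK).toField
  ⟨K, _, _, K.val, K.range_val.symm, hK.finrank_eq⟩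

theorem TI.eq_one (hK : IsFieldSubalgebra k K) {g : End F (ι → F)}
    (h : TI (subalgebraNormalizer K) g) {m : ℕ} (h1 : 2 * m < Fintype.card ι) (h2 : m < k)
    (H : ∀ A : Matrix ι ι F, ty A = tyE g → (A - 1).rank ≤ m) : g = 1 := by
  obtain ⟨h, h3, h4⟩ := h
  have h5 := H _ h4
  have h6 := H26.comm_of_mem_normalizer_field hK h3 (by omega)
  suffices h.1 - 1 = 0 from eq_one_of_ty_one (sub_eq_zero.mp this ▸ h4)
  refine Matrix.toLin'.map_eq_zero_iff.mp (LinearMap.ext fun w => by_contra fun h7 => ?_)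
  have := LinearMap.finrank_le_finrank_of_injective (f := LinearMap.codRestrict
    (LinearMap.range (h.1 - 1).mulVecLin) ((Matrix.mulVecBilin F F).flip ((h.1 - 1).mulVec w) ∘ₗ
      K.val.toLinearMap) fun x => ⟨x.1.mulVec w, by
        simp [Matrix.sub_mulVec, h6 x x.2]⟩)
    ((injective_iff_map_eq_zero _).mpr fun x hx => by_contra fun e => h7
      (Matrix.mulVec_injective_iff_isUnit.mpr (H26.isUnit_of_mem_field hK x.2 (by simpa using e))
        ((congrArg Subtype.val hx).trans (Matrix.mulVec_zero _).symm)))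
  rw [hK.finrank_eq] at this
  exact absurd (this.trans h5) (by omega)

theorem ti_norm (α : E ≃ₐ[F] E) {A : Matrix ι ι F} (hA : IsUnit A)
    (H : ∀ x, A * φ x = φ (α x) * A) {g : End F (ι → F)} (h : ty A = tyE g) :
    TI (subalgebraNormalizer φ.range) g := by
  obtain ⟨A, rfl⟩ := hA
  refine ⟨A, fun x => ⟨?_, fun ⟨y, hy⟩ => ⟨α.symm y, ?_⟩⟩, h⟩
  · rintro ⟨x, rfl⟩
    exact ⟨α x, by simp [H]⟩
  · rw [← A.mul_right_inj, AlgHom.toRingHom_eq_coe, RingHom.coe_coe, H, α.apply_symm_apply,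
      show φ y = _ from hy, Units.inv_mul_cancel_right]

theorem scalars_le_norm : scalars ι F ≤ subalgebraNormalizer K := fun z hz x => by
  obtain ⟨c, hc⟩ := (mem_scalars_iff z).mp hz
  rw [show z.1 * x = x * z.1 by simp [hc], Units.mul_inv_cancel_right]

theorem exists_rt [Finite F] (hr : r.Prime) (hE : finrank F E = r) {z : F} (hz : ∀ w, w ^ r ≠ z) :
    ∃ x : E, x ^ r = algebraMap F E z := by
  have := Fact.mk ((X_pow_sub_C_irreducible_iff_of_prime hr).mpr hz)
  have := finite_adjoinRoot this.out.ne_zero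
  have := Module.finite_of_finrank_pos (hE ▸ hr.pos)
  have := Module.finite_of_finite F (M := E)
  obtain ⟨f⟩ := FiniteField.nonempty_algHom_of_finrank_dvd (F := F)
    (K := AdjoinRoot (X ^ r - C z)) (L := E) (by
      rw [(AdjoinRoot.powerBasis (X_pow_sub_C_ne_zero hr.pos z)).finrank, hE]; simp)
  exact ⟨f (AdjoinRoot.root _), by rw [← map_pow, root_X_pow_sub_C_pow, ← f.commutes]; rfl⟩

theorem phi_pow {x : E} {z : F} (h : x ^ r = algebraMap F E z) : φ x ^ r = z • 1 := by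
  rw [← map_pow, h, φ.commutes, Algebra.algebraMap_eq_smul_one]

theorem ti_ns [Finite F] (hr : r.Prime) (hE : finrank F E = r) (g : End F (ι → F)) (z : F)
    (h0 : z ≠ 0) (hg : g ^ r = z • 1) (hz : ∀ w, w ^ r ≠ z) :
    TI (subalgebraNormalizer φ.range) g := by
  obtain ⟨x, hx⟩ := exists_rt hr hE hz
  exact ti_norm 1 (IsUnit.map φ (Ne.isUnit (by
    rintro rfl; exact h0 (by simpa [hr.ne_zero] using hx.symm))))
    (fun y => by rw [← map_mul, ← map_mul, mul_comm]; rfl) (ty_ns hr (phi_pow hx) hg hz (by simp))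

theorem exists_frob [Finite F] [Nonempty ι] (hE : finrank F E = Fintype.card ι)
    (h1 : Fintype.card ι ≠ 1) : ∃ g : End F (ι → F), g ^ Fintype.card ι = 1 ∧ (∀ c : F, g ≠ c • 1) ∧
      TI (subalgebraNormalizer φ.range) g := by
  have := Fintype.ofFinite F
  have := Module.finite_of_finrank_pos (hE ▸ Fintype.card_pos)
  have := Module.finite_of_finite F (M := E)
  have h2 := FiniteField.orderOf_frobeniusAlgEquivOfAlgebraic F E
  set α := FiniteField.frobeniusAlgEquivOfAlgebraic F E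
  obtain ⟨v, hv⟩ := exists_ne (0 : ι → F)
  let ψ : E ≃ₗ[F] (ι → F) := LinearMap.linearEquivOfInjective
    ((Matrix.mulVecBilin F F).flip v ∘ₗ φ.toLinearMap) ((injective_iff_map_eq_zero _).mpr
      fun x hx => by_contra fun e => hv (Matrix.mulVec_injective_iff_isUnit.mpr
        ((Ne.isUnit e).map φ) (by simpa using hx))) (by simp [hE])
  have h3 : ∀ x y, (φ x).mulVec (ψ y) = ψ (x * y) := fun x y => by simp [ψ]
  have h4 : ψ.conj α.toLinearMap ^ Fintype.card ι = 1 := by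
    change ψ.conjRingEquiv α.toLinearMap ^ _ = 1
    rw [← hE, ← h2, ← map_pow, ← AlgEquiv.pow_toLinearMap,
      pow_orderOf_eq_one, AlgEquiv.one_toLinearMap, map_one]
  refine ⟨_, h4, fun c hc => h1 ?_, ti_norm α (A := LinearMap.toMatrix' (ψ.conj α.toLinearMap))
    (Matrix.isUnit_toLin'_iff.mp (by
      simpa using IsUnit.of_pow_eq_one h4 Fintype.card_ne_zero)) (fun x => ?_) (by simp [ty])⟩
  · have h5 : ∀ x, α x = c • x := fun x => ψ.injective (by
      simpa [LinearEquiv.conj_apply] using LinearMap.congr_fun hc (ψ x))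
    have h6 : c = 1 := smul_left_injective F (one_ne_zero (α := E)) (by simpa using (h5 1).symm)
    rw [← hE, ← h2, orderOf_eq_one_iff]
    exact AlgEquiv.ext fun x => by simp [h5, h6]
  · refine Matrix.toLin'.injective (LinearMap.ext fun w => ?_)
    obtain ⟨w, rfl⟩ := ψ.surjective w
    simp [h3, LinearEquiv.conj_apply]

theorem ti_half [Finite F] (h2 : (2 : F) ≠ 0) (hE : finrank F E = 2) {m : ℕ}
    (hn : Fintype.card ι = 2 * m) (g : End F (ι → F)) (a b : ℕ) (_ : g ^ 2 = 1)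
    (h : tyE g = lin (Multiset.replicate (2 * a) 1 + Multiset.replicate (2 * b) (-1))) :
    TI (subalgebraNormalizer φ.range) g := by
  obtain ⟨D, hD⟩ := exists_half (by simpa using hn) h
  obtain ⟨z, hz⟩ := FiniteField.exists_nonsquare (F := F) fun e =>
    h2 (by simpa [e] using ringChar.Nat.cast_ringChar (R := F))
  have hz : ∀ w, w ^ 2 ≠ z := fun w e => hz ⟨w, by rw [← e, sq]⟩
  obtain ⟨x, hx⟩ := exists_rt Nat.prime_two hE hz
  obtain ⟨C, hC⟩ := exists_sq_mat (β := Fin m) hz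
  let e : ι ≃ Fin 2 × Fin m := Fintype.equivOfCardEq (by simpa)
  obtain ⟨P, hP⟩ := (ty_eq_iff _ (φ x)).mp ((ty_trA e 1 _).trans (ty_ns Nat.prime_two hC (by
    rw [← Matrix.toLin'_pow, phi_pow hx]; simp; rfl) hz (by simp [hn])))
  have h3 : φ x = H26.trA e P (C.1 ⊗ₖ 1) := by simp [← hP, H26.trA_apply, H26.cj_apply]
  have := Subalgebra.isSimpleOrder_of_finrank_prime F E (hE ▸ Nat.prime_two)
  have h4 := (eq_bot_or_eq_top ((Subalgebra.centralizer F {H26.trA e P (1 ⊗ₖ D.1)}).comap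
    φ)).resolve_left fun e => by
      obtain ⟨w, rfl⟩ : x ∈ (⊥ : Subalgebra F E) := e ▸ by
        simp [Subalgebra.mem_centralizer_iff, h3, ← map_mul, ← Matrix.mul_kronecker_mul]
      exact hz w ((algebraMap F E).injective (by simpa using hx))
  exact ti_norm 1 ((Matrix.IsUnit.kronecker isUnit_one D.isUnit).map (H26.trA e P)) (fun y => by
    simpa [Subalgebra.mem_centralizer_iff] using h4.ge (Algebra.mem_top (x := y)))
    ((ty_trA e P _).trans hD)

end fld

theorem exists_swap {g : End F V} (hV : finrank F V = 2) (h : g ^ 2 = 1) (e : ∀ c : F, g ≠ c • 1) :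
    ∃ b : Basis (Fin 2) F V, g (b 0) = b 1 ∧ g (b 1) = b 0 := by
  obtain ⟨v, hv⟩ : ∃ v, LinearIndependent F ![v, g v] := by_contra fun H =>
    (LinearMap.exists_eq_smul_id_of_forall_notLinearIndependent (not_exists.mp H)).elim e
  exact ⟨basisOfLinearIndependentOfCardEqFinrank hv (by simp [hV]), by simp, by
    simpa [sq] using LinearMap.congr_fun h v⟩

theorem ty_eq_two {g : End F V} {g' : End F W} (hV : finrank F V = 2)
    (hW : finrank F W = 2) (h : g ^ 2 = 1) (h' : g' ^ 2 = 1) (e : ∀ c : F, g ≠ c • 1)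
    (e' : ∀ c : F, g' ≠ c • 1) : tyE g = tyE g' := by
  obtain ⟨b, h1, h2⟩ := exists_swap hV h e
  obtain ⟨b', h3, h4⟩ := exists_swap hW h' e'
  refine tyE_congr (b.equiv b' (.refl _)) fun v => LinearMap.congr_fun (b.ext
    (f₁ := (b.equiv b' (.refl _)).toLinearMap ∘ₗ g)
    (f₂ := g' ∘ₗ (b.equiv b' (.refl _)).toLinearMap) fun i => ?_) v
  fin_cases i <;> simp [*]

theorem exists_ty_pred [Finite F] (hr : r.Prime) (h2 : r ≠ 2) (h0 : (r : F) ≠ 0)
    (hc : orderOf ((Nat.card F : ℕ) : ZMod r) = r - 1) (hV : finrank F V = r) :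
    ∃ s, ∀ g : End F V, g ^ r = 1 → g ≠ 1 → tyE g = s := by
  obtain ⟨h3, h4⟩ := card_PF hr h0
  have := hr.two_le
  obtain ⟨u, hu⟩ := Nat.card_eq_one_iff_exists.mp
    (Nat.eq_of_mul_eq_mul_right (by omega) (hc ▸ h4.trans (one_mul _).symm))
  refine ⟨{X - 1} + {u.1}, fun g hg e => ?_⟩
  obtain ⟨a, A, h5, h6⟩ := ty_split h0 hg
  have h7 : A = Multiset.replicate _ u.1 := Multiset.eq_replicate_card.mpr fun v hv =>
    congrArg Subtype.val (hu ⟨v, h6 v hv⟩)
  have h8 := finrank_dg g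
  rw [h5, h7, dg_add, dg_replicate, dg_replicate, natDegree_X_sub_one, IrrD.deg hr u.2.1 u.2.2,
    hc, hV] at h8
  have h9 : A.card ≠ 0 := fun e' => e (eq_one_of_ty fun v hv =>
    Multiset.eq_of_mem_replicate (by simpa [h5, Multiset.card_eq_zero.mp e'] using hv))
  have h10 : A.card = 1 := by
    by_contra e'
    have := Nat.mul_le_mul_right (r - 1) (show 2 ≤ A.card by omega)
    omega
  rw [h5, h7, h10, show a = 1 by rw [h10] at h8; omega]; rfl

theorem ti_pred [Finite F] [Nonempty ι] {E : Type u} [Field E] [Algebra F E]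
    {φ : E →ₐ[F] Matrix ι ι F} (hr : r.Prime) (h2 : r ≠ 2) (h0 : (r : F) ≠ 0)
    (hc : orderOf ((Nat.card F : ℕ) : ZMod r) = r - 1) (hE : finrank F E = r)
    (hn : Fintype.card ι = r) (g : End F (ι → F)) (hd : LinearMap.det g = 1) (hg : PE r g) :
    TI (subalgebraNormalizer φ.range) g := by
  have := Fact.mk hr
  have := hr.two_le
  rcases pe_cases hr.ne_zero (by simp; omega) (by simp [hd]) hg with ⟨c, e1, e2, e3⟩ | ⟨z, e1, -, e3⟩
  · obtain ⟨s, hs⟩ := exists_ty_pred (V := ι → F) hr h2 h0 hc (by simpa)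
    obtain ⟨y, e4, e5, h, e6, e7⟩ := exists_frob (φ := φ) (hE.trans hn.symm) (by omega)
    exact TI.smul scalars_le_norm g c e1 ⟨h, e6, by
      rw [e7, hs _ e2 e3, hs y (hn ▸ e4) fun e => e5 1 (by simpa)]⟩
  · have := (ord_eq_one_iff Nat.card_pos).mpr (dvd_of_nonpow e1 e3)
    omega

theorem eq_roots {m : Multiset F} (h : m.card = 3) (h1 : ∀ a ∈ m, a ^ 3 = 1)
    (h2 : ∀ a b, m ≠ Multiset.replicate 2 a + {b}) : m = nthRoots 3 1 := by
  refine Multiset.eq_of_le_of_card_le ((Multiset.le_iff_subset (Multiset.nodup_iff_le.mpr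
    fun a ha => ?_)).mpr fun a ha => (mem_nthRoots (by omega)).mpr (h1 a ha))
    ((card_nthRoots 3 1).trans h.ge)
  obtain ⟨t, rfl⟩ := Multiset.le_iff_exists_add.mp ha
  obtain ⟨b, rfl⟩ := Multiset.card_eq_one.mp (show t.card = 1 by simp at h; omega)
  exact h2 a b rfl

end Cfsg.Agent.H18.El
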