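import Cfsg.Agent.H11.GForm2
import Cfsg.Agent.H11.OInn
import Cfsg.Agent.H11.OOut3

/-! Centralizers of semisimple isometries of odd order in orthogonal groups. -/

set_option autoImplicit false

namespace Cfsg.Agent.H18.Sm

open Module Polynomial Function Cfsg.Agent.H11

theorem field_solve {K : Type*} [Field K] [Finite K] (h2 : (2 : K) ≠ 0) {D : K} (hD : D ≠ 0) (c : K) :
    ∃ u y, u ^ 2 - D * y ^ 2 = c := by
  haveI := Fintype.ofFinite K
  obtain ⟨a, b, e⟩ := FiniteField.exists_root_sum_quadratic (R := K) (f := X ^ 2 - C c)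
    (g := C (-D) * X ^ 2) (degree_X_pow_sub_C two_pos c) (degree_C_mul_X_pow 2 (neg_ne_zero.2 hD))
    (by have := mt (H10.two_eq_zero_iff_even_card (F := K)).2 h2; omega)
  exact ⟨a, b, by simp at e; linear_combination e⟩

theorem two_ne_alg {F K : Type*} [Field F] [Field K] [Algebra F K] (h2 : (2 : F) ≠ 0) :
    (2 : K) ≠ 0 := by
  rw [← map_ofNat (algebraMap F K)]
  exact (_root_.map_ne_zero _).2 h2

theorem ring_solve {F R : Type*} [Field F] [CommRing R] [Algebra F R] [Finite R] [IsReduced R]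
    (h2 : (2 : F) ≠ 0) {D : R} (hD : IsUnit D) (c : R) : ∃ u y, u ^ 2 - D * y ^ 2 = c := by
  have key : ∀ m : MaximalSpectrum R, ∃ u y : R ⧸ m.asIdeal,
      u ^ 2 - Ideal.Quotient.mk _ D * y ^ 2 = Ideal.Quotient.mk _ c := fun m => by
    haveI := m.isMaximal
    letI := Ideal.Quotient.field m.asIdeal
    haveI : Finite (R ⧸ m.asIdeal) := Finite.of_surjective _ Ideal.Quotient.mk_surjective
    exact field_solve (two_ne_alg h2) (hD.map _).ne_zero _
  choose u y h using key
  refine ⟨(IsArtinianRing.equivPi R).symm u, (IsArtinianRing.equivPi R).symm y,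
    (IsArtinianRing.equivPi R).injective (funext fun m => ?_)⟩
  simp only [map_sub, map_mul, map_pow, AlgEquiv.apply_symm_apply]
  exact h m

variable {F V : Type*} [Field F] [AddCommGroup V] [Module F V] [FiniteDimensional F V]
  {B : V →ₗ[F] V →ₗ[F] F} {Q : V → F}

theorem exists_neg_on [Finite F] (h : IsQuad B Q) (h2 : (2 : F) ≠ 0) {K : Type*} [AddCommGroup K]
    [Module F K] {n : ℕ} (b : Basis (Fin (n + 1)) F K) (φ : K →ₗ[F] V)
    (hφ : (pull B φ).SeparatingLeft) : ∃ l : List V, (∀ v ∈ l, Q v ≠ 0) ∧ l.length = n + 1 ∧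
      (∀ x, ((l.map h.reflO).prod).1 (φ x) = -φ x) ∧
      (∀ y, (∀ x, B (φ x) y = 0) → ((l.map h.reflO).prod).1 y = y) ∧
      ∃ t, t ≠ 0 ∧ (gram (pull B φ) b).det = t * t * (2 ^ (n + 1) * (l.map Q).prod) := by
  haveI := Module.Finite.of_basis b
  obtain ⟨c, h1, h3, h4⟩ := IsQuad.exists_orth_basis (h.comp φ) hφ h2 (n := n)
    (by simpa using finrank_eq_card_basis b) one_ne_zero
  have hc : ∀ i, Q (φ (c i)) ≠ 0 := Fin.lastCases h4 fun i => by simp [h3]
  have hl : ∀ v ∈ List.ofFn fun i => φ (c i), Q v ≠ 0 := by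
    simpa [List.mem_ofFn', -List.ofFn_succ] using hc
  obtain ⟨h5, h6⟩ := h.prod_reflO_orth _ hl (List.pairwise_ofFn.mpr fun i j hij => h1 i j hij.ne)
  obtain ⟨t, ht0, ht⟩ := exists_gram_det_eq (pull B φ) c b
  refine ⟨_, hl, List.length_ofFn, fun x => ?_, fun y hy => h6 y fun v hv => ?_, t, ht0, ?_⟩
  · have : (((List.ofFn fun i => φ (c i)).map h.reflO).prod).1.toLinearMap ∘ₗ φ = -φ :=
      c.ext fun i => h5 _ (by rw [List.mem_ofFn]; exact ⟨i, rfl⟩)
    exact DFunLike.congr_fun this x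
  · obtain ⟨i, rfl⟩ := List.mem_ofFn.1 hv
    exact hy _
  · rw [ht, gram_det_orth _ c h1, List.map_ofFn, List.prod_ofFn]
    simp only [pull_apply, h.diag', Finset.prod_mul_distrib, Finset.prod_const, Finset.card_univ,
      Fintype.card_fin, Function.comp, RingHom.id_apply]

/-- Self-adjoint polynomials in an endomorphism. -/
def RR (B : V →ₗ[F] V →ₗ[F] F) (G : End F V) : Subalgebra F (End F V) where
  carrier := {x | x ∈ Algebra.adjoin F {G} ∧ ∀ u v, B (x u) v = B u (x v)}
  mul_mem' {a b} ha hb := ⟨mul_mem ha.1 hb.1, fun u v => by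
    rw [End.mul_apply, ha.2, hb.2, ← End.mul_apply, (Algebra.commute_of_mem_adjoin_singleton_of_commute
      ha.1 (Algebra.commute_of_mem_adjoin_self hb.1).symm).eq]⟩
  add_mem' {a b} ha hb := ⟨add_mem ha.1 hb.1, fun u v => by simp [ha.2, hb.2]⟩
  algebraMap_mem' c := ⟨algebraMap_mem _ c, fun u v => by simp⟩

omit [FiniteDimensional F V] in
theorem comm_adj {G a b : End F V} (ha : a ∈ Algebra.adjoin F {G}) (hb : b ∈ Algebra.adjoin F {G}) :
    a * b = b * a :=
  (Algebra.commute_of_mem_adjoin_singleton_of_commute hb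
    (Algebra.commute_of_mem_adjoin_self ha).symm).eq

noncomputable instance commRingRR (G : End F V) : CommRing (RR B G) :=
  { (RR B G).toRing with mul_comm := fun a b => Subtype.ext (comm_adj a.2.1 b.2.1) }

theorem reduced_RR {G : End F V} {r : ℕ} (hr : (r : F) ≠ 0) (hG : G ^ r = 1) :
    IsReduced (RR B G) := ⟨fun x hx => Subtype.ext (End.eq_zero_of_isNilpotent_isSemisimple
  (hx.map (RR B G).val) ((End.isSemisimple_of_squarefree_aeval_eq_zero
    (separable_X_pow_sub_C 1 hr one_ne_zero).squarefree (by simp [hG])).of_mem_adjoin_singleton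
      x.2.1))⟩

/-- The data attached to an isometry of odd order prime to the characteristic. -/
structure Dat (B : V →ₗ[F] V →ₗ[F] F) (G : End F V) (t e : RR B G) (j : End F V) : Prop where
  red : IsReduced (RR B G)
  jm : j ∈ Algebra.adjoin F {G}
  skew : ∀ x y, B (j x) y = -B x (j y)
  two : t.1 + j = G + G
  sq : j * j = (t * t - 4 : RR B G).1
  Ge : G * e.1 = e.1
  ee : e * e = e
  je : j * e.1 = 0
  fix : ∀ x, j x = 0 → e.1 x = x

omit [FiniteDimensional F V] in
theorem exists_dat (h : IsQuad B Q) (g : Isom B Q) {r : ℕ} (hr : (r : F) ≠ 0) (ho : Odd r)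
    (hg : g ^ r = 1) [FiniteDimensional F V] : ∃ t e j, Dat B g.1.toLinearMap t e j := by
  set G : End F V := g.1.toLinearMap
  let G' : End F V := (g⁻¹).1.toLinearMap
  have hG : G ^ r = 1 := by
    have := congrArg (fun x : Isom B Q => (LinearEquiv.automorphismGroup.toLinearMapMonoidHom x.1)) hg
    simp only [Subgroup.coe_pow, map_pow, OneMemClass.coe_one, map_one] at this
    exact this
  have h1 : G * G' = 1 := LinearMap.ext fun x => g.1.apply_symm_apply x
  have h1' : G' * G = 1 := LinearMap.ext fun x => g.1.symm_apply_apply x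
  have hs : ∀ x y, B x y = B y x := fun x y => by simpa using h.symm y x
  have h3 : ∀ x y, B (G x) y = B x (G' y) := fun x y => by
    rw [← g.2.1 x, show g.1 (G' y) = y from g.1.apply_symm_apply y]; rfl
  have h4 : ∀ x y, B (G' x) y = B x (G y) := fun x y => by rw [hs, ← h3, hs]
  have hm := Algebra.self_mem_adjoin_singleton F G
  obtain ⟨k, rfl⟩ := ho
  have hm' : G' ∈ Algebra.adjoin F {G} := by
    rw [← mul_one G', ← hG, pow_succ', ← mul_assoc, h1', one_mul]
    exact pow_mem hm _
  let e : End F V := ((2 * k + 1 : ℕ) : F)⁻¹ • ∑ i ∈ Finset.range (2 * k + 1), G ^ i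
  have em : e ∈ Algebra.adjoin F {G} :=
    Subalgebra.smul_mem _ (Subalgebra.sum_mem _ fun i _ => pow_mem hm i) _
  have h5 : G * e = e := by
    rw [← sub_eq_zero, ← sub_one_mul, mul_smul_comm, mul_geom_sum, hG, sub_self, smul_zero]
  have h5' : G' * e = e := by rw [← h5, ← mul_assoc, h1', one_mul, h5]
  have h6 : ∀ x, G x = x → e x = x := fun x hx => by
    have : ∀ i, (G ^ i) x = x := fun i => (End.pow_apply G i x).trans (iterate_fixed hx i)
    simp only [e, LinearMap.smul_apply, LinearMap.sum_apply, this, Finset.sum_const,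
      Finset.card_range]
    rw [← Nat.cast_smul_eq_nsmul F, smul_smul, inv_mul_cancel₀ hr, one_smul]
  have h7 : ∀ x y, B (e x) (e y) = B (e x) y := fun x y => by
    have : ∀ i y, B (e x) ((G ^ i) y) = B (e x) y := fun i => by
      induction i with
      | zero => simp
      | succ i ih => intro y; rw [pow_succ', End.mul_apply, ← h4, ← End.mul_apply G', h5', ih]
    conv_lhs => rw [show e y = ((2 * k + 1 : ℕ) : F)⁻¹ • ∑ i ∈ Finset.range (2 * k + 1), (G ^ i) y by
      simp [e, LinearMap.sum_apply]]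
    simp only [map_smul, map_sum, this, Finset.sum_const, Finset.card_range, nsmul_eq_mul,
      smul_eq_mul]
    rw [inv_mul_cancel_left₀ hr]
  refine ⟨⟨G + G', add_mem hm hm', fun u v => by simp [h3, h4, add_comm]⟩,
    ⟨e, em, fun u v => by rw [← h7, hs, h7, hs]⟩, G - G', reduced_RR hr hG, sub_mem hm hm',
    fun x y => by simp [h3, h4], by simp, ?_, h5, Subtype.ext (LinearMap.ext fun x =>
      h6 _ (DFunLike.congr_fun h5 x)), by simp [sub_mul, h5, h5'], fun x hx => h6 x ?_⟩
  · change _ = (G + G') * (G + G') - 4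
    rw [show (4 : End F V) = G * G' + G' * G + G * G' + G' * G by rw [h1, h1']; norm_num]
    noncomm_ring
  · have h8 : (G * G) x = x := by
      rw [End.mul_apply, show G x = G' x from sub_eq_zero.1 hx, ← End.mul_apply, h1, End.one_apply]
    have h9 := DFunLike.congr_fun hG x
    rwa [pow_succ', pow_mul, sq, End.mul_apply, End.pow_apply, iterate_fixed h8] at h9

namespace Dat

variable {G : End F V} {t e : RR B G} {j : End F V} (H : Dat B G t e j)
include H

omit [FiniteDimensional F V] in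
theorem ee' (x : V) : e.1 (e.1 x) = e.1 x := DFunLike.congr_fun (congrArg Subtype.val H.ee) x

omit [FiniteDimensional F V] in
theorem cj (a : RR B G) (x : V) : a.1 (j x) = j (a.1 x) :=
  DFunLike.congr_fun (comm_adj a.2.1 H.jm) x

omit [FiniteDimensional F V] in
theorem ej (x : V) : e.1 (j x) = 0 := (H.cj e x).trans (DFunLike.congr_fun H.je x)

omit [FiniteDimensional F V] in
theorem jj (x : V) : j (j x) = (t * t - 4 : RR B G).1 x := DFunLike.congr_fun H.sq x

omit [FiniteDimensional F V] in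
theorem inj {x : V} (h1 : e.1 x = 0) (h2 : j x = 0) : x = 0 := (H.fix x h2).symm.trans h1

theorem unit [Finite F] : IsUnit (t * t - 4 + e) := by
  haveI : Finite (End F V) := Module.finite_of_finite F
  refine IsArtinianRing.isUnit_of_mem_nonZeroDivisors (mem_nonZeroDivisors_iff_right.2 fun x hx =>
    Subtype.ext (LinearMap.ext fun v => ?_))
  rw [mul_comm] at hx
  have h1 : j (j (x.1 v)) + e.1 (x.1 v) = 0 :=
    H.jj _ ▸ DFunLike.congr_fun (congrArg Subtype.val hx) v
  have h2 := congrArg e.1 h1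
  rw [map_add, H.ej, H.ee', zero_add, map_zero] at h2
  rw [h2, add_zero] at h1
  exact H.inj h2 (H.inj (H.ej _) h1)

omit [FiniteDimensional F V] in
theorem alt (h : IsQuad B Q) (h2 : (2 : F) ≠ 0) (x : V) : B x (j x) = 0 := by
  have h1 := H.skew x x
  rw [h.symm] at h1
  refine (mul_eq_zero.1 ?_).resolve_left h2
  simp only [RingHom.id_apply] at h1
  linear_combination h1

omit [FiniteDimensional F V] in
theorem nondeg (hB : B.SeparatingLeft) : NondegOn B (LinearMap.range e.1) := by
  rintro _ ⟨x, rfl⟩ hx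
  exact hB _ fun y => by rw [← H.ee', e.2.2]; exact hx _ ⟨y, rfl⟩

theorem even (h : IsQuad B Q) (hB : B.SeparatingLeft) (h2 : (2 : F) ≠ 0) (he : Even (finrank F V)) :
    Even (finrank F (LinearMap.range e.1)) := by
  let W := LinearMap.ker e.1
  have hA : LinearMap.IsAlt (pull (B.compl₂ j) W.subtype) := fun x => H.alt h h2 x
  have h1 := H10.even_finrank_of_alt (alt_nondeg (fun x hx => Subtype.ext (H.inj x.2 (hB _ fun y => by
    have h3 : B x (j (y - e.1 y)) = 0 := hx ⟨y - e.1 y, by simp [W, H.ee']⟩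
    rw [map_sub, ← H.cj, H.ej, sub_zero] at h3
    rw [H.skew, h3, neg_zero]))) hA) hA
  have h3 := LinearMap.finrank_range_add_finrank_ker e.1
  exact (Nat.even_add.1 (h3 ▸ he)).2 h1

theorem exists_sim [Finite F] (h : IsQuad B Q) (hB : B.SeparatingLeft) (h2 : (2 : F) ≠ 0)
    (he : Even (finrank F V)) {c : F} (hc : c ≠ 0) :
    ∃ δ : V ≃ₗ[F] V, (∀ x y, B (δ x) (δ y) = c * B x y) ∧ ∀ x, δ (G x) = G (δ x) := by
  haveI : Finite (End F V) := Module.finite_of_finite F
  haveI := H.red
  obtain ⟨u, y, h1⟩ := ring_solve h2 H.unit (algebraMap F _ c)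
  obtain ⟨δ, hδ⟩ := (IsQuad.good (h.restrict _) (nondegOn_iff.1 (H.nondeg hB))).exists_sim h2
    (H.even h hB h2 he) hc
  let a : End F V := u.1 + j * y.1
  let f : End F V := (LinearMap.range e.1).subtype ∘ₗ δ.toLinearMap ∘ₗ e.1.rangeRestrict +
    a * (1 - e : RR B G).1
  have hs : ∀ x y, B x y = B y x := fun x y => by simpa using h.symm y x
  have cm : ∀ (a b : RR B G) x, a.1 (b.1 x) = b.1 (a.1 x) := fun a b x =>
    DFunLike.congr_fun (comm_adj a.2.1 b.2.1) x
  have h3 : ∀ (z : LinearMap.range e.1) w, e.1 w = 0 → B z (a w) = 0 := by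
    rintro ⟨_, z, rfl⟩ w hw
    simp [a, e.2.2, H.ej, cm e u, hw]
  have h4 : ∀ v w, e.1 w = 0 → B (a v) (a w) = c * B v w := fun v w hw => by
    have h1' : u * u - (t * t - 4 + e) * (y * y) = algebraMap F _ c := by rw [← h1]; ring
    have h5 : u.1 (u.1 w) - ((t * t - 4 : RR B G).1 (y.1 (y.1 w)) + e.1 (y.1 (y.1 w))) = c • w :=
      DFunLike.congr_fun (congrArg Subtype.val h1') w
    rw [← H.jj, cm e y, cm e y, hw, map_zero, map_zero, add_zero] at h5
    simp only [a, LinearMap.add_apply, End.mul_apply, map_add, u.2.2, y.2.2, H.skew, H.cj, cm u y]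
    rw [← smul_eq_mul, ← map_smul, ← h5, map_sub]
    ring
  have h5 : ∀ x, e.1 (x - e.1 x) = 0 := fun x => by rw [map_sub, H.ee', sub_self]
  have h6 : ∀ x, f x = δ (e.1.rangeRestrict x) + a (x - e.1 x) := fun x => rfl
  have h7 : ∀ x y, B (f x) (f y) = c * B x y := fun x y => by
    have h8 := hδ (e.1.rangeRestrict x) (e.1.rangeRestrict y)
    simp only [pull_apply, Submodule.subtype_apply, LinearMap.codRestrict_apply] at h8
    have h9 : ∀ p q r s, B (p + q) (r + s) = B p r + B p s + B r q + B q s := fun p q r s => by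
      simp only [map_add, LinearMap.add_apply, hs q r]; ring
    rw [h6, h6, h9, h3 _ _ (h5 _), h3 _ _ (h5 _), h4 _ _ (h5 _), h8]
    simp only [map_sub, LinearMap.sub_apply, e.2.2, H.ee']
    ring
  have cG : ∀ b ∈ Algebra.adjoin F {G}, ∀ x, b (G x) = G (b x) := fun b hb x =>
    DFunLike.congr_fun (comm_adj hb (Algebra.self_mem_adjoin_singleton F G)) x
  refine ⟨LinearEquiv.ofInjectiveEndo f ((injective_iff_map_eq_zero f).2 fun x hx => hB _ fun y => ?_),
    h7, fun x => ?_⟩
  · simpa [hx, hc] using h7 x y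
  · have h8 : ∀ z : LinearMap.range e.1, G z = z := by
      rintro ⟨_, z, rfl⟩
      exact DFunLike.congr_fun H.Ge z
    change f _ = G (f _)
    rw [h6, h6, map_add, h8, ← cG a (add_mem u.2.1 (mul_mem H.jm y.2.1)), map_sub G, ← cG _ e.2.1]
    congr 3
    exact Subtype.ext ((cG _ e.2.1 x).trans (DFunLike.congr_fun H.Ge x))

end Dat

end Cfsg.Agent.H18.Sm
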