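import Cfsg.Agent.H18.Sm1
import Cfsg.Agent.H11.OLang2

/-! Fusion of semisimple classes of odd order in orthogonal groups. -/

set_option autoImplicit false

namespace Cfsg.Agent.H18.Sm

open Module Polynomial Function Cfsg.Agent.H11

variable {F V : Type*} [Field F] [AddCommGroup V] [Module F V] [FiniteDimensional F V]
  {B : V →ₗ[F] V →ₗ[F] F} {Q : V → F}

namespace Dat

variable {G : End F V} {t e : RR B G} {j : End F V} (H : Dat B G t e j)
include H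

omit [FiniteDimensional F V] in
theorem perp (h : IsQuad B Q) (h2 : (2 : F) ≠ 0) (v : V) (x y : RR B G) :
    B (x.1 v) (j (y.1 v)) = 0 := by
  have h1 := H.skew (x.1 v) (y.1 v)
  have hs : ∀ x y, B x y = B y x := fun x y => by simpa using h.symm y x
  have h3 : B (j (x.1 v)) (y.1 v) = B (x.1 v) (j (y.1 v)) := by
    rw [hs, ← H.cj, ← H.cj, x.2.2, y.2.2]
    exact congrArg (fun z => B v (z (j v))) (comm_adj y.2.1 x.2.1)
  refine (mul_eq_zero.1 ?_).resolve_left h2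
  linear_combination h1 - h3

omit [FiniteDimensional F V] in
theorem anti (h : IsQuad B Q) (h2 : (2 : F) ≠ 0) {v : V} {σ : V →ₗ[F] V}
    (h1 : ∀ x : RR B G, σ (x.1 v) = -x.1 v) (h3 : ∀ y, (∀ x : RR B G, B (x.1 v) y = 0) → σ y = y)
    (x y : RR B G) : σ (x.1 v + j (y.1 v)) = (-x).1 v + j (y.1 v) ∧
      σ (j (x.1 v + j (y.1 v))) = -j (σ (x.1 v + j (y.1 v))) ∧
      σ (t.1 (x.1 v + j (y.1 v))) = t.1 (σ (x.1 v + j (y.1 v))) := by
  have h4 : ∀ x : RR B G, σ (j (x.1 v)) = j (x.1 v) := fun x => h3 _ fun z => H.perp h h2 v z x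
  have h5 := h1 ((t * t - 4) * y)
  have h6 := h1 (t * x)
  have h7 := h4 (t * y)
  simp only [MulMemClass.coe_mul, End.mul_apply, ← H.jj] at h5 h6 h7
  refine ⟨by simp [h1, h4], ?_, ?_⟩
  · simp only [map_add, h1, h4, h5, map_neg]; abel
  · simp only [map_add, h1, h4, h6, H.cj, h7, map_neg]

theorem exists_spin [Finite F] (h : IsQuad B Q) (hB : B.SeparatingLeft) (h2 : (2 : F) ≠ 0)
    [Nontrivial V] (he : e = 0) : ∃ s : Isom B Q, dick s.1 = 0 ∧ s ∉ commutator (Isom B Q) ∧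
      ∀ x, s.1 (G x) = G (s.1 x) := by
  classical
  haveI : Finite (End F V) := Module.finite_of_finite F
  haveI := H.red
  have hs : ∀ x y, B x y = B y x := fun x y => by simpa using h.symm y x
  obtain ⟨m, hm⟩ := Ideal.exists_maximal (RR B G)
  letI := Ideal.Quotient.field m
  haveI : Finite (RR B G ⧸ m) := Finite.of_surjective _ Ideal.Quotient.mk_surjective
  let mk := Ideal.Quotient.mkₐ F m
  let ε := (IsArtinianRing.equivPi (RR B G)).symm (Pi.single ⟨m, hm⟩ 1)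
  have hε : ∀ x ∈ m, x * ε = 0 := fun x hx => (IsArtinianRing.equivPi (RR B G)).injective
    (funext fun m' => by
      rw [map_mul, AlgEquiv.apply_symm_apply, map_zero, Pi.mul_apply]
      by_cases h : m' = ⟨m, hm⟩
      · subst h
        exact mul_eq_zero_of_left (Ideal.Quotient.eq_zero_iff_mem.2 hx) _
      · simp [h])
  have h0 : ε ≠ 0 := fun h0 => by
    have := congrFun ((IsArtinianRing.equivPi (RR B G)).symm_apply_eq.1 h0) ⟨m, hm⟩
    simp at this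
  have hε1 : ε * ε = ε := by simp [ε, ← map_mul, ← Pi.single_mul]
  obtain ⟨w, hw⟩ : ∃ w, Q (ε.1 w) ≠ 0 := by
    by_contra! h3
    refine h0 (Subtype.ext (LinearMap.ext fun x => hB _ fun y => ?_))
    have h4 := h.add' (ε.1 x) (ε.1 y)
    rw [← map_add, h3, h3, h3, ε.2.2, ← End.mul_apply, ← MulMemClass.coe_mul, hε1, ← ε.2.2] at h4
    simpa using h4.symm
  obtain ⟨τ, hτ⟩ := mk.toLinearMap.exists_rightInverse_of_surjective
    (LinearMap.range_eq_top.2 Ideal.Quotient.mk_surjective)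
  have hτ' : ∀ z, mk (τ z) = z := fun z => DFunLike.congr_fun hτ z
  set v := ε.1 w
  have h3 : ∀ x y, mk x = mk y → x.1 v = y.1 v := fun x y hxy => by
    rw [← sub_eq_zero]
    exact DFunLike.congr_fun (congrArg Subtype.val (hε _ (Ideal.Quotient.eq.1 hxy))) w
  let φ : (RR B G ⧸ m) →ₗ[F] V := LinearMap.applyₗ v ∘ₗ (RR B G).val.toLinearMap ∘ₗ τ
  have h4 : ∀ x, φ (mk x) = x.1 v := fun x => h3 _ _ (hτ' _)
  have h5 : ∀ z z', B (φ z) (φ z') = B v (φ (z * z')) := fun z z' => by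
    rw [← hτ' z, ← hτ' z', ← map_mul, h4, h4, h4, (τ z).2.2]; rfl
  have hφ : (pull B φ).SeparatingLeft := fun z hz => by
    by_contra h6
    have h7 := hz z⁻¹
    rw [pull_apply, h5, mul_inv_cancel₀ h6, ← map_one mk, h4] at h7
    exact mul_ne_zero h2 hw ((h.diag' v).symm.trans h7)
  obtain ⟨c, hc⟩ := FiniteField.exists_nonsquare (F := F) fun h => h2 (by
    rw [← Nat.cast_ofNat, ← h]; exact ringChar.Nat.cast_ringChar)
  obtain ⟨n, hn⟩ := FiniteField.norm_surjective F (RR B G ⧸ m) c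
  have hD := H.unit
  rw [he, add_zero] at hD
  obtain ⟨u, y, h6⟩ := field_solve (two_ne_alg h2) (hD.map mk).ne_zero n
  let b : End F V := (τ u).1 + j * (τ y).1
  have hb : b ∈ Algebra.adjoin F {G} := add_mem (τ u).2.1 (mul_mem H.jm (τ y).2.1)
  have cb : ∀ (x : RR B G) z, x.1 (b z) = b (x.1 z) := fun x z =>
    DFunLike.congr_fun (comm_adj x.2.1 hb) z
  have h7 : ∀ x : RR B G, (τ u).1 (b (x.1 v)) - j ((τ y).1 (b (x.1 v))) = φ (n * mk x) := fun x => by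
    have : n * mk x = mk ((τ u * τ u - (t * t - 4) * (τ y * τ y)) * x) := by
      simp only [map_mul, map_sub, hτ', ← h6]; ring
    rw [this, h4]
    have h8 := DFunLike.congr_fun (comm_adj (τ y).2.1 (τ u).2.1) (x.1 v)
    simp only [End.mul_apply] at h8
    simp only [b, LinearMap.add_apply, End.mul_apply, map_add, H.cj, MulMemClass.coe_mul,
      AddSubgroupClass.coe_sub (τ u * τ u), LinearMap.sub_apply, ← H.jj, h8]
    abel
  have h8 : ∀ z z', B (b (φ z)) (b (φ z')) = B (φ z) (φ (n * z')) := fun z z' => by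
    rw [← hτ' z', ← h7, h4]
    simp only [b, LinearMap.add_apply, End.mul_apply, map_add B, (τ u).2.2, (τ y).2.2, H.skew,
      map_sub (B _), H.cj]
    ring
  have hn0 : n ≠ 0 := fun h => by
    rw [h, Algebra.norm_zero] at hn
    exact hc (hn ▸ IsSquare.zero)
  obtain ⟨k, hk⟩ := Nat.exists_eq_succ_of_ne_zero (finrank_pos (R := F) (M := RR B G ⧸ m)).ne'
  let β := finBasisOfFinrankEq F _ hk
  obtain ⟨l, l1, l2, l3, l4, a, a0, l5⟩ := exists_neg_on h h2 β φ hφ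
  obtain ⟨l', l1', l2', l3', l4', a', a0', l5'⟩ := exists_neg_on h h2 β (b ∘ₗ φ) fun z hz =>
    hφ z fun z' => by
      have := (h8 z (n⁻¹ * z')).symm.trans (hz _)
      rwa [mul_inv_cancel_left₀ hn0] at this
  have hl : ∀ v ∈ l' ++ l, Q v ≠ 0 := fun v hv => (List.mem_append.1 hv).elim (l1' v) (l1 v)
  refine ⟨((l' ++ l).map h.reflO).prod, ?_, fun h9 => hc ?_, fun x => ?_⟩
  · rw [h.dick_prod hB _ hl, List.length_append, l2, l2', ← two_mul]
    simp [show (2 : ZMod 2) = 0 from rfl]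
  · haveI := Fintype.ofFinite F
    have h10 := ((h.prod_mem_commutator_iff hB (h.nonExc_of_two_ne_zero hB h2) _ hl).1 h9).2
    have h11 : gram (pull B (b ∘ₗ φ)) β =
        gram (pull B φ) β * LinearMap.toMatrix β β (Algebra.lmul F _ n) := by
      ext i i'
      refine (h8 (β i) (β i')).trans ?_
      rw [← β.sum_repr (n * β i'), map_sum, map_sum]
      simp [Matrix.mul_apply, LinearMap.toMatrix_apply, mul_comm]
    rw [h11, Matrix.det_mul, LinearMap.det_toMatrix, ← Algebra.norm_apply, hn, l5] at l5'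
    rw [List.map_append, List.prod_append] at h10
    have p0 := IsQuad.prod_map_ne_zero l1
    have h12 : (l'.map Q).prod * (l.map Q).prod = (a * (l.map Q).prod / a') ^ 2 * c := by
      field_simp
      refine mul_left_cancel₀ (pow_ne_zero (k + 1) h2) ?_
      linear_combination -l5'
    rwa [h12, isSquare_mul_iff_of_isSquare (pow_ne_zero _ (by simp [a0, a0', p0]))
      (IsSquare.sq _)] at h10
  set σ := ((l.map h.reflO).prod).1
  set σ' := ((l'.map h.reflO).prod).1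
  rw [List.map_append, List.prod_append]
  change σ' (σ (G x)) = G (σ' (σ x))
  have s1 : ∀ x : RR B G, σ.toLinearMap (x.1 v) = -x.1 v := fun x => h4 x ▸ l3 _
  have s2 : ∀ y, (∀ x : RR B G, B (x.1 v) y = 0) → σ.toLinearMap y = y := fun y hy =>
    l4 y fun z => hy (τ z)
  have s1' : ∀ x : RR B G, σ'.toLinearMap (x.1 (b v)) = -x.1 (b v) := fun x => by
    rw [cb, ← h4]; exact l3' _
  have s2' : ∀ y, (∀ x : RR B G, B (x.1 (b v)) y = 0) → σ'.toLinearMap y = y := fun y hy =>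
    l4' y fun z => (congrArg (B · y) (cb (τ z) v)).symm.trans (hy (τ z))
  have hU : ∀ x y' : RR B G, ∃ x' y'' : RR B G,
      x.1 v + j (y'.1 v) = x'.1 (b v) + j (y''.1 (b v)) := fun x y' => by
    have k1 : ∀ x : RR B G, x.1 v = (τ u * (τ n⁻¹ * x)).1 (b v) - j ((τ y * (τ n⁻¹ * x)).1 (b v)) :=
      fun x => by
        have := h7 (τ n⁻¹ * x)
        rw [map_mul mk, hτ', mul_inv_cancel_left₀ hn0, h4, ← cb] at this
        exact this.symm
    refine ⟨τ u * (τ n⁻¹ * x) - (t * t - 4) * (τ y * (τ n⁻¹ * y')),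
      τ u * (τ n⁻¹ * y') - τ y * (τ n⁻¹ * x), ?_⟩
    rw [k1 x, k1 y', map_sub, H.jj]
    simp only [AddSubgroupClass.coe_sub (τ u * _), LinearMap.sub_apply, map_sub]
    rw [MulMemClass.coe_mul _ (t * t - 4), End.mul_apply]
    abel
  have hG : ∀ x, (2 : F) • G x = t.1 x + j x := fun x => by
    rw [two_smul]; exact (DFunLike.congr_fun H.two x).symm
  have nd1 : NondegOn B (LinearMap.range φ) := by
    rintro _ ⟨z, rfl⟩ hz
    rw [hφ z fun z' => hz _ ⟨z', rfl⟩, map_zero]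
  have nd2 : NondegOn B (LinearMap.range (j ∘ₗ φ)) := by
    rintro _ ⟨z, rfl⟩ hz
    rw [hφ z fun z' => ?_, map_zero]
    have := hz _ ⟨(mk (t * t - 4))⁻¹ * z', rfl⟩
    change B (j (φ z)) (j (φ _)) = 0 at this
    rwa [H.skew, H.jj, neg_eq_zero, ← hτ' (_ * z'), h4,
      ← End.mul_apply, ← MulMemClass.coe_mul, ← h4, map_mul mk, hτ',
      mul_inv_cancel_left₀ (hD.map mk).ne_zero] at this
  obtain ⟨_, ⟨z, rfl⟩, x', hx', rfl⟩ := Submodule.mem_sup.1
    ((h.isCompl_perp hB nd1).sup_eq_top.ge (Submodule.mem_top (x := x)))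
  obtain ⟨_, ⟨z', rfl⟩, p, hp, rfl⟩ := Submodule.mem_sup.1
    ((h.isCompl_perp hB nd2).sup_eq_top.ge (Submodule.mem_top (x := x')))
  have p1 : ∀ x : RR B G, B (j (x.1 v)) p = 0 := fun x => h4 x ▸ hp _ ⟨mk x, rfl⟩
  have p2 : ∀ x : RR B G, B (x.1 v) p = 0 := fun x => by
    have := hx' _ ⟨mk x, rfl⟩
    rwa [h4, map_add, show B (x.1 v) ((j ∘ₗ φ) z') = 0 from H.perp h h2 v x (τ z'), zero_add] at this
  have p3 : ∀ p, (∀ x : RR B G, B (x.1 v) p = 0) → (∀ x : RR B G, B (j (x.1 v)) p = 0) →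
      σ' (σ p) = p := fun p q1 q2 => (congrArg σ' (s2 p q1)).trans (s2' p fun x => by
    rw [cb]
    simpa [b] using congrArg₂ (· + ·) (q1 (τ u * x)) (q2 (τ y * x)))
  have p4 : σ' (σ (G p)) = G p := by
    refine p3 _ (fun x => ?_) fun x => ?_ <;> refine (mul_eq_zero.1 ?_).resolve_left h2 <;>
      rw [← smul_eq_mul, ← map_smul, hG, map_add, ← t.2.2, ← neg_neg (B _ (j p)), ← H.skew]
    · rw [p1, show t.1 (x.1 v) = (t * x).1 v from rfl, p2]; simp
    · rw [H.jj, H.cj, show t.1 (x.1 v) = (t * x).1 v from rfl, p1, ← End.mul_apply,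
        ← MulMemClass.coe_mul, p2]
      simp
  rw [← add_assoc]
  suffices σ' (σ (G (φ z + j (φ z')))) = G (σ' (σ (φ z + j (φ z')))) by
    change σ' (σ (G (φ z + j (φ z') + p))) = G (σ' (σ (φ z + j (φ z') + p)))
    rw [map_add G _ p, map_add σ _ (G p), map_add σ' _ (σ (G p)), p4, map_add σ _ p,
      map_add σ' _ (σ p), p3 p p2 p1, map_add G _ p, this]
  obtain ⟨q1, q2, q3⟩ := H.anti h h2 s1 s2 (τ z) (τ z')
  obtain ⟨x', y', q4⟩ := hU (-τ z) (τ z')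
  obtain ⟨-, q5, q6⟩ := H.anti h h2 s1' s2' x' y'
  rw [← q4, ← q1] at q5 q6
  refine smul_right_injective V h2 ?_
  change (2 : F) • _ = (2 : F) • _
  rw [← map_smul σ', ← map_smul σ, hG, hG, map_add σ (t.1 _)]
  refine (congrArg σ' (congrArg₂ (· + ·) q3 q2)).trans ?_
  rw [map_add σ', map_neg σ']
  exact congrArg₂ (· + ·) q6 (neg_eq_iff_eq_neg.2 q5)

end Dat

theorem commute_reflO (h : IsQuad B Q) (g : Isom B Q) {v : V} (hv : g.1 v = v) (x : V) :
    (h.reflO v).1 (g.1 x) = g.1 ((h.reflO v).1 x) := by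
  rw [h.reflO_apply, h.reflO_apply, map_sub, map_smul, hv, ← g.2.1 v x, hv]

theorem cent [Finite F] (h : IsQuad B Q) (hB : B.SeparatingLeft) (h2 : (2 : F) ≠ 0) {m : ℕ}
    (hn : finrank F V = 2 * (m + 1)) (g : Isom B Q) {r : ℕ} (hr : (r : F) ≠ 0) (ho : Odd r)
    (hg : g ^ r = 1) : (∃ s : Isom B Q, dick s.1 = 0 ∧ s ∉ commutator (Isom B Q) ∧ Commute s g) ∧
      ∃ δ : Sim B Q, ¬IsSquare (SemiSim.mult δ.1) ∧ IsQuad.dS hB hn δ = 1 ∧
        Commute δ.1 (ofIsom B Q g) := by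
  obtain ⟨t, e, j, H⟩ := exists_dat h g hr ho hg
  haveI : Nontrivial V := Module.nontrivial_of_finrank_pos (R := F) (by omega)
  obtain ⟨c, hc⟩ := FiniteField.exists_nonsquare (F := F) fun h => h2 (by
    rw [← Nat.cast_ofNat, ← h]; exact ringChar.Nat.cast_ringChar)
  have hc0 : c ≠ 0 := fun h => hc (h ▸ IsSquare.zero)
  have he : Even (finrank F V) := hn ▸ even_two_mul _
  obtain ⟨δ, d1, d2⟩ := H.exists_sim h hB h2 he hc0
  have hv : e ≠ 0 → ∀ c, ∃ v, g.1 v = v ∧ Q v = c := fun h0 c => by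
    have h1 := H.even h hB h2 he
    have h3 : finrank F (LinearMap.range e.1) ≠ 0 := fun h3 => h0 (Subtype.ext
      (LinearMap.range_eq_bot.1 (Submodule.finrank_eq_zero.1 h3)))
    obtain ⟨_, ⟨x, rfl⟩, h4⟩ := h.exists_eq_on (H.nondeg hB) (by have := Nat.even_iff.1 h1; omega) c
    exact ⟨_, DFunLike.congr_fun H.Ge x, h4⟩
  constructor
  · by_cases h0 : e = 0
    · obtain ⟨s, s1, s2, s3⟩ := H.exists_spin h hB h2 h0
      exact ⟨s, s1, s2, Subtype.ext (LinearEquiv.ext s3)⟩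
    obtain ⟨v, v1, v2⟩ := hv h0 1
    obtain ⟨w, w1, w2⟩ := hv h0 c
    have hl : ∀ x ∈ [v, w], Q x ≠ 0 := by simp [v2, w2, hc0]
    refine ⟨([v, w].map h.reflO).prod, (h.dick_prod hB _ hl).trans
      (show ((2 : ℕ) : ZMod 2) = 0 from rfl), fun h3 => hc ?_, ?_⟩
    · classical
      haveI := Fintype.ofFinite F
      simpa [v2, w2] using
        ((h.prod_mem_commutator_iff hB (h.nonExc_of_two_ne_zero hB h2) _ hl).1 h3).2
    · simp only [List.map_cons, List.map_nil, List.prod_cons, List.prod_nil, mul_one]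
      exact Commute.mul_left (Subtype.ext (LinearEquiv.ext (commute_reflO h g v1)))
        (Subtype.ext (LinearEquiv.ext (commute_reflO h g w1)))
  suffices ∃ δ : V ≃ₗ[F] V, (∀ x y, B (δ x) (δ y) = c * B x y) ∧ (∀ x, δ (g.1 x) = g.1 (δ x)) ∧
      LinearMap.det δ.toLinearMap = c ^ (m + 1) by
    obtain ⟨δ, d1, d2, d3⟩ := this
    have d4 : ∀ x, Q (δ x) = c * Q x := fun x => mul_left_cancel₀ h2 (by
      rw [← h.diag', d1, h.diag']; ring)
    obtain ⟨x, y, hxy⟩ := IsQuad.exists_B_ne_zero hB (by omega : 1 ≤ finrank F V)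
    let γ : Sim B Q := ⟨h.mkSemi δ.toEquiv 1 δ.map_add δ.map_smul hc0 d4, rfl⟩
    have d5 : SemiSim.mult γ.1 = c := SemiSim.mult_eq hxy _ (d1 x y)
    exact ⟨γ, d5 ▸ hc, IsQuad.dS_eq_one.2 (d5 ▸ d3),
      Subtype.ext (Prod.ext (Equiv.ext d2) rfl)⟩
  by_cases h0 : e = 0
  · refine ⟨δ, d1, d2, det_of_alt (B := B.compl₂ j) (fun x hx => H.inj (by simp [h0]) (hB _ fun y => ?_))
      (H.alt h h2) hn hc0 fun x y => ?_⟩
    · rw [H.skew, neg_eq_zero]; exact hx y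
    · have : Commute j δ.toLinearMap := (Algebra.commute_of_mem_adjoin_singleton_of_commute H.jm
        (LinearMap.ext d2)).symm
      exact (congrArg (B _) (DFunLike.congr_fun this y)).trans (d1 _ _)
  rcases det_sim_cases hB d1 (d := c ^ (m + 1)) (by rw [hn]; ring) with h3 | h3
  · exact ⟨δ, d1, d2, h3⟩
  obtain ⟨v, v1, v2⟩ := hv h0 1
  refine ⟨δ * (h.reflO v).1, fun x y => (d1 _ _).trans (congrArg _ ((h.reflO v).2.1 x y)), fun x =>
    (congrArg δ (commute_reflO h g v1 x)).trans (d2 _), ?_⟩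
  rw [show (δ * (h.reflO v).1).toLinearMap = δ.toLinearMap ∘ₗ (h.reflO v).1.toLinearMap from rfl,
    LinearMap.det_comp, h3, h.det_reflO (by simp [v2])]
  ring

theorem conj_iff {X : Type*} [Group X] {H K : Subgroup X} {x : X} (h1 : H ≤ K)
    (h2 : ∀ k ∈ K, ∃ h ∈ H, ∃ c, Commute c x ∧ k = h * c) (y : X) :
    IsConjUnder H x y ↔ IsConjUnder K x y := by
  refine ⟨fun ⟨a, ha, e⟩ => ⟨a, h1 ha, e⟩, fun ⟨k, hk, e⟩ => ?_⟩
  obtain ⟨a, ha, c, hc, rfl⟩ := h2 k hk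
  exact ⟨a, ha, by rw [e, mul_assoc a, hc.eq]; group⟩

theorem fusion [Finite F] {ι : Type} [Fintype ι] [DecidableEq ι]
    {B : (ι → F) →ₗ[F] (ι → F) →ₗ[F] F} {Q : (ι → F) → F} (h : IsQuad B Q) (hB : B.SeparatingLeft)
    (h2 : (2 : F) ≠ 0) (hn : 5 ≤ Fintype.card ι) {m : ℕ} (hm : finrank F (ι → F) = 2 * (m + 1))
    {x : MulAut (POmega F Q)} (hx : x ∈ pgoAut F Q) {r : ℕ} (hr : (r : F) ≠ 0) (ho : Odd r)
    (hxr : orderOf x = r) {I : Subgroup (MulAut (POmega F Q))}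
    (hI : I = (IsQuad.dS hB hm).ker.map (h.oBar.comp (Sim B Q).subtype)) :
    (∀ y, (IsConjUnder (Inn _) x y ↔ IsConjUnder I x y) ∧
      (IsConjUnder (psoAut F Q) x y ↔ IsConjUnder I x y)) ∧
    ∀ y, IsConjUnder (poAut F Q) x y ↔ IsConjUnder (pgoAut F Q) x y := by
  have h1 : 1 ≤ finrank F (ι → F) := by omega
  obtain ⟨u, v, huv⟩ := IsQuad.exists_B_ne_zero hB h1
  have hs : ∀ a, h.oBar (h.semiScal a) = 1 := fun a => (h.oBar_eq_one hB hn).2 ⟨a, rfl⟩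
  rw [h.pgoAut_eq] at hx
  obtain ⟨γ, hγ, rfl⟩ := hx
  obtain ⟨k, rfl⟩ := ho
  obtain ⟨a, g₀, rfl⟩ := h.exists_eq_scal_mul' hB h1 hγ (by
    obtain ⟨a, ha⟩ := (h.oBar_eq_one hB hn (γ := γ ^ (2 * k + 1))).1 (by
      rw [map_pow, ← hxr, pow_orderOf_eq_one])
    have h3 := congrArg (IsQuad.multChar hB h1) ha
    rw [IsQuad.multChar_eq_one.2 ⟨_, h.mult_semiScal huv a⟩, map_pow, pow_succ, pow_mul] at h3
    rw [← IsQuad.multChar_eq_one (hB := hB) (hn := h1), ← h3,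
      show ∀ z : Multiplicative (ZMod 2), z ^ 2 = 1 by decide, one_pow, one_mul])
  rw [map_mul, hs, one_mul] at hxr ⊢
  obtain ⟨g, hg, e⟩ : ∃ g, g ^ (2 * k + 1) = 1 ∧ h.oBar (ofIsom B Q g₀) = h.oBar (ofIsom B Q g) := by
    obtain ⟨a, ha⟩ := (h.oBar_eq_one hB hn (γ := ofIsom B Q (g₀ ^ (2 * k + 1)))).1 (by
      rw [map_pow, map_pow, ← hxr, pow_orderOf_eq_one])
    have h3 := congrArg SemiSim.mult ha
    rw [mult_ofIsom huv, h.mult_semiScal huv] at h3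
    refine ⟨g₀ ^ (2 * (k + 1)), ofIsom_injective ?_, ?_⟩
    · rw [← pow_mul, mul_comm, pow_mul, map_pow, ha, ← map_pow, pow_mul,
        show a ^ 2 = 1 from Units.ext (by simpa [sq] using h3.symm), one_pow, map_one, map_one]
    · rw [map_pow, map_pow, mul_add, pow_succ, ← hxr, pow_orderOf_eq_one, one_mul]
  rw [e]
  obtain ⟨⟨s, s1, s2, s3⟩, δ, d1, d2, d3⟩ := cent h hB h2 hm g hr ⟨k, rfl⟩ hg
  have k1 : ∀ γ : Sim B Q, IsSquare (SemiSim.mult γ.1) → IsQuad.dS hB hm γ = 1 →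
      ∃ g' ∈ commutator (Isom B Q), ∃ θ, Commute θ (ofIsom B Q g) ∧
        h.oBar γ = h.oBar (ofIsom B Q g') * h.oBar θ := fun γ q1 q2 => by
    obtain ⟨a, g₁, e⟩ := h.exists_eq_scal_mul' hB h1 γ.2 q1
    have q3 := (h.dS_scal_mul h2 e).1 q2
    rw [e, map_mul, hs, one_mul]
    by_cases q4 : g₁ ∈ commutator (Isom B Q)
    · exact ⟨g₁, q4, 1, Commute.one_left _, by simp⟩
    · exact ⟨g₁ * s, (h.mul_mem_commutator_iff hB (h.nonExc_of_two_ne_zero hB h2) q3 s1).2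
        (iff_of_false q4 s2), ofIsom B Q s⁻¹, s3.inv_left.map _, by simp⟩
  have k0 : ∀ γ : Sim B Q, ¬IsSquare (SemiSim.mult γ.1) → IsSquare (SemiSim.mult (γ * δ⁻¹).1) :=
    fun γ q1 => IsQuad.multChar_eq_one.1 (show IsQuad.multChar hB h1 (γ.1 * δ.1⁻¹) = 1 by
      rw [map_mul, map_inv, mul_inv_eq_one]
      exact zmod2_eq (by simp [IsQuad.multChar_eq_one, q1, d1]))
  have k2 : ∀ z ∈ I, ∃ g' ∈ commutator (Isom B Q), ∃ c, Commute c (h.oBar (ofIsom B Q g)) ∧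
      z = h.oBar (ofIsom B Q g') * c := by
    subst hI
    rintro _ ⟨γ, q2, rfl⟩
    by_cases q1 : IsSquare (SemiSim.mult γ.1)
    · obtain ⟨g', q3, θ, q4, q5⟩ := k1 γ q1 q2
      exact ⟨g', q3, _, q4.map _, q5⟩
    · obtain ⟨g', q3, θ, q4, q5⟩ := k1 (γ * δ⁻¹) (k0 γ q1) (by
        rw [map_mul, map_inv, d2, MonoidHom.mem_ker.1 q2]; simp)
      refine ⟨g', q3, _, (q4.mul_left d3).map h.oBar, ?_⟩
      rw [map_mul, ← mul_assoc, ← q5]
      simp
  have k3 : ∀ g : Isom B Q, dick g.1 = 0 → (⟨ofIsom B Q g, rfl⟩ : Sim B Q) ∈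
      (IsQuad.dS hB hm).ker := fun g hg => h.dP_eq_dS h2 ▸ (h.dP_isom rfl).mpr hg
  refine ⟨fun y => ⟨conj_iff (hI ▸ h.inn_le hB hn (fun a => h.dP_eq_dS h2 ▸ h.dP_scal rfl) k3)
    (fun z hz => ?_) y, conj_iff ?_ (fun z hz => ?_) y⟩, conj_iff ?_ ?_⟩
  · obtain ⟨g', q1, c, q2, q3⟩ := k2 z hz
    exact ⟨_, (h.oBar_mem_inn hB hn).2 ⟨1, g', q1, by simp⟩, c, q2, q3⟩
  · rw [h.psoAut_eq hB h2, hI]
    rintro _ ⟨g', q1, rfl⟩
    exact ⟨_, k3 g' q1, rfl⟩
  · obtain ⟨g', q1, c, q2, q3⟩ := k2 z hz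
    exact ⟨_, h.psoAut_eq hB h2 ▸ ⟨g', h.dick_eq_zero_of_mem_commutator hB q1, rfl⟩, c, q2, q3⟩
  · rw [h.poAut_eq, h.pgoAut_eq]
    rintro _ ⟨g', rfl⟩
    exact ⟨_, rfl, rfl⟩
  · rw [h.poAut_eq, h.pgoAut_eq]
    rintro _ ⟨γ, q0, rfl⟩
    by_cases q1 : IsSquare (SemiSim.mult γ)
    · obtain ⟨a, g₁, e⟩ := h.exists_eq_scal_mul' hB h1 q0 q1
      exact ⟨_, ⟨g₁, rfl⟩, 1, Commute.one_left _, by simp [e, hs]⟩
    · obtain ⟨a, g₁, e⟩ := h.exists_eq_scal_mul' hB h1 (⟨γ, q0⟩ * δ⁻¹ : Sim B Q).2 (k0 ⟨γ, q0⟩ q1)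
      refine ⟨_, ⟨g₁, rfl⟩, _, d3.map h.oBar, ?_⟩
      have := congrArg h.oBar e
      rw [map_mul, hs, one_mul] at this
      rw [MonoidHom.comp_apply, ← this]
      simp

end Cfsg.Agent.H18.Sm
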