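import Mathlib
import Cfsg.Agent.H18.Cn11
import Cfsg.Agent.H10.Elus2
import Cfsg.Agent.H10.PG

/-! Unipotent classes of symplectic groups in odd characteristic. -/

set_option autoImplicit false

namespace Cfsg.Agent.H18.Uc
open Polynomial L0 Module H10 H11 Cn

universe u

variable {F : Type u} [Field F]

section cl
variable {V U : Type*} [AddCommGroup V] [Module F V] [AddCommGroup U] [Module F U]
  [FiniteDimensional F V] [FiniteDimensional F U] {β : V →ₗ[F] V →ₗ[F] F} {γ : U →ₗ[F] U →ₗ[F] F}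

omit [FiniteDimensional F V] in
theorem exists_nd (hS : ∀ x y, β x y = β y x) :
    ∃ β' : (V ⧸ LinearMap.ker β) →ₗ[F] (V ⧸ LinearMap.ker β) →ₗ[F] F, (∀ x y, β' x y = β' y x) ∧
      β'.SeparatingLeft ∧ ∀ x y, β x y = β' ((LinearMap.ker β).mkQ x) ((LinearMap.ker β).mkQ y) := by
  obtain ⟨β', h⟩ := exists_desc (β := β) (LinearMap.ker β).mkQ (Submodule.mkQ_surjective _)
    fun x hx y => by
      have : β x = 0 := (Submodule.Quotient.mk_eq_zero _).mp hx
      simp [hS y x, this]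
  refine ⟨β', fun x y => ?_, fun x hx => ?_, h⟩
  · obtain ⟨x, rfl⟩ := Submodule.mkQ_surjective _ x
    obtain ⟨y, rfl⟩ := Submodule.mkQ_surjective _ y
    rw [← h, ← h, hS]
  · obtain ⟨x, rfl⟩ := Submodule.mkQ_surjective _ x
    exact (Submodule.Quotient.mk_eq_zero _).mpr (LinearMap.ext fun y => (h x y).trans (hx _))

theorem sq_mul_iff [Finite F] {a b : F} (ha : a ≠ 0) (hb : b ≠ 0) :
    IsSquare (a * b) ↔ (IsSquare a ↔ IsSquare b) := by
  by_cases h : IsSquare a
  · simp [isSquare_mul_iff_of_isSquare ha h, h]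
  by_cases h' : IsSquare b
  · simp [mul_comm a, isSquare_mul_iff_of_isSquare hb h', h, h']
  · simp [isSquare_mul_of_not_isSquare h h', h, h']

theorem cl_prod [Finite F] (h2 : (2 : F) ≠ 0) (hS : ∀ x y, β x y = β y x)
    (hS' : ∀ x y, γ x y = γ y x) : Cl (prodB β γ) ↔ (Cl β ↔ Cl γ) := by
  obtain ⟨β', a1, a2, a3⟩ := exists_nd hS
  obtain ⟨γ', b1, b2, b3⟩ := exists_nd hS'
  rw [cl_pull (Submodule.mkQ_surjective _) a3, cl_pull (Submodule.mkQ_surjective _) b3,
    cl_pull (γ := prodB β' γ') (p := Prod.map (LinearMap.ker β).mkQ (LinearMap.ker γ).mkQ)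
      ((Submodule.mkQ_surjective _).prodMap (Submodule.mkQ_surjective _))
      (fun x y => by simp [a3, b3]),
    cl_iff h2 a1 a2 (finBasis F _), cl_iff h2 b1 b2 (finBasis F _),
    cl_iff h2 (fun x y => by simp [a1 x.1, b1 x.2]) (fun x hx => Prod.ext
      (a2 _ fun y => by simpa using hx (y, 0)) (b2 _ fun y => by simpa using hx (0, y)))
      ((finBasis F _).prod (finBasis F _)), gram_prod,
    sq_mul_iff (gram_det_ne_zero (fun _ => rfl) a2 _) (gram_det_ne_zero (fun _ => rfl) b2 _)]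

theorem cl_smul [Finite F] (h2 : (2 : F) ≠ 0) (hS : ∀ x y, β x y = β y x)
    (h1 : finrank F (LinearMap.ker β) + 1 = finrank F V) {t : F} (ht : ¬ IsSquare t) :
    Cl (t • β) ↔ ¬ Cl β := by
  obtain ⟨β', a1, a2, a3⟩ := exists_nd hS
  have h0 : t ≠ 0 := by rintro rfl; simp at ht
  have h3 : finrank F (V ⧸ LinearMap.ker β) = 1 := by
    have := (LinearMap.ker β).finrank_quotient_add_finrank; omega
  rw [cl_pull (Submodule.mkQ_surjective _) a3, cl_pull (γ := t • β') (Submodule.mkQ_surjective _)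
    (fun x y => by simp [a3]), cl_iff h2 a1 a2 (finBasisOfFinrankEq F _ h3),
    cl_iff h2 (fun x y => by simp [a1 x]) (fun x hx => a2 x fun y => by simpa [h0] using hx y)
      (finBasisOfFinrankEq F _ h3),
    show gram (t • β') (finBasisOfFinrankEq F _ h3) = t • gram β' (finBasisOfFinrankEq F _ h3) by
      ext; simp, Matrix.det_smul, Fintype.card_fin, pow_one,
    sq_mul_iff h0 (gram_det_ne_zero (fun _ => rfl) a2 _)]
  tauto

end cl

variable {V V' : Type u} [AddCommGroup V] [Module F V] [AddCommGroup V'] [Module F V']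
  {B : V →ₗ[F] V →ₗ[F] F} {g : V ≃ₗ[F] V} {B' : V' →ₗ[F] V' →ₗ[F] F} {g' : V' ≃ₗ[F] V'}

theorem bet_symm (T : Tr (-1) B g) {k : ℕ} (hk : Odd k) (x y : V) :
    bet B g k x y = bet B g k y x := by
  have : ∀ n x y, B ((sk g ^ n) x) y = (-1) ^ n * B x ((sk g ^ n) y) := fun n => by
    induction n with
    | zero => simp
    | succ n ih =>
      intro x y
      rw [pow_succ' (sk g), End.mul_apply, T.sk_adj, ih, ← End.mul_apply, ← pow_succ, ← pow_succ']
      ring
  rw [bet_apply, bet_apply, T.symm, this, hk.neg_one_pow]; ring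

theorem sk_pow_eq_zero {ε : F} (T : Tr ε B g) (k : ℕ) (x : V) :
    (sk g ^ k) x = 0 ↔ ((g.toLinearMap - 1) ^ k) x = 0 := by
  have h1 : sk g = (1 + g.symm.toLinearMap) * (g.toLinearMap - 1) := LinearMap.ext fun x => by
    simp [sk_apply]
  have h2 : Commute (1 + g.symm.toLinearMap) (g.toLinearMap - 1) := LinearMap.ext fun x => by
    simp [add_comm]
  have h3 : Function.Injective ((1 + g.symm.toLinearMap : End F V) ^ k :) := by
    rw [End.coe_pow]
    refine Function.Injective.iterate ((injective_iff_map_eq_zero _).mpr fun x hx => ?_) k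
    exact g.symm.injective ((T.inj _ (by simpa [add_eq_zero_iff_eq_neg] using hx)).trans
      (map_zero _).symm)
  rw [h1, h2.mul_pow, End.mul_apply, map_eq_zero_iff _ h3]

theorem bet_prod (t : F) (k : ℕ) : bet (prodB B (t • B')) (g.prodCongr g') k =
    prodB (bet B g k) (t • bet B' g' k) := by
  refine LinearMap.ext₂ fun x y => ?_
  simp [bet_apply, pow_comm_of (a := sk (g.prodCongr g')) (b := sk g) (f := Prod.fst) (fun _ => rfl),
    pow_comm_of (a := sk (g.prodCongr g')) (b := sk g') (f := Prod.snd) (fun _ => rfl)]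

variable [FiniteDimensional F V] [FiniteDimensional F V']

theorem pow_eq_zero_of_ty {μ : Multiset ℕ} (h : tyE g.toLinearMap = μ.map ((X - 1) ^ ·)) {n : ℕ}
    (hn : ∀ j ∈ μ, j ≤ n) : (g.toLinearMap - 1) ^ n = 0 := by
  have := (aeval_eq_zero_iff_tyE g.toLinearMap ((X - 1 : F[X]) ^ n)).mpr fun u hu => by
    obtain ⟨j, hj, rfl⟩ := Multiset.mem_map.mp (h ▸ hu)
    exact pow_dvd_pow _ (hn j hj)
  rwa [map_pow, map_sub, aeval_X, map_one] at this

theorem tr_of_ty (h2 : (2 : F) ≠ 0) (hs : ∀ x y, B y x = -1 * B x y) (hB : B.SeparatingLeft)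
    (hg : ∀ x y, B (g x) (g y) = B x y) {μ : Multiset ℕ}
    (h : tyE g.toLinearMap = μ.map ((X - 1) ^ ·)) : Tr (-1) B g := by
  refine ⟨.inr rfl, hs, hB, hg, fun x hx => ?_⟩
  have h1 : ∀ n, ((g.toLinearMap - 1) ^ n) x = (-2 : F) ^ n • x := fun n => by
    induction n with
    | zero => simp
    | succ n ih =>
      rw [pow_succ', End.mul_apply, ih, map_smul, pow_succ, mul_smul]
      simp [hx, two_smul, sub_eq_add_neg]
  have := h1 μ.sum
  rw [pow_eq_zero_of_ty h fun j hj => Multiset.single_le_sum (by simp) j hj] at this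
  simpa [h2] using this.symm

/-- Realisation of a unipotent type with prescribed signs. -/
def RS (F : Type u) [Field F] (μ : Multiset ℕ) (S : ℕ → Prop) : Prop :=
  ∃ (V : Type u) (_ : AddCommGroup V) (_ : Module F V) (_ : FiniteDimensional F V)
    (B : V →ₗ[F] V →ₗ[F] F) (g : V ≃ₗ[F] V), Tr (-1) B g ∧
      tyE g.toLinearMap = μ.map ((X - 1) ^ ·) ∧
      ∀ k, Odd k → k + 1 ∈ μ → (Cl (bet B g k) ↔ S (k + 1))

theorem pow_inj : Function.Injective fun j : ℕ => (X - 1 : F[X]) ^ j := fun i j e => by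
  simpa [natDegree_X_sub_one] using congrArg natDegree e

theorem exists_blk (h2 : (2 : F) ≠ 0) {μ : Multiset ℕ} (h0 : ∀ j ∈ μ, 0 < j)
    (h : ∀ j, Odd j → Even (μ.count j)) :
    ∃ (V : Type u) (_ : AddCommGroup V) (_ : Module F V) (_ : FiniteDimensional F V)
      (B : V →ₗ[F] V →ₗ[F] F) (g : V ≃ₗ[F] V), Tr (-1) B g ∧
        tyE g.toLinearMap = μ.map ((X - 1) ^ ·) := by
  classical
  obtain ⟨V, _, _, _, B, Q, h1, h3, g, h4⟩ := real_alt_unip (F := F) (s := μ.map ((X - 1) ^ ·))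
    (fun u hu => by obtain ⟨j, hj, rfl⟩ := Multiset.mem_map.mp hu; exact ⟨j, h0 j hj, rfl⟩)
    fun j hj => by
      convert h j hj using 1
      exact Multiset.count_map_eq_count' _ _ pow_inj _
  exact ⟨V, _, _, inferInstance, B, g.1, tr_of_ty h2 h1.symm h3 g.2.1 h4, h4⟩

theorem RS.add [Finite F] (h2 : (2 : F) ≠ 0) {μ ν : Multiset ℕ} {S : ℕ → Prop} (h : RS F μ S) {j : ℕ}
    (hj : 0 < j) (hν : Even j ∧ ν = {j} ∨ Odd j ∧ ν = {j, j}) (hμ : ∀ i ∈ μ, j ≤ i) :
    RS F (μ + ν) S := by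
  obtain ⟨V, _, _, _, B, g, T, h1, h3⟩ := h
  have h4 : ∀ i ∈ ν, i = j := by rcases hν with ⟨-, rfl⟩ | ⟨-, rfl⟩ <;> simp
  obtain ⟨V', _, _, _, B', g', T', h5⟩ := exists_blk h2 (μ := ν) (fun i hi => h4 i hi ▸ hj)
    fun i hi => by
      rcases hν with ⟨e, rfl⟩ | ⟨-, rfl⟩
      · rw [Multiset.count_eq_zero.mpr]
        · exact Even.zero
        · rintro a
          exact Nat.not_even_iff_odd.mpr hi (Multiset.mem_singleton.mp a ▸ e)
      · by_cases e : i = j <;> simp [e]
  obtain ⟨t, t0, ht⟩ : ∃ t : F, t ≠ 0 ∧ ∀ k, Odd k → k + 1 = j →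
      ((Cl (bet B g k) ↔ Cl (t • bet B' g' k)) ↔ S j) := by
    by_cases e : (Cl (bet B g (j - 1)) ↔ Cl (bet B' g' (j - 1))) ↔ S j
    · exact ⟨1, one_ne_zero, by rintro k - rfl; simpa using e⟩
    obtain ⟨t, ht⟩ := FiniteField.exists_nonsquare (F := F) fun a => h2 (by
      have := ringChar.Nat.cast_ringChar (R := F)
      rwa [a] at this)
    refine ⟨t, by rintro rfl; simp at ht, ?_⟩
    rintro k hk rfl
    obtain rfl := (hν.resolve_right fun a => Nat.not_even_iff_odd.mpr a.1 hk.add_one).2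
    rw [cl_smul h2 (bet_symm T' hk) ?_ ht]
    · simp only [add_tsub_cancel_right] at e; tauto
    have a1 := kdE_eq_sum g'.toLinearMap ((X - 1) ^ k)
    have a2 := finrank_eq_sum_tyE g'.toLinearMap
    rw [h5] at a1 a2
    simp only [Multiset.map_singleton, Multiset.sum_singleton, gd_pow_pow irr_X_sub_one.ne_zero,
      natDegree_X_sub_one, natDegree_X_sub_one_pow, kdE] at a1 a2
    rw [a2, show LinearMap.ker (bet B' g' k) = LinearMap.ker (aeval g'.toLinearMap ((X - 1 : F[X]) ^ k))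
      from Submodule.ext fun x => ?_, a1]
    · simp
    simp only [LinearMap.mem_ker, map_pow, map_sub, aeval_X, map_one, ← sk_pow_eq_zero T']
    exact ⟨fun a => T'.sep _ fun y => by
      rw [T'.symm, ← bet_apply, bet_symm T' hk, a]; simp, fun a => LinearMap.ext fun y => by
      rw [bet_symm T' hk, bet_apply, a]; simp⟩
  have h6 : tyE (g.prodCongr g').toLinearMap = (μ + ν).map ((X - 1) ^ ·) := by
    rw [Multiset.map_add, ← h1, ← h5, ← tyE_prodMap]; rfl
  refine ⟨V × V', _, _, inferInstance, prodB B (t • B'), g.prodCongr g', tr_of_ty h2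
    (fun x y => by simp [T.symm x.1, T'.symm x.2]; ring) (fun x hx => Prod.ext
      (T.sep _ fun y => by simpa using hx (y, 0)) (T'.sep _ fun y => by simpa [t0] using hx (0, y)))
    (fun x y => by simp [T.isom, T'.isom]) h6, h6, fun k hk hm => ?_⟩
  rw [bet_prod]
  by_cases e : k + 1 = j
  · rw [cl_prod h2 (bet_symm T hk) (fun x y => by simp [bet_symm T' hk x]), ht k hk e, e]
  have h7 : k + 1 ∈ μ := (Multiset.mem_add.mp hm).resolve_right fun a => e (h4 _ a)
  have h8 := hμ _ h7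
  rw [← h3 k hk h7]
  refine cl_pull Prod.fst_surjective fun x y => ?_
  have : (sk g' ^ k) y.2 = 0 := (sk_pow_eq_zero T' k _).mpr (by
    rw [pow_eq_zero_of_ty h5 fun i hi => by rw [h4 i hi]; omega]; rfl)
  simp [bet_apply, this]

theorem exists_rs [Finite F] (h2 : (2 : F) ≠ 0) (S : ℕ → Prop) (n : ℕ) : ∀ μ : Multiset ℕ,
    μ.card ≤ n → (∀ j ∈ μ, 0 < j) → (∀ j, Odd j → Even (μ.count j)) → RS F μ S := by
  have h0 : RS F 0 S := by
    obtain ⟨V, _, _, _, B, g, T, h⟩ := exists_blk h2 (μ := 0) (by simp) (by simp)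
    exact ⟨V, _, _, inferInstance, B, g, T, h, by simp⟩
  induction n with
  | zero => intro μ h _ _; rwa [Multiset.card_eq_zero.mp (Nat.le_zero.mp h)]
  | succ n ih =>
    intro μ h h1 h3
    by_cases e : μ = 0
    · rwa [e]
    obtain ⟨j, j1, j2⟩ := μ.toFinset.exists_min_image id (by simpa using e)
    simp only [Multiset.mem_toFinset, id] at j1 j2
    obtain ⟨μ, rfl⟩ := Multiset.exists_cons_of_mem j1
    rcases j.even_or_odd with a | a
    · rw [← Multiset.singleton_add, add_comm]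
      refine (ih μ (by simpa using h) (fun i hi => h1 i (by simp [hi])) fun i hi => ?_).add h2
        (h1 j j1) (.inl ⟨a, rfl⟩) fun i hi => j2 i (by simp [hi])
      simpa [Multiset.count_cons_of_ne (show i ≠ j by
        rintro rfl; exact Nat.not_even_iff_odd.mpr hi a)] using h3 i hi
    · have h4 := h3 j a
      rw [Multiset.count_cons_self, Nat.even_add_one] at h4
      obtain ⟨μ, rfl⟩ := Multiset.exists_cons_of_mem (Multiset.count_ne_zero.mp fun e =>
        h4 (e ▸ Even.zero) : j ∈ μ)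
      rw [show j ::ₘ j ::ₘ μ = μ + {j, j} by rw [add_comm]; simp]
      refine (ih μ (by simp at h; omega) (fun i hi => h1 i (by simp [hi])) fun i hi => ?_).add h2
        (h1 j j1) (.inr ⟨a, rfl⟩) fun i hi => j2 i (by simp [hi])
      have := h3 i hi
      by_cases e : i = j
      · subst e
        simpa [Nat.even_add_one] using this
      · simpa [Multiset.count_cons_of_ne e] using this

open Classical in
theorem card_unip [Finite F] {p : ℕ} [hp : Fact p.Prime] [CharP F p] (h2 : (2 : F) ≠ 0)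
    {B : LinearMap.BilinForm F V} (hA : B.IsAlt) (hB : B.SeparatingLeft) {n : ℕ}
    (hn : finrank F V = n) :
    Nat.card {C : ConjClasses (Isom (σ := RingHom.id F) B fun _ => 0) //
      ∃ g, ConjClasses.mk g = C ∧ g ^ p = 1} =
    ∑ μ ∈ Finset.univ.filter (fun μ : Nat.Partition n => (∀ a ∈ μ.parts, a ≤ p) ∧
      ∀ j : ℕ, Odd j → Even (μ.parts.count j)),
      2 ^ ((μ.parts.toFinset.filter (fun j : ℕ => Even j)).card) := by
  classical
  have hs : ∀ x y, B y x = -1 * B x y := fun x y => by simp [← hA.neg_eq x y]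
  have hX : (X ^ p - 1 : F[X]) = (X - 1) ^ p := by rw [sub_pow_char, one_pow]
  rw [card_classes_eq (I := (Finset.univ.filter (fun μ : Nat.Partition n => (∀ a ∈ μ.parts, a ≤ p) ∧
      ∀ j : ℕ, Odd j → Even (μ.parts.count j))).sigma fun μ =>
        (μ.parts.toFinset.filter (fun j : ℕ => Even j)).powerset) _
    (fun i g => tyE g.1.toLinearMap = i.1.1.parts.map ((X - 1) ^ ·) ∧
      ∀ k, Odd k → k + 1 ∈ i.1.1.parts → (Cl (bet B g.1 k) ↔ k + 1 ∈ i.1.2))]
  · rw [Nat.card_eq_fintype_card, Fintype.card_coe, Finset.card_sigma]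
    simp
  · intro g hg
    have h1 : ∀ u ∈ tyE g.1.toLinearMap, ∃ k, 0 < k ∧ k ≤ p ∧ u = (X - 1) ^ k := fun u hu =>
      (prim_of_mem_tyE hu).eq_pow_of_dvd_pow irr_X_sub_one monic_X_sub_one
        (hX ▸ (pow_eq_one_iff_tyE _ p).mp (isom_lin_pow hg) u hu)
    have h3 : tyE g.1.toLinearMap = ((tyE g.1.toLinearMap).map natDegree).map ((X - 1) ^ ·) := by
      rw [Multiset.map_map]
      refine (Multiset.map_id _).symm.trans (Multiset.map_congr rfl fun u hu => ?_)
      obtain ⟨k, -, -, rfl⟩ := h1 u hu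
      simp [natDegree_X_sub_one]
    have h4 : ∀ a ∈ (tyE g.1.toLinearMap).map natDegree, 0 < a ∧ a ≤ p := fun a ha => by
      obtain ⟨u, hu, rfl⟩ := Multiset.mem_map.mp ha
      obtain ⟨k, a1, a2, rfl⟩ := h1 u hu
      simp [natDegree_X_sub_one, a1, a2]
    refine ⟨⟨⟨⟨(tyE g.1.toLinearMap).map natDegree, fun a => (h4 _ a).1,
      (finrank_eq_sum_tyE _).symm.trans hn⟩, (((tyE g.1.toLinearMap).map natDegree).toFinset.filter
        (fun j : ℕ => Even j)).filter fun j => Cl (bet B g.1 (j - 1))⟩, Finset.mem_sigma.mpr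
      ⟨Finset.mem_filter.mpr ⟨Finset.mem_univ _, fun a ha => (h4 a ha).2, fun j hj => ?_⟩,
        Finset.mem_powerset.mpr (Finset.filter_subset _ _)⟩⟩, h3, fun k hk hm => ?_⟩
    · obtain ⟨j, rfl⟩ := hj
      have := even_count_eps h2 (.inr rfl) hs hB g.2.1 true (j := 2 * j) (by
        simpa using fun e => h2 (by linear_combination -e))
      rw [h3] at this
      convert this using 1
      refine (Multiset.count_map_eq_count' _ _ (pow_inj (F := F)) _).symm.trans ?_
      simp [cb]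
    · simp only [Finset.mem_filter, Multiset.mem_toFinset, add_tsub_cancel_right]
      exact ⟨fun a => ⟨⟨hm, hk.add_one⟩, a⟩, fun a => a.2⟩
  · rintro ⟨⟨μ, S⟩, hi⟩
    obtain ⟨-, h1, h3⟩ := Finset.mem_filter.mp (Finset.mem_sigma.mp hi).1
    obtain ⟨W, _, _, _, C, g, T, h4, h5⟩ := exists_rs h2 (· ∈ S) _ μ.parts le_rfl
      (fun _ => μ.parts_pos) h3
    have hC : LinearMap.BilinForm.IsAlt C := fun x => mul_left_cancel₀ h2 (by
      linear_combination T.symm x x)
    obtain ⟨e, he⟩ := alt_isometric (hC.isRefl.nondegenerate_iff_separatingLeft.mpr T.sep) hC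
      (hA.isRefl.nondegenerate_iff_separatingLeft.mpr hB) hA (by
        rw [finrank_eq_sum_tyE g.toLinearMap, h4, hn, Multiset.map_map]
        simp [natDegree_X_sub_one, μ.parts_sum])
    have h6 : tyE (e.symm.trans (g.trans e)).toLinearMap = μ.parts.map ((X - 1) ^ ·) :=
      h4 ▸ (tyE_congr e (by simp)).symm
    refine ⟨⟨e.symm.trans (g.trans e), fun x y => by
      simp only [LinearEquiv.trans_apply, he, T.isom]; rw [← he]; simp, fun _ => rfl⟩,
      isom_pow_of_lin ((pow_eq_one_iff_tyE _ p).mpr fun u hu => ?_), h6, fun k hk hm => ?_⟩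
    · obtain ⟨j, hj, rfl⟩ := Multiset.mem_map.mp (h6 ▸ hu)
      exact hX ▸ pow_dvd_pow _ (h1 j hj)
    · rw [← cl_bet_congr (g := g) e he (by simp)]
      exact h5 k hk hm
  · rintro ⟨⟨μ, S⟩, hi⟩ ⟨⟨μ', S'⟩, hj⟩ a b - - ⟨a1, a2⟩ ⟨b1, b2⟩
    constructor
    · intro h
      obtain ⟨c, hc⟩ := isConj_iff.mp h
      have h1 : ∀ v, c.1 (a.1 v) = b.1 (c.1 v) := fun v => by simp [← hc]
      obtain rfl : μ = μ' := Nat.Partition.ext (Multiset.map_injective pow_inj
        (a1.symm.trans ((tyE_congr c.1 h1).trans b1)))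
      have h3 := Finset.mem_powerset.mp (Finset.mem_sigma.mp hi).2
      have h4 := Finset.mem_powerset.mp (Finset.mem_sigma.mp hj).2
      have h5 : ∀ j ∈ μ.parts.toFinset.filter (fun j : ℕ => Even j), j ∈ S ↔ j ∈ S' := fun j hj => by
        obtain ⟨j1, j2⟩ := Finset.mem_filter.mp hj
        rw [Multiset.mem_toFinset] at j1
        obtain ⟨k, rfl⟩ : ∃ k, j = k + 1 := ⟨j - 1, by have := μ.parts_pos j1; omega⟩
        have hk := Nat.not_even_iff_odd.mp (Nat.even_add_one.mp j2)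
        rw [← a2 k hk j1, ← b2 k hk j1, cl_bet_congr c.1 c.2.1 h1]
      obtain rfl : S = S' := Finset.ext fun j => ⟨fun a => (h5 j (h3 a)).mp a,
        fun a => (h5 j (h4 a)).mpr a⟩
      rfl
    · intro h
      cases h
      obtain ⟨x, hx⟩ := (tyE_eq_iff _ _).mp (a1.trans b1.symm)
      obtain ⟨e, e1, e2⟩ := wall_iso h2 _ rfl (tr_of_ty h2 hs hB a.2.1 a1)
        (tr_of_ty h2 hs hB b.2.1 b1) x hx fun k hk H => by
          have h1 : Odd k := Nat.not_even_iff_odd.mp fun e => h2 (by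
            rw [e.neg_one_pow] at hk; linear_combination -hk)
          have h3 := mem_tyE_of_jb (T := a.1.toLinearMap) irr_X_sub_one monic_X_sub_one
            (by simpa using H)
          rw [a1] at h3
          have h4 := (Multiset.mem_map_of_injective pow_inj).mp h3
          rw [a2 k h1 h4, b2 k h1 h4]
      exact isConj_iff.mpr ⟨⟨e, e1, fun _ => rfl⟩, mul_inv_eq_iff_eq_mul.mpr
        (Subtype.ext (LinearEquiv.ext e2))⟩

end Cfsg.Agent.H18.Uc
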